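import Cfsg.Agent.Lib.OddLocal.Trans1
import Cfsg.Agent.Lib.OddLocal.PLength
import Cfsg.Agent.Lib.OddLocal.Rank2E
import Cfsg.Agent.S1461

/-!
BG section 10, first part: control of `p`-fusion in a maximal subgroup `M` for `p ∈ σ(M)`,
assuming the Uniqueness Theorem (explicit hypothesis).
-/

set_option autoImplicit false
set_option linter.unusedSectionVars false
set_option linter.style.haveILetI false

namespace Cfsg.Agent.Lib.FT

open Subgroup Cfsg Cfsg.Agent.Lib.OddLocal

open Cfsg.Agent.Lib.Coprime (mem_conj_map conj_mem_conj_map conj_map_conj_map conj_map_one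
  conj_map_mono mem_normalizer_of_conj_le conj_map_eq_iff_mem_normalizer isPGroup_conj_map)

variable {G : Type*} [Group G] [Finite G]

/-- The Uniqueness Theorem (S1403), as a hypothesis. -/
def UniquenessThm (G : Type*) [Group G] : Prop :=
  ∀ K : Subgroup G, K ≠ ⊤ → ¬ RankLE 1 K →
    (¬ RankLE 2 K ∨ ¬ RankLE 2 (centralizer (K : Set G))) → InUniqueMaximal K

/-- `D` is a maximal `p`-subgroup of `N` (a Sylow `p`-subgroup of `N`, as a subgroup of `G`). -/
structure IsMaxP (p : ℕ) (D N : Subgroup G) : Prop where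
  le : D ≤ N
  isP : IsPGroup p D
  max : ∀ D' : Subgroup G, D' ≤ N → IsPGroup p D' → D ≤ D' → D' = D

theorem exists_isMaxP_ge {p : ℕ} {T N : Subgroup G} (hT : T ≤ N) (hTp : IsPGroup p T) :
    ∃ D, IsMaxP p D N ∧ T ≤ D := by
  have hS : ({D : Subgroup G | D ≤ N ∧ IsPGroup p D ∧ T ≤ D}).Nonempty := ⟨T, hT, hTp, le_rfl⟩
  obtain ⟨Y, ⟨hY1, hY2, hY3⟩, hmax⟩ := (Set.toFinite _).exists_maximal hS
  refine ⟨Y, ⟨hY1, hY2, fun D' h1 h2 h3 => ?_⟩, hY3⟩
  exact le_antisymm (hmax ⟨h1, h2, hY3.trans h3⟩ h3) h3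

/-- The Sylow subgroup of `↥N` given by a maximal `p`-subgroup. -/
def IsMaxP.toSylow {p : ℕ} {D N : Subgroup G} (h : IsMaxP p D N) : Sylow p ↥N where
  toSubgroup := D.subgroupOf N
  isPGroup' := by
    intro x
    obtain ⟨k, hk⟩ := h.isP ⟨((x : ↥N) : G), x.2⟩
    exact ⟨k, by
      apply Subtype.ext
      apply Subtype.ext
      simpa using congrArg Subtype.val hk⟩
  is_maximal' := by
    intro Q hQ hle
    have h1 : Q.map N.subtype ≤ N := Subgroup.map_subtype_le _
    have h2 : IsPGroup p (Q.map N.subtype) := hQ.map N.subtype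
    have h3 : D ≤ Q.map N.subtype := by
      intro x hx
      exact ⟨⟨x, h.le hx⟩, hle (by simpa [Subgroup.mem_subgroupOf] using hx), rfl⟩
    have h4 := h.max _ h1 h2 h3
    rw [← h4]
    exact (Subgroup.comap_map_eq_self_of_injective N.subtype_injective Q).symm

theorem IsMaxP.exists_conj_le {p : ℕ} [Fact p.Prime] {D N T : Subgroup G} (h : IsMaxP p D N) (hTN : T ≤ N)
    (hT : IsPGroup p T) : ∃ n ∈ N, T.map (MulAut.conj n).toMonoidHom ≤ D := by
  have hT' : IsPGroup p (T.subgroupOf N) := by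
    intro x
    obtain ⟨k, hk⟩ := hT ⟨((x : ↥N) : G), x.2⟩
    exact ⟨k, by
      apply Subtype.ext
      apply Subtype.ext
      simpa using congrArg Subtype.val hk⟩
  obtain ⟨S, hS⟩ := hT'.exists_le_sylow
  obtain ⟨n, hn⟩ := MulAction.exists_smul_eq ↥N S h.toSylow
  refine ⟨n, n.2, ?_⟩
  rintro _ ⟨t, ht, rfl⟩
  have h1 : (⟨t, hTN ht⟩ : ↥N) ∈ (S : Subgroup ↥N) := hS (by simpa [Subgroup.mem_subgroupOf] using ht)
  have h2 : n * ⟨t, hTN ht⟩ * n⁻¹ ∈ ((n • S : Sylow p ↥N) : Subgroup ↥N) := by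
    rw [Sylow.coe_subgroup_smul]
    exact Cfsg.Agent.Lib.Basic.conj_mem_conj_smul.mpr h1
  rw [hn] at h2
  have h3 : (n * ⟨t, hTN ht⟩ * n⁻¹ : ↥N) ∈ D.subgroupOf N := h2
  have h4 := Subgroup.mem_subgroupOf.mp h3
  simpa [MulAut.conj_apply] using h4

theorem IsMaxP.conj_in {p : ℕ} [Fact p.Prime] {D N : Subgroup G} (h : IsMaxP p D N) {n : G} (hn : n ∈ N) :
    IsMaxP p (D.map (MulAut.conj n).toMonoidHom) N := by
  refine ⟨?_, isPGroup_conj_map h.isP n, ?_⟩
  · rintro _ ⟨d, hd, rfl⟩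
    exact N.mul_mem (N.mul_mem hn (h.le hd)) (N.inv_mem hn)
  · intro D' h1 h2 h3
    have h4 : D'.map (MulAut.conj n⁻¹).toMonoidHom = D := by
      apply h.max
      · rintro _ ⟨d, hd, rfl⟩
        exact N.mul_mem (N.mul_mem (N.inv_mem hn) (h1 hd)) (by simpa using hn)
      · exact isPGroup_conj_map h2 _
      · intro d hd
        refine ⟨n * d * n⁻¹, h3 (conj_mem_conj_map D n d hd), ?_⟩
        simp [MulAut.conj_apply, mul_assoc]
    rw [← h4, conj_map_conj_map, mul_inv_cancel, conj_map_one]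

theorem IsMaxP.exists_conj_eq {p : ℕ} [Fact p.Prime] {D₁ D₂ N : Subgroup G} (h₁ : IsMaxP p D₁ N)
    (h₂ : IsMaxP p D₂ N) : ∃ n ∈ N, D₁.map (MulAut.conj n).toMonoidHom = D₂ := by
  obtain ⟨n, hn, hle⟩ := h₂.exists_conj_le h₁.le h₁.isP
  exact ⟨n, hn, ((h₁.conj_in hn).max D₂ h₂.le h₂.isP hle).symm⟩

/-- Conjugating a subgroup conjugates its normalizer. -/
theorem normalizer_conj_map (T : Subgroup G) (x : G) :
    normalizer ((T.map (MulAut.conj x).toMonoidHom : Subgroup G) : Set G) =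
      (normalizer (T : Set G)).map (MulAut.conj x).toMonoidHom := by
  ext y
  rw [mem_conj_map, Subgroup.mem_normalizer_iff, Subgroup.mem_normalizer_iff]
  constructor
  · intro h t
    have h1 := h (x * t * x⁻¹)
    simp only [SetLike.mem_coe, mem_conj_map] at h1
    have e1 : x⁻¹ * (x * t * x⁻¹) * x = t := by group
    have e2 : x⁻¹ * (y * (x * t * x⁻¹) * y⁻¹) * x = (x⁻¹ * y * x) * t * (x⁻¹ * y * x)⁻¹ := by group
    rw [e1, e2] at h1
    exact h1
  · intro h g
    have h1 := h (x⁻¹ * g * x)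
    simp only [SetLike.mem_coe, mem_conj_map]
    have e2 : (x⁻¹ * y * x) * (x⁻¹ * g * x) * (x⁻¹ * y * x)⁻¹ = x⁻¹ * (y * g * y⁻¹) * x := by group
    rw [e2] at h1
    exact h1

theorem IsMaxP.conj {p : ℕ} [Fact p.Prime] {D N : Subgroup G} (h : IsMaxP p D N) (x : G) :
    IsMaxP p (D.map (MulAut.conj x).toMonoidHom) (N.map (MulAut.conj x).toMonoidHom) := by
  refine ⟨conj_map_mono h.le x, isPGroup_conj_map h.isP x, ?_⟩
  intro D' h1 h2 h3
  have h4 : D'.map (MulAut.conj x⁻¹).toMonoidHom = D := by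
    apply h.max
    · have := conj_map_mono h1 x⁻¹
      rwa [conj_map_conj_map, inv_mul_cancel, conj_map_one] at this
    · exact isPGroup_conj_map h2 _
    · have := conj_map_mono h3 x⁻¹
      rwa [conj_map_conj_map, inv_mul_cancel, conj_map_one] at this
  rw [← h4, conj_map_conj_map, mul_inv_cancel, conj_map_one]

/-- The statement "`M` controls conjugation of `T` in `M`". -/
def Ctrl (M T : Subgroup G) : Prop :=
  ∀ x : G, T.map (MulAut.conj x).toMonoidHom ≤ M → ∃ m ∈ M, ∀ t ∈ T, x * t * x⁻¹ = m * t * m⁻¹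

/-- A `p`-subgroup of `M` is contained in an `M`-conjugate of a Sylow `p`-subgroup `P ≤ M` of `G`. -/
theorem exists_conj_sylow_ge {p : ℕ} [Fact p.Prime] {M : Subgroup G} (P : Sylow p G)
    (hPM : (P : Subgroup G) ≤ M) {T : Subgroup G} (hT : IsPGroup p T) (hTM : T ≤ M) :
    ∃ m ∈ M, T ≤ (P : Subgroup G).map (MulAut.conj m).toMonoidHom := by
  have hP : IsMaxP p (P : Subgroup G) M := ⟨hPM, P.isPGroup', fun D' _ h2 h3 => P.is_maximal' h2 h3⟩
  obtain ⟨n, hn, hle⟩ := hP.exists_conj_le hTM hT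
  refine ⟨n⁻¹, M.inv_mem hn, ?_⟩
  intro t ht
  rw [mem_conj_map]
  have := hle (conj_mem_conj_map T n t ht)
  simpa using this

/-- Core of the control argument (Alperin-style downward induction). -/
theorem ctrl_step {p : ℕ} [Fact p.Prime] {M : Subgroup G} (P : Sylow p G)
    (hPM : (P : Subgroup G) ≤ M) (hNP : normalizer ((P : Subgroup G) : Set G) ≤ M)
    (hfact : ∀ R D : Subgroup G, IsPGroup p R → R ≠ ⊥ → R ≤ D → IsMaxP p D (normalizer (R : Set G)) → D ≤ M →
      ¬ normalizer (R : Set G) ≤ M → ∀ n ∈ normalizer (R : Set G),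
        ∃ b ∈ normalizer (D : Set G), ∃ a ∈ centralizer (R : Set G), n = b * a)
    (T : Subgroup G) (hTp : IsPGroup p T) (hT1 : T ≠ ⊥) (hTM : T ≤ M)
    (IH : ∀ T' : Subgroup G, IsPGroup p T' → T' ≠ ⊥ → T' ≤ M → Nat.card T < Nat.card T' → Ctrl M T') :
    Ctrl M T := by
  intro x hx
  by_cases hcard : Nat.card T = Nat.card (P : Subgroup G)
  · -- `T` is a Sylow subgroup
    obtain ⟨m₁, hm₁, hle₁⟩ := exists_conj_sylow_ge P hPM hTp hTM
    obtain ⟨m₂, hm₂, hle₂⟩ := exists_conj_sylow_ge P hPM (isPGroup_conj_map hTp x) hx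
    have e₁ : T = (P : Subgroup G).map (MulAut.conj m₁).toMonoidHom :=
      Subgroup.eq_of_le_of_card_ge hle₁ (by rw [card_conj_map, hcard])
    have e₂ : T.map (MulAut.conj x).toMonoidHom = (P : Subgroup G).map (MulAut.conj m₂).toMonoidHom :=
      Subgroup.eq_of_le_of_card_ge hle₂ (by rw [card_conj_map, card_conj_map, hcard])
    rw [e₁, conj_map_conj_map] at e₂
    have h1 : (m₂⁻¹ * (x * m₁)) ∈ normalizer ((P : Subgroup G) : Set G) := by
      rw [← conj_map_eq_iff_mem_normalizer, ← conj_map_conj_map, e₂, conj_map_conj_map, inv_mul_cancel,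
        conj_map_one]
    have h2 : m₂⁻¹ * (x * m₁) ∈ M := hNP h1
    have hxM : x ∈ M := by
      have : x = m₂ * (m₂⁻¹ * (x * m₁)) * m₁⁻¹ := by group
      rw [this]
      exact M.mul_mem (M.mul_mem hm₂ h2) (M.inv_mem hm₁)
    exact ⟨x, hxM, fun t _ => rfl⟩
  · -- `T` is not a Sylow subgroup
    have hlt : Nat.card T < Nat.card (P : Subgroup G) := by
      obtain ⟨m₁, hm₁, hle₁⟩ := exists_conj_sylow_ge P hPM hTp hTM
      have := Nat.le_of_dvd Nat.card_pos (Subgroup.card_dvd_of_le hle₁)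
      rw [card_conj_map] at this
      exact lt_of_le_of_ne this hcard
    -- maximal `p`-subgroups of `N_M(T₁)` are Sylow in `N_G(T₁)`
    have key : ∀ T₁ : Subgroup G, IsPGroup p T₁ → T₁ ≤ M → T₁ ≠ ⊥ → Nat.card T₁ = Nat.card T →
        ∃ D : Subgroup G, IsMaxP p D (normalizer (T₁ : Set G)) ∧ D ≤ M ∧ T₁ ≤ D ∧ Nat.card T < Nat.card D := by
      intro T₁ hT₁p hT₁M hT₁1 hT₁c
      obtain ⟨m₁, hm₁, hle₁⟩ := exists_conj_sylow_ge P hPM hT₁p hT₁M
      have hP₁ : IsPGroup p ((P : Subgroup G).map (MulAut.conj m₁).toMonoidHom) :=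
        isPGroup_conj_map P.isPGroup' m₁
      have hP₁M : (P : Subgroup G).map (MulAut.conj m₁).toMonoidHom ≤ M := by
        rintro _ ⟨d, hd, rfl⟩
        exact M.mul_mem (M.mul_mem hm₁ (hPM hd)) (M.inv_mem hm₁)
      have hlt₁ : T₁ < (P : Subgroup G).map (MulAut.conj m₁).toMonoidHom := by
        refine lt_of_le_of_ne hle₁ fun he => ?_
        rw [he, card_conj_map] at hT₁c
        exact hcard hT₁c.symm
      have hgrow := lt_inf_normalizer hP₁ hlt₁
      set D₀ := (P : Subgroup G).map (MulAut.conj m₁).toMonoidHom ⊓ normalizer (T₁ : Set G) with hD₀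
      have hD₀p : IsPGroup p D₀ := hP₁.to_le inf_le_left
      have hD₀le : D₀ ≤ M ⊓ normalizer (T₁ : Set G) := inf_le_inf_right _ hP₁M
      obtain ⟨D, hD, hD₀D⟩ := exists_isMaxP_ge hD₀le hD₀p
      have hDM : D ≤ M := hD.le.trans inf_le_left
      have hDN : D ≤ normalizer (T₁ : Set G) := hD.le.trans inf_le_right
      have hT₁D : T₁ ≤ D := hgrow.le.trans hD₀D
      have hcD : Nat.card T < Nat.card D := by
        rw [← hT₁c]
        exact card_lt_of_subgroup_lt (lt_of_lt_of_le hgrow hD₀D)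
      have hD1 : D ≠ ⊥ := by
        rintro rfl
        exact hT₁1 (le_bot_iff.mp hT₁D)
      refine ⟨D, ⟨hDN, hD.isP, ?_⟩, hDM, hT₁D, hcD⟩
      intro D' hD'N hD'p hDD'
      -- conjugate `D'` into `P`
      obtain ⟨S, hS⟩ := hD'p.exists_le_sylow
      obtain ⟨z, hz⟩ := MulAction.exists_smul_eq G S P
      have hzD' : D'.map (MulAut.conj z).toMonoidHom ≤ (P : Subgroup G) := by
        rintro _ ⟨w, hw, rfl⟩
        have := Cfsg.Agent.Lib.Basic.conj_mem_conj_smul (g := z) (x := w) (H := (S : Subgroup G)) |>.mpr (hS hw)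
        rw [← hz, Sylow.coe_subgroup_smul]
        simpa [MulAut.conj_apply] using this
      obtain ⟨m, hm, hmc⟩ := IH D hD.isP hD1 hDM hcD z
        ((conj_map_mono hDD' z).trans (hzD'.trans hPM))
      -- the element `c = m⁻¹ z` centralizes `D`
      set c := m⁻¹ * z with hc
      have hcD : ∀ d ∈ D, c * d * c⁻¹ = d := by
        intro d hd
        have := hmc d hd
        rw [hc]
        calc m⁻¹ * z * d * (m⁻¹ * z)⁻¹ = m⁻¹ * (z * d * z⁻¹) * m := by group
          _ = d := by rw [this]; group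
      have hcT₁ : T₁.map (MulAut.conj c).toMonoidHom = T₁ := by
        apply Subgroup.eq_of_le_of_card_ge
        · rintro _ ⟨t, ht, rfl⟩
          have := hcD t (hT₁D ht)
          simpa [MulAut.conj_apply, this] using ht
        · rw [card_conj_map]
      have hD'' : D'.map (MulAut.conj c).toMonoidHom = D := by
        apply hD.max
        · apply le_inf
          · rintro _ ⟨w, hw, rfl⟩
            have h1 : z * w * z⁻¹ ∈ M := hPM (hzD' ⟨w, hw, rfl⟩)
            have : (MulAut.conj c).toMonoidHom w = m⁻¹ * (z * w * z⁻¹) * m := by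
              change c * w * c⁻¹ = _
              rw [hc]
              group
            rw [this]
            exact M.mul_mem (M.mul_mem (M.inv_mem hm) h1) hm
          · rintro _ ⟨w, hw, rfl⟩
            have h1 : w ∈ normalizer (T₁ : Set G) := hD'N hw
            rw [← conj_map_eq_iff_mem_normalizer] at h1 ⊢
            change T₁.map (MulAut.conj (c * w * c⁻¹)).toMonoidHom = T₁
            have e : c * w * c⁻¹ = c * (w * c⁻¹) := by group
            rw [e]
            have e2 : T₁.map (MulAut.conj (c * (w * c⁻¹))).toMonoidHom =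
                ((T₁.map (MulAut.conj c⁻¹).toMonoidHom).map (MulAut.conj w).toMonoidHom).map
                  (MulAut.conj c).toMonoidHom := by
              simp only [conj_map_conj_map, mul_assoc]
            have e3 : T₁.map (MulAut.conj c⁻¹).toMonoidHom = T₁ := by
              conv_lhs => rw [← hcT₁]
              rw [conj_map_conj_map, inv_mul_cancel, conj_map_one]
            rw [e2, e3, h1, hcT₁]
        · exact isPGroup_conj_map hD'p _
        · intro d hd
          refine ⟨d, hDD' hd, ?_⟩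
          simpa [MulAut.conj_apply] using hcD d hd
      apply Subgroup.eq_of_le_of_card_ge hDD' |> fun _ => ?_
      exact (Subgroup.eq_of_le_of_card_ge hDD' (by rw [← hD'', card_conj_map])).symm
    set R := T.map (MulAut.conj x).toMonoidHom with hR
    have hRp : IsPGroup p R := isPGroup_conj_map hTp x
    have hRc : Nat.card R = Nat.card T := card_conj_map T x
    have hR1 : R ≠ ⊥ := by
      intro h
      apply hT1
      have h2 : Nat.card T = 1 := by rw [← hRc, h, Subgroup.card_bot]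
      exact Subgroup.eq_bot_of_card_eq _ h2
    obtain ⟨DT, hDT, hDTM, hTDT, hcDT⟩ := key T hTp hTM hT1 rfl
    obtain ⟨DR, hDR, hDRM, hRDR, hcDR⟩ := key R hRp hx hR1 hRc
    have hDTx := hDT.conj x
    rw [← normalizer_conj_map] at hDTx
    obtain ⟨n, hn, hnD⟩ := hDTx.exists_conj_eq hDR
    rw [conj_map_conj_map] at hnD
    have hDT1 : DT ≠ ⊥ := by
      rintro rfl
      exact hT1 (le_bot_iff.mp hTDT)
    have hDR1 : DR ≠ ⊥ := by
      rintro rfl
      exact hR1 (le_bot_iff.mp hRDR)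
    obtain ⟨m, hm, hmc⟩ := IH DT hDT.isP hDT1 hDTM hcDT (n * x) (by rw [hnD]; exact hDRM)
    -- the images lie in `R`
    have hrR : ∀ t ∈ T, m * t * m⁻¹ ∈ R := by
      intro t ht
      rw [← hmc t (hTDT ht)]
      have h1 : x * t * x⁻¹ ∈ R := conj_mem_conj_map T x t ht
      have h2 : n * (x * t * x⁻¹) * n⁻¹ ∈ R := (Subgroup.mem_normalizer_iff.mp hn _).1 h1
      convert h2 using 1
      group
    by_cases hNM : normalizer (R : Set G) ≤ M
    · refine ⟨n⁻¹ * m, M.mul_mem (M.inv_mem (hNM hn)) hm, ?_⟩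
      intro t ht
      have := hmc t (hTDT ht)
      calc x * t * x⁻¹ = n⁻¹ * ((n * x) * t * (n * x)⁻¹) * n := by group
        _ = n⁻¹ * m * t * (n⁻¹ * m)⁻¹ := by rw [this]; group
    · obtain ⟨b, hb, a, ha, hba⟩ := hfact R DR hRp hR1 hRDR hDR hDRM hNM n⁻¹
        ((normalizer (R : Set G)).inv_mem hn)
      obtain ⟨m₂, hm₂, hm₂c⟩ := IH DR hDR.isP hDR1 hDRM hcDR b (by
        rw [(conj_map_eq_iff_mem_normalizer DR b).mpr hb]
        exact hDRM)
      refine ⟨m₂ * m, M.mul_mem hm₂ hm, ?_⟩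
      intro t ht
      have h0 := hmc t (hTDT ht)
      have hr := hrR t ht
      have ha' : a * (m * t * m⁻¹) * a⁻¹ = m * t * m⁻¹ := by
        have := Subgroup.mem_centralizer_iff.mp ha _ hr
        rw [← this]
        group
      have h1 : x * t * x⁻¹ = n⁻¹ * (m * t * m⁻¹) * n⁻¹⁻¹ := by
        rw [← h0]
        group
      rw [h1, hba]
      calc b * a * (m * t * m⁻¹) * (b * a)⁻¹ = b * (a * (m * t * m⁻¹) * a⁻¹) * b⁻¹ := by group
        _ = b * (m * t * m⁻¹) * b⁻¹ := by rw [ha']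
        _ = m₂ * (m * t * m⁻¹) * m₂⁻¹ := hm₂c _ (hRDR hr)
        _ = m₂ * m * t * (m₂ * m)⁻¹ := by group

/-- The control theorem from the factorization hypothesis. -/
theorem ctrl_of_fact {p : ℕ} [Fact p.Prime] {M : Subgroup G} (P : Sylow p G)
    (hPM : (P : Subgroup G) ≤ M) (hNP : normalizer ((P : Subgroup G) : Set G) ≤ M)
    (hfact : ∀ R D : Subgroup G, IsPGroup p R → R ≠ ⊥ → R ≤ D → IsMaxP p D (normalizer (R : Set G)) → D ≤ M →
      ¬ normalizer (R : Set G) ≤ M → ∀ n ∈ normalizer (R : Set G),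
        ∃ b ∈ normalizer (D : Set G), ∃ a ∈ centralizer (R : Set G), n = b * a)
    (T : Subgroup G) (hTp : IsPGroup p T) (hT1 : T ≠ ⊥) (hTM : T ≤ M) : Ctrl M T := by
  induction' hk : Nat.card G - Nat.card T using Nat.strong_induction_on with k ih generalizing T
  apply ctrl_step P hPM hNP hfact T hTp hT1 hTM
  intro T' h1 h2 h3 h4
  refine ih _ ?_ T' h1 h2 h3 rfl
  have h5 : Nat.card T' ≤ Nat.card G := Subgroup.card_le_card_group T'
  omega

end Cfsg.Agent.Lib.FT
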