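import Cfsg.Agent.Lib.FT.BG10a
import Cfsg.Agent.Lib.OddLocal.UniqueP
import Cfsg.Agent.Lib.OddLocal.Rank3I
import Cfsg.Agent.Lib.Transfer.Fusion
import Cfsg.Agent.S1451
import Cfsg.Agent.S1443

/-!
BG section 10: consequences of the Uniqueness Theorem for a maximal subgroup.
-/

set_option autoImplicit false
set_option linter.unusedSectionVars false
set_option linter.style.haveILetI false

namespace Cfsg.Agent.Lib.FT

open Subgroup Cfsg Cfsg.Agent.Lib.OddLocal

open Cfsg.Agent.Lib.Coprime (mem_conj_map conj_mem_conj_map conj_map_conj_map conj_map_one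
  conj_map_mono mem_normalizer_of_conj_le conj_map_eq_iff_mem_normalizer isPGroup_conj_map)

open scoped commutatorElement

variable {G : Type*} [Group G] [Finite G]

/-! ### `p`-length -/

theorem plengthLE_one_of_index_coprime {X : Type*} [Group X] [Finite X] {p : ℕ}
    (h : (pPrimePCore p X).index.Coprime p) : PLengthLE p 1 X := by
  have h1 := upperPSeries_succ_even (G := X) p 2 (by decide)
  have key : ∀ (N M : Subgroup X) [N.Normal] [M.Normal], N = M → M.index.Coprime p →
      (pPrimeCore p (X ⧸ N)).comap (QuotientGroup.mk' N) = ⊤ := by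
    intro N M _ _ e hc
    subst e
    have h2 : pPrimeCore p (X ⧸ N) = ⊤ := by
      apply top_le_iff.mp
      apply le_sSup
      refine ⟨inferInstance, ?_⟩
      rw [Subgroup.card_top, ← Subgroup.index_eq_card]
      exact hc
    rw [h2, Subgroup.comap_top]
  unfold PLengthLE
  rw [show (2 * 1 + 1 : ℕ) = 2 + 1 from rfl, h1]
  exact key _ _ (upperPSeries_two (G := X) p) h

/-! ### Maximal subgroups -/

section Coatom

variable {M : Subgroup G}

theorem exists_coatom_ge {K : Subgroup G} (hK : K ≠ ⊤) : ∃ L : Subgroup G, IsCoatom L ∧ K ≤ L := by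
  rcases eq_top_or_exists_le_coatom K with h | h
  · exact absurd h hK
  · exact h

theorem coatom_ne_bot (hG : IsMinSimpleOddOrder G) (hM : IsCoatom M) : M ≠ ⊥ := by
  rintro rfl
  haveI := (hG.2.1).toNontrivial
  obtain ⟨g, hg⟩ := exists_ne (1 : G)
  have h1 : zpowers g = ⊤ := by
    apply hM.2
    refine lt_of_le_of_ne bot_le fun h => hg ?_
    exact Subgroup.zpowers_eq_bot.mp h.symm
  apply hG.2.2.1
  haveI : IsCyclic G := ⟨⟨g, fun x => by
    have : x ∈ zpowers g := by rw [h1]; trivial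
    exact this⟩⟩
  exact ⟨⟨fun a b => IsCyclic.commGroup.mul_comm a b⟩⟩

theorem normalizer_coatom (hG : IsMinSimpleOddOrder G) (hM : IsCoatom M) :
    normalizer (M : Set G) = M := by
  by_contra hne
  have hlt : M < normalizer (M : Set G) := lt_of_le_of_ne Subgroup.le_normalizer (Ne.symm hne)
  have htop := hM.2 _ hlt
  exact IsMinSimpleOddOrder.normalizer_ne_top hG (coatom_ne_bot hG hM) hM.1 htop

theorem coatom_conj (hM : IsCoatom M) (g : G) : IsCoatom (M.map (MulAut.conj g).toMonoidHom) := by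
  constructor
  · intro h
    apply hM.1
    have := congrArg (fun K : Subgroup G => K.map (MulAut.conj g⁻¹).toMonoidHom) h
    simp only [conj_map_conj_map, inv_mul_cancel, conj_map_one] at this
    rw [this]
    ext x
    simp only [mem_conj_map, mem_top, iff_true]
  · intro L hL
    have h1 : M ≤ L.map (MulAut.conj g⁻¹).toMonoidHom := by
      have := conj_map_mono hL.le g⁻¹
      rwa [conj_map_conj_map, inv_mul_cancel, conj_map_one] at this
    have h2 : M ≠ L.map (MulAut.conj g⁻¹).toMonoidHom := by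
      intro h
      apply hL.ne
      rw [h, conj_map_conj_map, mul_inv_cancel, conj_map_one]
    have h3 := hM.2 _ (lt_of_le_of_ne h1 h2)
    have h4 : L = (L.map (MulAut.conj g⁻¹).toMonoidHom).map (MulAut.conj g).toMonoidHom := by
      rw [conj_map_conj_map, mul_inv_cancel, conj_map_one]
    rw [h4, h3]
    ext x
    simp only [mem_conj_map, mem_top, iff_true]

theorem uniq_eq {K L L' : Subgroup G} (hK : InUniqueMaximal K) (hL : IsCoatom L) (hKL : K ≤ L)
    (hL' : IsCoatom L') (hKL' : K ≤ L') : L = L' := by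
  obtain ⟨N, _, hN⟩ := hK
  rw [hN L ⟨hL, hKL⟩, hN L' ⟨hL', hKL'⟩]

theorem uniq_of_le {K K' : Subgroup G} (hK : InUniqueMaximal K) (h : K ≤ K') (hK' : K' ≠ ⊤) :
    InUniqueMaximal K' := by
  obtain ⟨L, hL, hKL⟩ := exists_coatom_ge hK'
  exact ⟨L, ⟨hL, hKL⟩, fun L' hL' => uniq_eq hK hL'.1 (h.trans hL'.2) hL (h.trans hKL)⟩

theorem uniq_le {K : Subgroup G} (hM : IsCoatom M) (hKM : K ≤ M) (hK : InUniqueMaximal K) {X : Subgroup G}
    (hX : X ≠ ⊤) (hKX : K ≤ X) : X ≤ M := by
  obtain ⟨L, hL, hXL⟩ := exists_coatom_ge hX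
  rw [uniq_eq hK hM hKM hL (hKX.trans hXL)]
  exact hXL

theorem uniq_normalizer_le (hG : IsMinSimpleOddOrder G) {K : Subgroup G} (hM : IsCoatom M) (hKM : K ≤ M)
    (hK : InUniqueMaximal K) : normalizer (K : Set G) ≤ M := by
  intro g hg
  have h1 : K ≤ M.map (MulAut.conj g).toMonoidHom := by
    have := conj_map_mono hKM g
    rwa [(conj_map_eq_iff_mem_normalizer K g).mpr hg] at this
  have h2 := uniq_eq hK hM hKM (coatom_conj hM g) h1
  rw [← normalizer_coatom hG hM, ← conj_map_eq_iff_mem_normalizer]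
  exact h2.symm

end Coatom

/-! ### Ranks -/

theorem prank_of_injective {X Y : Type*} [Group X] [Group Y] {p k : ℕ} (f : X →* Y)
    (hf : Function.Injective f) (h : PRankLE p k Y) : PRankLE p k X := by
  intro E hEc hEe
  have h1 := h (E.map f) (by
    constructor
    constructor
    rintro ⟨_, a, ha, rfl⟩ ⟨_, b, hb, rfl⟩
    apply Subtype.ext
    have := hEc.is_comm.comm ⟨a, ha⟩ ⟨b, hb⟩
    simpa using congrArg (fun x : E => f (x : X)) this) (by
    rintro _ ⟨a, ha, rfl⟩
    rw [← map_pow, hEe a ha, map_one])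
  rwa [Nat.card_congr (E.equivMapOfInjective _ hf).symm.toEquiv] at h1

theorem not_prank_map_subtype {X : Type*} [Group X] {p k : ℕ} {M : Subgroup X} (P : Subgroup M)
    (h : ¬ PRankLE p k ↥P) : ¬ PRankLE p k ↥(P.map M.subtype) := by
  intro h'
  apply h
  exact prank_of_injective (P.equivMapOfInjective _ M.subtype_injective).toMonoidHom
    (P.equivMapOfInjective _ M.subtype_injective).injective h'

theorem prank_mono {X : Type*} [Group X] {p k l : ℕ} (hp : 0 < p) (hkl : k ≤ l) (h : PRankLE p k X) :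
    PRankLE p l X := fun A h1 h2 => (h A h1 h2).trans (Nat.pow_le_pow_right hp hkl)

theorem not_rankLE_of_not_prank {X : Type*} [Group X] {p k : ℕ} (hp : p.Prime) (h : ¬ PRankLE p k X) :
    ¬ RankLE k X := fun h' => h (h' p hp)

/-- A subgroup of rank at least three lies in a unique maximal subgroup. -/
theorem unique_of_prank (huniq : UniquenessThm G) {p : ℕ} (hp : p.Prime) {K : Subgroup G} (hK : K ≠ ⊤)
    (hr : ¬ PRankLE p 2 ↥K) : InUniqueMaximal K := by
  apply huniq K hK
  · intro h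
    exact hr (prank_mono hp.pos (by norm_num) (h p hp))
  · exact Or.inl (not_rankLE_of_not_prank hp hr)

/-- The `p`-rank of a subgroup is detected in a maximal `p`-subgroup. -/
theorem IsMaxP.prank_of {p k : ℕ} [Fact p.Prime] {D N : Subgroup G} (h : IsMaxP p D N) (hr : PRankLE p k ↥D) :
    PRankLE p k ↥N := by
  apply prank_of_sylow h.toSylow
  have hinj : Function.Injective (fun x : ↥(h.toSylow : Subgroup ↥N) => (⟨((x : ↥N) : G), x.2⟩ : ↥D)) := by
    intro a b hab
    apply Subtype.ext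
    apply Subtype.ext
    exact congrArg (fun y : ↥D => (y : G)) hab
  exact prank_of_injective ⟨⟨fun x : ↥(h.toSylow : Subgroup ↥N) => (⟨((x : ↥N) : G), x.2⟩ : ↥D), rfl⟩,
    fun _ _ => rfl⟩ hinj hr

/-! ### Sylow subgroups of `M` -/

section Sigma

variable {M : Subgroup G} {p : ℕ} [hpf : Fact p.Prime]

theorem isMaxP_map (P : Sylow p ↥M) : IsMaxP p ((P : Subgroup M).map M.subtype) M := by
  refine ⟨map_subtype_le _, P.isPGroup'.map M.subtype, ?_⟩
  intro D' h1 h2 h3
  have h4 : IsPGroup p (D'.subgroupOf M) := by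
    intro x
    obtain ⟨k, hk⟩ := h2 ⟨((x : ↥M) : G), x.2⟩
    exact ⟨k, by
      apply Subtype.ext
      apply Subtype.ext
      simpa using congrArg Subtype.val hk⟩
  have h5 : (P : Subgroup M) ≤ D'.subgroupOf M := by
    intro x hx
    exact Subgroup.mem_subgroupOf.mpr (h3 ⟨x, hx, rfl⟩)
  have h6 := P.is_maximal' h4 h5
  rw [← h6, Subgroup.map_subgroupOf_eq_of_le h1]

/-- `p ∈ σ(M)`: every Sylow `p`-subgroup of `M` is a Sylow subgroup of `G` with normalizer inside `M`. -/
theorem sigma_sylow (hp : p ∈ sigma M) (P : Sylow p ↥M) :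
    ∃ S : Sylow p G, (S : Subgroup G) = (P : Subgroup M).map M.subtype ∧
      normalizer ((S : Subgroup G) : Set G) ≤ M := by
  obtain ⟨-, -, P₀, hP₀⟩ := hp
  -- the normalizer of `P` is in `M`
  have hN : normalizer (((P : Subgroup M).map M.subtype : Subgroup G) : Set G) ≤ M := by
    obtain ⟨m, hm, hle⟩ := (isMaxP_map P).exists_conj_le (isMaxP_map P₀).le (isMaxP_map P₀).isP
    have e : ((P₀ : Subgroup M).map M.subtype).map (MulAut.conj m).toMonoidHom = (P : Subgroup M).map M.subtype :=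
      (((isMaxP_map P₀).conj_in hm).max _ (isMaxP_map P).le (isMaxP_map P).isP hle).symm
    rw [← e, normalizer_conj_map]
    rintro _ ⟨y, hy, rfl⟩
    exact M.mul_mem (M.mul_mem hm (hP₀ hy)) (M.inv_mem hm)
  refine ⟨⟨(P : Subgroup M).map M.subtype, P.isPGroup'.map M.subtype, ?_⟩, rfl, hN⟩
  intro Q hQ hle
  by_contra hne
  have hlt : (P : Subgroup M).map M.subtype < Q := lt_of_le_of_ne hle (Ne.symm hne)
  have hgrow := lt_inf_normalizer hQ hlt
  have hle2 : Q ⊓ normalizer (((P : Subgroup M).map M.subtype : Subgroup G) : Set G) ≤ M :=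
    inf_le_right.trans hN
  have := (isMaxP_map P).max _ hle2 (hQ.to_le inf_le_left) hgrow.le
  exact hgrow.ne this.symm

theorem sigma_exists_sylow (hp : p ∈ sigma M) : ∃ S : Sylow p G, (S : Subgroup G) ≤ M ∧
    normalizer ((S : Subgroup G) : Set G) ≤ M := by
  obtain ⟨P⟩ : Nonempty (Sylow p ↥M) := inferInstance
  obtain ⟨S, hS, hN⟩ := sigma_sylow hp P
  exact ⟨S, hS ▸ map_subtype_le _, hN⟩

/-- The factorization of normalizers not lying in `M`. -/
theorem fact_of_uniq (hG : IsMinSimpleOddOrder G) (huniq : UniquenessThm G) (hM : IsCoatom M)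
    (R D : Subgroup G) (hRp : IsPGroup p R) (hR1 : R ≠ ⊥) (hRD : R ≤ D)
    (hD : IsMaxP p D (normalizer (R : Set G))) (hDM : D ≤ M) (hNM : ¬ normalizer (R : Set G) ≤ M) :
    ∀ n ∈ normalizer (R : Set G), ∃ b ∈ normalizer (D : Set G), ∃ a ∈ centralizer (R : Set G), n = b * a := by
  have hp : p.Prime := hpf.out
  have hRtop : R ≠ ⊤ := IsMinSimpleOddOrder.ne_top_of_isPGroup hG hp hRp
  have hNtop : normalizer (R : Set G) ≠ ⊤ := IsMinSimpleOddOrder.normalizer_ne_top hG hR1 hRtop
  have hDr : PRankLE p 2 ↥D := by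
    by_contra hr
    have hDtop : D ≠ ⊤ := IsMinSimpleOddOrder.ne_top_of_isPGroup hG hp hD.isP
    exact hNM (uniq_le hM hDM (unique_of_prank huniq hp hDtop hr) hNtop hD.le)
  have hNr : PRankLE p 2 ↥(normalizer (R : Set G)) := hD.prank_of hDr
  haveI hNs : Group.IsSolvable ↥(normalizer (R : Set G)) := IsMinSimpleOddOrder.isSolvable hG hNtop
  have hodd : Odd (Nat.card ↥(normalizer (R : Set G))) := Odd.of_dvd_nat hG.1 (Subgroup.card_subgroup_dvd_card _)
  have hp2 : p ≠ 2 := by
    rintro rfl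
    haveI : Nontrivial G := (hG.2.1).toNontrivial
    have hR2 : Nat.card R ∣ Nat.card G := Subgroup.card_subgroup_dvd_card _
    obtain ⟨k, hk⟩ := hRp.exists_card_eq
    have hk0 : k ≠ 0 := by
      rintro rfl
      apply hR1
      exact Subgroup.eq_bot_of_card_eq _ (by simpa using hk)
    have h2 : 2 ∣ Nat.card G := (dvd_pow_self 2 hk0).trans (hk ▸ hR2)
    exact absurd (Odd.of_dvd_nat hG.1 h2) (by decide)
  obtain ⟨-, hidx, -⟩ := rank2_quotient_structure hodd p hp2 hNr
  have hpl := plengthLE_one_of_index_coprime hidx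
  have hS := (Cfsg.Agent.S1461.result p hpl hD.toSylow).2.1
  intro n hn
  obtain ⟨g, hg, c, hc, e⟩ := hS ((R.subgroupOf (normalizer (R : Set G)) : Subgroup _) : Set _) ⟨n, hn⟩
    (by
      intro y hy
      exact Subgroup.mem_subgroupOf.mpr (hRD (Subgroup.mem_subgroupOf.mp hy)))
    (by
      rintro _ ⟨y, hy, rfl⟩
      apply Subgroup.mem_subgroupOf.mpr
      have hy' : (y : G) ∈ R := Subgroup.mem_subgroupOf.mp hy
      exact hRD ((Subgroup.mem_normalizer_iff.mp hn _).1 hy'))
  refine ⟨(g : G), ?_, (c : G), ?_, ?_⟩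
  · apply mem_normalizer_of_conj_le
    intro x hx
    have hxN : x ∈ normalizer (R : Set G) := hD.le hx
    have h1 : (⟨x, hxN⟩ : ↥(normalizer (R : Set G))) ∈ ((hD.toSylow : Sylow p _) : Subgroup _) :=
      Subgroup.mem_subgroupOf.mpr hx
    have h2 := (Subgroup.mem_normalizer_iff.mp hg _).1 h1
    exact Subgroup.mem_subgroupOf.mp h2
  · rw [Subgroup.mem_centralizer_iff]
    intro r hr
    have hrN : r ∈ normalizer (R : Set G) := Subgroup.le_normalizer hr
    have h1 := Subgroup.mem_centralizer_iff.mp hc ⟨r, hrN⟩ (Subgroup.mem_subgroupOf.mpr hr)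
    exact congrArg Subtype.val h1
  · exact (congrArg Subtype.val e).symm

/-- Control of `p`-fusion by `M` for a prime `p ∈ σ(M)`. -/
theorem ctrl_of_sigma (hG : IsMinSimpleOddOrder G) (huniq : UniquenessThm G) (hM : IsCoatom M)
    (hp : p ∈ sigma M) (T : Subgroup G) (hTp : IsPGroup p T) (hT1 : T ≠ ⊥) (hTM : T ≤ M) : Ctrl M T := by
  obtain ⟨S, hS, hN⟩ := sigma_exists_sylow hp
  exact ctrl_of_fact S hS hN (fun R D h1 h2 h3 h4 h5 h6 => fact_of_uniq hG huniq hM R D h1 h2 h3 h4 h5 h6)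
    T hTp hT1 hTM

/-- **S1404**. -/
theorem s1404_core (hG : IsMinSimpleOddOrder G) (huniq : UniquenessThm G) (hM : IsCoatom M)
    (hp : p ∈ sigma M) (X : Subgroup G) (hXp : IsPGroup p X) (hX1 : X ≠ ⊥) (hXM : X ≤ M) :
    (∀ g : G, X.map (MulAut.conj g).toMonoidHom ≤ M → ∃ m ∈ M, ∃ c ∈ centralizer (X : Set G), g = m * c) ∧
      normalizer (X : Set G) = (M ⊓ normalizer (X : Set G)) ⊔ centralizer (X : Set G) := by
  have h1 : ∀ g : G, X.map (MulAut.conj g).toMonoidHom ≤ M → ∃ m ∈ M, ∃ c ∈ centralizer (X : Set G), g = m * c := by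
    intro g hg
    obtain ⟨m, hm, hc⟩ := ctrl_of_sigma hG huniq hM hp X hXp hX1 hXM g hg
    refine ⟨m, hm, m⁻¹ * g, ?_, by group⟩
    rw [Subgroup.mem_centralizer_iff]
    intro t ht
    have := hc t ht
    have e : g * t = m * t * m⁻¹ * g := by
      rw [← this]
      group
    calc t * (m⁻¹ * g) = m⁻¹ * (m * t * m⁻¹ * g) := by group
      _ = m⁻¹ * (g * t) := by rw [e]
      _ = m⁻¹ * g * t := by group
  refine ⟨h1, le_antisymm ?_ (sup_le inf_le_right (centralizer_le_normalizer' X))⟩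
  intro g hg
  obtain ⟨m, hm, c, hc, e⟩ := h1 g (by
    rw [(conj_map_eq_iff_mem_normalizer X g).mpr hg]
    exact hXM)
  rw [e]
  refine Subgroup.mul_mem_sup (Subgroup.mem_inf.mpr ⟨hm, ?_⟩) hc
  have : m = g * c⁻¹ := by rw [e]; group
  rw [this]
  exact (normalizer (X : Set G)).mul_mem hg ((normalizer (X : Set G)).inv_mem (centralizer_le_normalizer' X hc))

/-- Uniqueness: `α(M) ⊆ σ(M)`. -/
theorem alpha_sub_sigma (hG : IsMinSimpleOddOrder G) (huniq : UniquenessThm G) (hM : IsCoatom M)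
    (hp : p ∈ alpha M) : p ∈ sigma M := by
  have hpp : p.Prime := hpf.out
  obtain ⟨P⟩ : Nonempty (Sylow p ↥M) := inferInstance
  have hr : ¬ PRankLE p 2 ↥(P : Subgroup M) := fun h => hp.2 (prank_of_sylow P h)
  have hr' := not_prank_map_subtype _ hr
  have hP := isMaxP_map P
  have htop : (P : Subgroup M).map M.subtype ≠ ⊤ := IsMinSimpleOddOrder.ne_top_of_isPGroup hG hpp hP.isP
  have hu := unique_of_prank huniq hpp htop hr'
  refine ⟨hpp, ?_, P, uniq_normalizer_le hG hM hP.le hu⟩
  by_contra hnd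
  apply hp.2
  intro A _ hA
  have hAp : IsPGroup p A := fun x => ⟨1, by
    apply Subtype.ext
    simpa using hA x x.2⟩
  obtain ⟨k, hk⟩ := hAp.exists_card_eq
  have hd : Nat.card A ∣ Nat.card M := Subgroup.card_subgroup_dvd_card A
  rcases k with _ | k
  · rw [hk]
    simpa using Nat.one_le_pow 2 p hpp.pos
  · rw [hk, pow_succ] at hd
    exact absurd ((dvd_mul_left p _).trans hd) hnd

/-- For `p ∈ σ(M)`, Sylow `p`-subgroups of `M` lie in `M'`, by the focal subgroup theorem. -/
theorem sylow_le_commutator (hG : IsMinSimpleOddOrder G) (huniq : UniquenessThm G) (hM : IsCoatom M)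
    (hp : p ∈ sigma M) (S : Sylow p G) (hSM : (S : Subgroup G) ≤ M) : (S : Subgroup G) ≤ ⁅M, M⁆ := by
  have hctrl : ∀ x ∈ (S : Subgroup G), ∀ u : G, u * x * u⁻¹ ∈ (S : Subgroup G) →
      ∃ n ∈ M, n * x * n⁻¹ = u * x * u⁻¹ := by
    intro x hx u hu
    by_cases hx1 : x = 1
    · exact ⟨1, M.one_mem, by simp [hx1]⟩
    have hT : IsPGroup p (zpowers x) := S.isPGroup'.to_le ((zpowers_le).mpr hx)
    have hT1 : zpowers x ≠ ⊥ := fun h => hx1 (Subgroup.zpowers_eq_bot.mp h)
    have hle : (zpowers x).map (MulAut.conj u).toMonoidHom ≤ M := by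
      rw [MonoidHom.map_zpowers, zpowers_le]
      exact hSM hu
    obtain ⟨m, hm, hc⟩ := ctrl_of_sigma hG huniq hM hp _ hT hT1 ((zpowers_le).mpr (hSM hx)) u hle
    exact ⟨m, hm, (hc x (mem_zpowers x)).symm⟩
  have h1 := Cfsg.Agent.Lib.Transfer.commutator_inf_eq_of_control S M hctrl hSM
  have htop : commutator G = ⊤ := by
    rcases IsMinSimpleOddOrder.normal_eq hG (N := commutator G) inferInstance with h | h
    · exfalso
      apply hG.2.2.1
      constructor
      constructor
      intro a b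
      have h2 : ⁅a, b⁆ ∈ commutator G := Subgroup.commutator_mem_commutator (mem_top a) (mem_top b)
      rw [h, Subgroup.mem_bot, commutatorElement_eq_one_iff_mul_comm] at h2
      exact h2
    · exact h
  rw [htop, top_inf_eq] at h1
  rw [h1]
  exact inf_le_left

end Sigma

end Cfsg.Agent.Lib.FT
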