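import Cfsg.Agent.Lib.FT.BG10b

/-!
BG section 10: the Hall subgroups `M_α`, `M_σ`, and the elementary consequences of uniqueness
(`S1405`, `S1350`, `S1406`, `S1407`, `S1408`, `S1409`), conditional on the Uniqueness Theorem.
-/

set_option autoImplicit false
set_option linter.unusedSectionVars false
set_option linter.style.haveILetI false

namespace Cfsg.Agent.Lib.FT

open Subgroup Cfsg Cfsg.Agent.Lib.OddLocal

open Cfsg.Agent.Lib.Coprime (mem_conj_map conj_mem_conj_map conj_map_conj_map conj_map_one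
  conj_map_mono mem_normalizer_of_conj_le conj_map_eq_iff_mem_normalizer isPGroup_conj_map)

open scoped commutatorElement

section PiQuot

variable {X : Type*} [Group X] [Finite X]

theorem piCore_quotient_eq_bot (π : Set ℕ) : piCore π (X ⧸ piCore π X) = ⊥ := by
  set O := piCore π X with hO
  have hO1 := piCore_isPi π X
  have hQ1 := piCore_isPi π (X ⧸ O)
  set N : Subgroup X := (piCore π (X ⧸ O)).comap (QuotientGroup.mk' O) with hN
  have hNn : N.Normal := Subgroup.Normal.comap inferInstance _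
  have hNpi : ∀ p : ℕ, p.Prime → p ∣ Nat.card N → p ∈ π := by
    intro r hr hd
    haveI : Fact r.Prime := ⟨hr⟩
    obtain ⟨g, hg⟩ := exists_prime_orderOf_dvd_card' r hd
    by_cases h1 : QuotientGroup.mk' O (g : X) = 1
    · have hgO : (g : X) ∈ O := by
        rwa [QuotientGroup.mk'_apply, QuotientGroup.eq_one_iff] at h1
      apply hO1 r hr
      have : orderOf (g : X) = r := by
        rw [← hg]
        exact Subgroup.orderOf_coe g
      rw [← this]
      exact Subgroup.orderOf_dvd_natCard O hgO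
    · apply hQ1 r hr
      have h2 : (QuotientGroup.mk' O (g : X)) ∈ piCore π (X ⧸ O) := g.2
      have h3 : orderOf (QuotientGroup.mk' O (g : X)) ∣ r := by
        have h4 : (g : X) ^ r = 1 := by
          have h5 : orderOf (g : X) = r := by
            rw [← hg]
            exact Subgroup.orderOf_coe g
          rw [← h5]
          exact pow_orderOf_eq_one _
        apply orderOf_dvd_of_pow_eq_one
        rw [← map_pow, h4, map_one]
      have h6 : orderOf (QuotientGroup.mk' O (g : X)) = r := by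
        rcases (Nat.dvd_prime hr).1 h3 with h | h
        · exact absurd (orderOf_eq_one_iff.mp h) h1
        · exact h
      rw [← h6]
      exact Subgroup.orderOf_dvd_natCard _ h2
  have hle : N ≤ O := le_sSup ⟨hNn, hNpi⟩
  rw [eq_bot_iff]
  intro y hy
  obtain ⟨x, rfl⟩ := QuotientGroup.mk'_surjective O y
  have : x ∈ O := hle hy
  rw [Subgroup.mem_bot, QuotientGroup.mk'_apply, QuotientGroup.eq_one_iff]
  exact this

theorem le_pCore_of_nilpotent_normal {p : ℕ} [Fact p.Prime] {N E : Subgroup X} (hN : N.Normal)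
    (hnil : Group.IsNilpotent N) (hEN : E ≤ N) (hE : IsPGroup p E) : E ≤ pCore p X := by
  have hE' : IsPGroup p (E.subgroupOf N) := by
    intro x
    obtain ⟨k, hk⟩ := hE ⟨((x : ↥N) : X), x.2⟩
    exact ⟨k, by
      apply Subtype.ext
      apply Subtype.ext
      simpa using congrArg Subtype.val hk⟩
  obtain ⟨P, hP⟩ := hE'.exists_le_sylow
  intro x hx
  apply Cfsg.Agent.Lib.Basic.sylow_map_le_pCore_of_nilpotent hN hnil p P
  exact ⟨⟨x, hEN hx⟩, hP (Subgroup.mem_subgroupOf.mpr hx), rfl⟩

theorem pCore_le_piCore {π : Set ℕ} {p : ℕ} [Fact p.Prime] (hp : p ∈ π) : pCore p X ≤ piCore π X := by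
  apply le_sSup
  refine ⟨inferInstance, ?_⟩
  intro r hr hd
  have h1 : IsPGroup p (pCore p X) := Cfsg.Agent.Lib.Basic.pCore_isPGroup p
  obtain ⟨k, hk⟩ := IsPGroup.iff_card.1 h1
  rw [hk] at hd
  have := (Nat.prime_dvd_prime_iff_eq hr Fact.out).1 (hr.dvd_of_dvd_pow hd)
  rwa [this]

variable [Group.IsSolvable X]

theorem rank_fitting_quot (π : Set ℕ) (hr : ∀ q : ℕ, q.Prime → q ∉ π → PRankLE q 2 X) :
    RankLE 2 (fittingSubgroup (X ⧸ piCore π X)) := by
  intro q hq A hAc hAe
  haveI : Fact q.Prime := ⟨hq⟩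
  by_cases hqπ : q ∈ π
  · -- the `q`-part of the Fitting subgroup is trivial
    have hE : IsPGroup q (A.map (fittingSubgroup (X ⧸ piCore π X)).subtype) := by
      rintro ⟨_, a, ha, rfl⟩
      exact ⟨1, by
        apply Subtype.ext
        have := hAe a ha
        simpa using congrArg Subtype.val this⟩
    have h1 := le_pCore_of_nilpotent_normal (N := fittingSubgroup (X ⧸ piCore π X))
      (E := A.map (fittingSubgroup (X ⧸ piCore π X)).subtype) inferInstance
      (Cfsg.Agent.Lib.Basic.fittingSubgroup_isNilpotent) (map_subtype_le _) hE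
    have h2 := h1.trans (pCore_le_piCore hqπ)
    rw [piCore_quotient_eq_bot, le_bot_iff] at h2
    have h3 : A = ⊥ := by
      rw [eq_bot_iff]
      intro a ha
      have : (a : X ⧸ piCore π X) ∈ A.map (fittingSubgroup (X ⧸ piCore π X)).subtype := ⟨a, ha, rfl⟩
      rw [h2, Subgroup.mem_bot] at this
      exact Subgroup.mem_bot.mpr (Subtype.ext this)
    rw [h3, Subgroup.card_bot]
    exact Nat.one_le_pow _ _ hq.pos
  · have hc : (Nat.card (piCore π X)).Coprime q := by
      rw [Nat.coprime_comm, Nat.Prime.coprime_iff_not_dvd hq]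
      exact fun h => hqπ (piCore_isPi π X q hq h)
    exact prank_of_subgroup (prank_quotient_of_coprime (hr q hq hqπ) (piCore π X) hc) _ A hAc hAe

theorem commutator_quot_nilpotent (π : Set ℕ) (hodd : Odd (Nat.card X))
    (hr : ∀ q : ℕ, q.Prime → q ∉ π → PRankLE q 2 X) :
    Group.IsNilpotent ↥(commutator (X ⧸ piCore π X)) := by
  have hF := rank_fitting_quot π hr
  have hoddQ : Odd (Nat.card (X ⧸ piCore π X)) :=
    Odd.of_dvd_nat hodd (Subgroup.card_quotient_dvd_card _)
  exact (Cfsg.Agent.S1451.result hoddQ (Or.inr hF)).1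

theorem le_piCore_of_le_commutator (π : Set ℕ) (hodd : Odd (Nat.card X))
    (hr : ∀ q : ℕ, q.Prime → q ∉ π → PRankLE q 2 X) {p : ℕ} [Fact p.Prime] (hp : p ∈ π)
    (T : Subgroup X) (hT : IsPGroup p T) (hTc : T ≤ commutator X) : T ≤ piCore π X := by
  set f := QuotientGroup.mk' (piCore π X) with hf
  have hsurj : Function.Surjective f := QuotientGroup.mk'_surjective _
  have hnil := commutator_quot_nilpotent π hodd hr
  have h1 : T.map f ≤ commutator (X ⧸ piCore π X) := by
    have h2 := Subgroup.map_mono (f := f) hTc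
    refine h2.trans ?_
    rw [_root_.commutator_def, _root_.commutator_def, Subgroup.map_commutator, ← MonoidHom.range_eq_map,
      MonoidHom.range_eq_top.mpr hsurj]
  have h3 := le_pCore_of_nilpotent_normal (N := commutator (X ⧸ piCore π X)) (E := T.map f) inferInstance
    hnil h1 (hT.map f)
  have h4 := h3.trans (pCore_le_piCore hp)
  rw [piCore_quotient_eq_bot, le_bot_iff] at h4
  intro t ht
  have h5 : f t ∈ T.map f := ⟨t, ht, rfl⟩
  rw [h4, Subgroup.mem_bot, hf, QuotientGroup.mk'_apply, QuotientGroup.eq_one_iff] at h5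
  exact h5

end PiQuot

variable {G : Type*} [Group G] [Finite G]

/-- The general Hall statement for `π`-cores of a maximal subgroup. -/
theorem hall_core {M : Subgroup G} (π : Set ℕ) [Group.IsSolvable ↥M] (hodd : Odd (Nat.card ↥M))
    (hr : ∀ q : ℕ, q.Prime → q ∉ π → PRankLE q 2 ↥M)
    (hS : ∀ p ∈ π, p.Prime ∧ ∃ S : Sylow p G, (S : Subgroup G) ≤ ⁅M, M⁆) :
    IsPiHallOf π (piCoreOf π M) M ∧ IsPiHall π (piCoreOf π M) ∧ RankLE 2 (↥M ⧸ piCore π ↥M) ∧
      Group.IsNilpotent ↥((commutator ↥M).map (QuotientGroup.mk' (piCore π ↥M))) := by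
  have hSle : ∀ p ∈ π, ¬ p ∣ (piCoreOf π M).index := by
    intro p hp
    obtain ⟨hpp, S, hSc⟩ := hS p hp
    haveI : Fact p.Prime := ⟨hpp⟩
    have hSM : (S : Subgroup G) ≤ M := hSc.trans (Subgroup.commutator_le_self M)
    have hT : IsPGroup p ((S : Subgroup G).subgroupOf M) := by
      intro x
      obtain ⟨k, hk⟩ := S.isPGroup' ⟨((x : ↥M) : G), x.2⟩
      exact ⟨k, by
        apply Subtype.ext
        apply Subtype.ext
        simpa using congrArg Subtype.val hk⟩
    have hTc : (S : Subgroup G).subgroupOf M ≤ commutator ↥M := by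
      intro x hx
      have h1 : (x : G) ∈ ⁅M, M⁆ := hSc (Subgroup.mem_subgroupOf.mp hx)
      rw [← Subgroup.map_subtype_commutator] at h1
      obtain ⟨y, hy, hyx⟩ := h1
      have : y = x := Subtype.ext hyx
      rwa [← this]
    have h2 := le_piCore_of_le_commutator π hodd hr hp _ hT hTc
    have h3 : (S : Subgroup G) ≤ piCoreOf π M := by
      intro x hx
      exact ⟨⟨x, hSM hx⟩, h2 (Subgroup.mem_subgroupOf.mpr hx), rfl⟩
    intro hd
    exact S.not_dvd_index (hd.trans (Subgroup.index_dvd_of_le h3))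
  have hle : piCoreOf π M ≤ M := piCoreOf_le π M
  have hrel : ∀ p ∈ π, ¬ p ∣ (piCoreOf π M).relIndex M := by
    intro p hp hd
    apply hSle p hp
    rw [← Subgroup.relIndex_mul_index hle]
    exact hd.trans (dvd_mul_right _ _)
  refine ⟨⟨hle, piCoreOf_isPi π M, fun p _ hp => hrel p hp⟩, ⟨piCoreOf_isPi π M, fun p _ hp => hSle p hp⟩, ?_, ?_⟩
  · intro q hq A hAc hAe
    haveI : Fact q.Prime := ⟨hq⟩
    by_cases hqπ : q ∈ π
    · have hnd : ¬ q ∣ Nat.card (↥M ⧸ piCore π ↥M) := by
        rw [← Subgroup.index_eq_card]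
        intro hd
        apply hSle q hqπ
        unfold piCoreOf
        rw [Subgroup.index_map_subtype]
        exact hd.trans (dvd_mul_right _ _)
      have hAp : IsPGroup q A := fun x => ⟨1, by
        apply Subtype.ext
        simpa using hAe x x.2⟩
      obtain ⟨k, hk⟩ := hAp.exists_card_eq
      rcases k with _ | k
      · rw [hk]
        simpa using Nat.one_le_pow 2 q hq.pos
      · exfalso
        apply hnd
        have hd : Nat.card A ∣ Nat.card (↥M ⧸ piCore π ↥M) := Subgroup.card_subgroup_dvd_card A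
        rw [hk, pow_succ] at hd
        exact (dvd_mul_left q _).trans hd
    · have hc : (Nat.card (piCore π ↥M)).Coprime q := by
        rw [Nat.coprime_comm, Nat.Prime.coprime_iff_not_dvd hq]
        exact fun h => hqπ (piCore_isPi π _ q hq h)
      exact prank_quotient_of_coprime (hr q hq hqπ) (piCore π ↥M) hc A hAc hAe
  · have hnil := commutator_quot_nilpotent π hodd hr
    have he : (commutator ↥M).map (QuotientGroup.mk' (piCore π ↥M)) = commutator (↥M ⧸ piCore π ↥M) := by
      rw [_root_.commutator_def, _root_.commutator_def, Subgroup.map_commutator, ← MonoidHom.range_eq_map,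
        MonoidHom.range_eq_top.mpr (QuotientGroup.mk'_surjective _)]
    rw [he]
    exact hnil

section Main

variable {M : Subgroup G}

theorem coatom_isSolvable (hG : IsMinSimpleOddOrder G) (hM : IsCoatom M) : Group.IsSolvable ↥M :=
  IsMinSimpleOddOrder.isSolvable hG hM.1

theorem subgroup_odd (hG : IsMinSimpleOddOrder G) (H : Subgroup G) : Odd (Nat.card H) :=
  Odd.of_dvd_nat hG.1 (Subgroup.card_subgroup_dvd_card _)

theorem prime_odd (hG : IsMinSimpleOddOrder G) {p : ℕ} (hp : p.Prime) (hd : p ∣ Nat.card G) : p ≠ 2 := by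
  rintro rfl
  exact absurd (Odd.of_dvd_nat hG.1 hd) (by decide)

theorem not_mem_alpha_prank {q : ℕ} (hq : q.Prime) (h : q ∉ alpha M) : PRankLE q 2 ↥M := by
  by_contra hr
  exact h ⟨hq, hr⟩

theorem sigma_prime {p : ℕ} (hp : p ∈ sigma M) : p.Prime := hp.1

/-- **S1405**. -/
theorem s1405_core (hG : IsMinSimpleOddOrder G) (huniq : UniquenessThm G) (hM : IsCoatom M) :
    IsPiHallOf (alpha M) (alphaCore M) M ∧ IsPiHall (alpha M) (alphaCore M) ∧
      alphaCore M ≤ sigmaCore M ∧ RankLE 2 (↥M ⧸ piCore (alpha M) ↥M) ∧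
      Group.IsNilpotent ↥((commutator ↥M).map (QuotientGroup.mk' (piCore (alpha M) ↥M))) := by
  haveI := coatom_isSolvable hG hM
  have hsub : ∀ p ∈ alpha M, p ∈ sigma M := by
    intro p hp
    haveI : Fact p.Prime := ⟨hp.1⟩
    exact alpha_sub_sigma hG huniq hM hp
  obtain ⟨h1, h2, h3, h4⟩ := hall_core (M := M) (alpha M) (subgroup_odd hG M)
    (fun q hq h => not_mem_alpha_prank hq h) (by
      intro p hp
      refine ⟨hp.1, ?_⟩
      haveI : Fact p.Prime := ⟨hp.1⟩
      obtain ⟨S, hS, -⟩ := sigma_exists_sylow (hsub p hp)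
      exact ⟨S, sylow_le_commutator hG huniq hM (hsub p hp) S hS⟩)
  refine ⟨h1, h2, ?_, h3, h4⟩
  apply Subgroup.map_mono
  apply sSup_le_sSup
  rintro N ⟨hN1, hN2⟩
  exact ⟨hN1, fun p hp hd => hsub p (hN2 p hp hd)⟩

/-- **S1350**. -/
theorem s1350_core (hG : IsMinSimpleOddOrder G) (huniq : UniquenessThm G) (hM : IsCoatom M) :
    IsPiHallOf (sigma M) (sigmaCore M) M ∧ IsPiHall (sigma M) (sigmaCore M) ∧
      ∀ N : Subgroup G, M ≤ normalizer (N : Set G) → IsPiHallOf (sigma M) N M → N = sigmaCore M := by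
  haveI := coatom_isSolvable hG hM
  obtain ⟨h1, h2, h3, h4⟩ := hall_core (M := M) (sigma M) (subgroup_odd hG M)
    (fun q hq h => not_mem_alpha_prank hq (fun ha => h (by
      haveI : Fact q.Prime := ⟨hq⟩
      exact alpha_sub_sigma hG huniq hM ha))) (by
      intro p hp
      refine ⟨hp.1, ?_⟩
      haveI : Fact p.Prime := ⟨hp.1⟩
      obtain ⟨S, hS, -⟩ := sigma_exists_sylow hp
      exact ⟨S, sylow_le_commutator hG huniq hM hp S hS⟩)
  refine ⟨h1, h2, ?_⟩
  intro N hNn hN
  have hle : N ≤ sigmaCore M := le_piCoreOf hN.1 hNn hN.2.1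
  apply le_antisymm hle
  have h5 := Subgroup.relIndex_mul_relIndex N (sigmaCore M) M hle h1.1
  have h6 : N.relIndex (sigmaCore M) = 1 := by
    by_contra hne
    obtain ⟨r, hr, hrd⟩ := Nat.exists_prime_and_dvd hne
    have h7 : r ∣ Nat.card (sigmaCore M) := by
      refine hrd.trans ?_
      rw [Subgroup.relIndex]
      have h8 := Subgroup.index_dvd_card (N.subgroupOf (sigmaCore M))
      exact h8
    have hrσ := h2.1 r hr h7
    apply hN.2.2 r hr hrσ
    rw [← h5]
    exact hrd.trans (dvd_mul_right _ _)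
  exact Subgroup.relIndex_eq_one.mp h6

/-- For `p ∈ α(M)`, every `p`-subgroup of `M` lies in `M_α`. -/
theorem le_alphaCore_of_isPGroup (hG : IsMinSimpleOddOrder G) (huniq : UniquenessThm G) (hM : IsCoatom M)
    {p : ℕ} [Fact p.Prime] (hp : p ∈ alpha M) {D : Subgroup G} (hD : IsPGroup p D) (hDM : D ≤ M) :
    D ≤ alphaCore M := by
  have hsig := alpha_sub_sigma hG huniq hM hp
  obtain ⟨S, hS, -⟩ := sigma_exists_sylow hsig
  obtain ⟨m, hm, hle⟩ := exists_conj_sylow_ge S hS hD hDM
  obtain ⟨h1, h2, -⟩ := s1405_core hG huniq hM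
  have hSle : (S : Subgroup G) ≤ alphaCore M := by
    -- `S` is a `p`-subgroup with `M_α` of index prime to `p` and normal in `M`
    by_contra hcon
    have hnorm : (alphaCore M).subgroupOf M |>.Normal := by
      constructor
      intro n hn g
      rw [Subgroup.mem_subgroupOf] at hn ⊢
      exact (Subgroup.mem_normalizer_iff.1 (le_normalizer_piCoreOf (alpha M) M g.2) _).1 hn
    have hidx : ((alphaCore M).subgroupOf M).index.Coprime p := by
      rw [Nat.coprime_comm, Nat.Prime.coprime_iff_not_dvd Fact.out]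
      have := h1.2.2 p hp.1 hp
      rwa [Subgroup.relIndex] at this
    have hT : IsPGroup p ((S : Subgroup G).subgroupOf M) := by
      intro x
      obtain ⟨k, hk⟩ := S.isPGroup' ⟨((x : ↥M) : G), x.2⟩
      exact ⟨k, by
        apply Subtype.ext
        apply Subtype.ext
        simpa using congrArg Subtype.val hk⟩
    have h3 := isPGroup_le_of_index_coprime hidx hT
    apply hcon
    intro x hx
    exact Subgroup.mem_subgroupOf.mp (h3 (Subgroup.mem_subgroupOf.mpr hx) : (⟨x, hS hx⟩ : ↥M) ∈ _)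
  intro d hd
  have h4 := hle hd
  rw [mem_conj_map] at h4
  have h5 := hSle h4
  have h6 := (Subgroup.mem_normalizer_iff.1 (le_normalizer_piCoreOf (alpha M) M hm) _).1 h5
  have e : m * (m⁻¹ * d * m) * m⁻¹ = d := by group
  rw [e] at h6
  exact h6

end Main

end Cfsg.Agent.Lib.FT
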