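import Cfsg.Agent.Lib.FT.BG10c
import Cfsg.Agent.Lib.OddLocal.Trans2
import Mathlib.GroupTheory.SpecificGroups.ZGroup

/-!
BG section 10: `S1406`--`S1409`, conditional on the Uniqueness Theorem.
-/

set_option autoImplicit false
set_option linter.unusedSectionVars false
set_option linter.style.haveILetI false

namespace Cfsg.Agent.Lib.FT

open Subgroup Cfsg Cfsg.Agent.Lib.OddLocal

open Cfsg.Agent.Lib.Coprime (mem_conj_map conj_mem_conj_map conj_map_conj_map conj_map_one
  conj_map_mono mem_normalizer_of_conj_le conj_map_eq_iff_mem_normalizer isPGroup_conj_map)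

open scoped commutatorElement

variable {G : Type*} [Group G] [Finite G]

/-! ### Rank witnesses -/

theorem card_le_of_prank {p k : ℕ} {H E : Subgroup G} (hr : PRankLE p k ↥H) (hE : IsElementaryAbelian p E)
    (hEH : E ≤ H) : Nat.card E ≤ p ^ k := by
  have h1 := hr (E.subgroupOf H) (by
    constructor
    constructor
    rintro ⟨a, ha⟩ ⟨b, hb⟩
    apply Subtype.ext
    apply Subtype.ext
    have := hE.1.is_comm.comm ⟨a, Subgroup.mem_subgroupOf.mp ha⟩ ⟨b, Subgroup.mem_subgroupOf.mp hb⟩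
    change ((a : ↥H) : G) * ((b : ↥H) : G) = ((b : ↥H) : G) * ((a : ↥H) : G)
    exact congrArg Subtype.val this) (by
    intro a ha
    apply Subtype.ext
    exact hE.2 _ (Subgroup.mem_subgroupOf.mp ha))
  rwa [Nat.card_congr (subgroupOfEquivOfLe hEH).toEquiv] at h1

theorem not_prank_of_card {p k : ℕ} {H E : Subgroup G} (hE : IsElementaryAbelian p E) (hEH : E ≤ H)
    (hc : p ^ k < Nat.card E) : ¬ PRankLE p k ↥H := fun h => absurd (card_le_of_prank h hE hEH) (by omega)

theorem exists_of_not_prank {p k : ℕ} {H : Subgroup G} (h : ¬ PRankLE p k ↥H) :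
    ∃ E : Subgroup G, IsElementaryAbelian p E ∧ E ≤ H ∧ p ^ k < Nat.card E := by
  unfold PRankLE at h
  push Not at h
  obtain ⟨A, hAc, hAe, hcard⟩ := h
  refine ⟨A.map H.subtype, ⟨?_, ?_⟩, map_subtype_le _, ?_⟩
  · constructor
    constructor
    rintro ⟨_, a, ha, rfl⟩ ⟨_, b, hb, rfl⟩
    apply Subtype.ext
    have := hAc.is_comm.comm ⟨a, ha⟩ ⟨b, hb⟩
    simpa using congrArg (fun x : A => ((x : ↥H) : G)) this
  · rintro _ ⟨a, ha, rfl⟩
    exact congrArg Subtype.val (hAe a ha)
  · rwa [Subgroup.card_map_of_injective H.subtype_injective]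

theorem isPGroup_of_elem {p : ℕ} {E : Subgroup G} (hE : IsElementaryAbelian p E) : IsPGroup p E :=
  fun x => ⟨1, by
    apply Subtype.ext
    simpa using hE.2 x x.2⟩

/-- A `p`-power larger than `p` is at least `p²`. -/
theorem sq_le_of_lt_ppow {p : ℕ} (hp : p.Prime) {n : ℕ} (h : ∃ k, n = p ^ k) (hn : p ^ 1 < n) : p ^ 2 ≤ n := by
  obtain ⟨k, rfl⟩ := h
  have hk : 1 < k := (Nat.pow_lt_pow_iff_right hp.one_lt).1 hn
  exact Nat.pow_le_pow_right hp.pos hk

theorem card_eq_sq_of_bounds {p : ℕ} [Fact p.Prime] {E : Subgroup G} (hE : IsElementaryAbelian p E)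
    (h1 : p ^ 1 < Nat.card E) (h2 : Nat.card E ≤ p ^ 2) : Nat.card E = p ^ 2 :=
  le_antisymm h2 (sq_le_of_lt_ppow Fact.out ((isPGroup_of_elem hE).exists_card_eq) h1)

/-! ### Cyclic `p`-groups -/

theorem not_prank_one_of_not_cyclic {p : ℕ} [Fact p.Prime] (hp2 : p ≠ 2) {Q : Type*} [Group Q] [Finite Q]
    (hQ : IsPGroup p Q) (hnc : ¬ IsCyclic Q) : ¬ PRankLE p 1 Q := by
  intro hr
  apply hnc
  apply isCyclic_of_uniqueP_odd hp2 _ Q rfl hQ
  intro H K hH hK
  by_contra hne
  -- one of `H`, `K` differs from a central subgroup of order `p`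
  haveI : Nontrivial Q := by
    by_contra hnt
    rw [not_nontrivial_iff_subsingleton] at hnt
    have : Nat.card H = 1 := Nat.card_of_subsingleton (1 : H)
    rw [hH] at this
    exact (Fact.out : p.Prime).ne_one this
  have hZ := hQ.center_nontrivial
  have hZ1 : center Q ≠ ⊥ := (Subgroup.nontrivial_iff_ne_bot _).1 hZ
  obtain ⟨z, hz, hz1, hzp⟩ := exists_order_p_of_ne_bot p (hQ.to_subgroup (center Q)) hZ1
  have key : ∀ L : Subgroup Q, Nat.card L = p → z ∈ L := by
    intro L hL
    by_contra hzL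
    have hLe : IsElementaryAbelian p L := by
      haveI : Fact (Nat.card L).Prime := ⟨hL ▸ Fact.out⟩
      haveI : IsCyclic L := isCyclic_of_prime_card rfl
      refine ⟨inferInstance, ?_⟩
      intro a ha
      have := Subgroup.orderOf_dvd_natCard L ha
      rw [hL] at this
      exact orderOf_dvd_iff_pow_eq_one.1 this
    have h1 := isElementaryAbelian_sup_zpowers hLe hzp (fun e _ => (Subgroup.mem_center_iff.1 hz e).symm)
    have h2 := hr _ h1.1 h1.2
    have h3 : L < L ⊔ zpowers z := lt_of_le_of_ne le_sup_left (fun he => hzL (by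
      rw [he]
      exact (le_sup_right : zpowers z ≤ L ⊔ zpowers z) (mem_zpowers z)))
    have h4 := card_lt_of_lt h3
    rw [hL] at h4
    simp only [pow_one] at h2
    omega
  apply hne
  have h1 := key H hH
  have h2 := key K hK
  have hzc : Nat.card (zpowers z) = p := by
    rw [Nat.card_zpowers]
    exact orderOf_eq_prime hzp hz1
  have e1 : zpowers z = H := Subgroup.eq_of_le_of_card_ge ((zpowers_le).mpr h1) (by rw [hzc, hH])
  have e2 : zpowers z = K := Subgroup.eq_of_le_of_card_ge ((zpowers_le).mpr h2) (by rw [hzc, hK])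
  rw [← e1, e2]

theorem centralizer_zpowers_eq (x : G) : centralizer ((zpowers x : Subgroup G) : Set G) = centralizer ({x} : Set G) := by
  apply le_antisymm
  · exact Subgroup.centralizer_le (by simpa using mem_zpowers x)
  · intro y hy
    rw [Subgroup.mem_centralizer_iff] at hy ⊢
    rintro _ ⟨k, rfl⟩
    have h1 : x * y = y * x := hy x rfl
    have h2 : Commute x y := h1
    exact (h2.zpow_left k)

section Main

variable {M : Subgroup G}

/-- **S1406**. -/
theorem s1406_core (hG : IsMinSimpleOddOrder G) (huniq : UniquenessThm G) (hM : IsCoatom M)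
    (X : Subgroup G) (hXM : X ≤ M) (hXα : ∀ p : ℕ, p.Prime → p ∣ Nat.card X → p ∉ alpha M)
    (hr : ¬ RankLE 1 ↥(alphaCore M ⊓ centralizer (X : Set G))) :
    InUniqueMaximal (M ⊓ centralizer (X : Set G)) := by
  have hne : M ⊓ centralizer (X : Set G) ≠ ⊤ := fun h => hM.1 (top_le_iff.mp (h ▸ inf_le_left))
  unfold RankLE at hr
  push Not at hr
  obtain ⟨p, hpp, hr⟩ := hr
  haveI : Fact p.Prime := ⟨hpp⟩
  obtain ⟨E, hEe, hEle, hEc⟩ := exists_of_not_prank hr
  have hEp := isPGroup_of_elem hEe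
  have hE1 : E ≠ ⊥ := by
    rintro rfl
    rw [Subgroup.card_bot, pow_one] at hEc
    exact absurd hEc (by have := hpp.one_lt; omega)
  have hEK : E ≤ alphaCore M := hEle.trans inf_le_left
  have hEX : E ≤ centralizer (X : Set G) := hEle.trans inf_le_right
  have hEM : E ≤ M := hEK.trans (piCoreOf_le _ M)
  have hEtop : E ≠ ⊤ := IsMinSimpleOddOrder.ne_top_of_isPGroup hG hpp hEp
  have hEr1 : ¬ RankLE 1 ↥E := not_rankLE_of_not_prank hpp (not_prank_of_card (H := E) hEe le_rfl hEc)
  -- `p ∈ α(M)`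
  have hpα : p ∈ alpha M := by
    apply piCoreOf_isPi (alpha M) M p hpp
    have h1 : p ∣ Nat.card E := by
      obtain ⟨k, hk⟩ := hEp.exists_card_eq
      rcases k with _ | k
      · rw [hk, pow_zero] at hEc
        exact absurd hEc (by have := hpp.one_lt; simp; omega)
      · rw [hk, pow_succ]
        exact dvd_mul_left _ _
    exact h1.trans (Subgroup.card_dvd_of_le hEK)
  by_cases hC : RankLE 2 ↥(centralizer (E : Set G))
  · -- the invariant Sylow subgroup
    have hC' : PRankLE p 2 ↥(centralizer (E : Set G)) := hC p hpp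
    have hsolvK : Group.IsSolvable ↥(alphaCore M) := by
      apply IsMinSimpleOddOrder.isSolvable hG
      intro h
      apply hM.1
      exact top_le_iff.mp (h ▸ piCoreOf_le _ M)
    have hnorm : X ≤ normalizer ((alphaCore M : Subgroup G) : Set G) :=
      hXM.trans (le_normalizer_piCoreOf (alpha M) M)
    have hcop : (Nat.card X).Coprime (Nat.card ↥(alphaCore M)) := by
      by_contra hc
      obtain ⟨r, hr1, hr2, hr3⟩ := Nat.Prime.not_coprime_iff_dvd.1 hc
      exact hXα r hr1 hr2 (piCoreOf_isPi (alpha M) M r hr1 hr3)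
    have hUA : X ≤ normalizer (E : Set G) := by
      intro x hx
      apply mem_normalizer_of_conj_le
      intro e he
      have h1 := Subgroup.mem_centralizer_iff.mp (hEX he) x hx
      have e1 : x * e * x⁻¹ = e := by
        rw [h1]
        group
      rwa [e1]
    obtain ⟨P, hEP, hXP⟩ := Cfsg.Agent.Lib.Basic.exists_invariant_sylow_ge hnorm hcop (Or.inr hsolvK) p E hEK hEp hUA
    set P₀ : Subgroup G := (P : Subgroup ↥(alphaCore M)).map (alphaCore M).subtype with hP₀
    have hP₀K : IsMaxP p P₀ (alphaCore M) := isMaxP_map P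
    have hP₀M : IsMaxP p P₀ M := by
      refine ⟨hP₀K.le.trans (piCoreOf_le _ M), hP₀K.isP, ?_⟩
      intro D' h1 h2 h3
      exact hP₀K.max D' (le_alphaCore_of_isPGroup hG huniq hM hpα h2 h1) h2 h3
    have hP₀r : ¬ PRankLE p 2 ↥P₀ := fun h => hpα.2 (hP₀M.prank_of h)
    have hp2 : p ≠ 2 := by
      apply prime_odd hG hpp
      have h1 : p ∣ Nat.card E := by
        obtain ⟨k, hk⟩ := hEp.exists_card_eq
        rcases k with _ | k
        · rw [hk, pow_zero] at hEc
          exact absurd hEc (by have := hpp.one_lt; simp; omega)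
        · rw [hk, pow_succ]
          exact dvd_mul_left _ _
      exact h1.trans (Subgroup.card_subgroup_dvd_card E)
    have hXcop : (Nat.card X).Coprime p := by
      rw [Nat.coprime_comm, Nat.Prime.coprime_iff_not_dvd hpp]
      exact fun h => hXα p hpp h hpα
    have hfix := Cfsg.Agent.S1443.result p hp2 P₀ E X hP₀K.isP hEP hEe hXP hXcop (by
      intro y hy hyo
      have hyp : y ^ p = 1 := by
        rw [← hyo]
        exact pow_orderOf_eq_one y
      have hyC : y ∈ centralizer (E : Set G) := (Subgroup.mem_inf.mp hy).2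
      have hcomm : ∀ e ∈ E, y * e = e * y := fun e he => (Subgroup.mem_centralizer_iff.mp hyC e he).symm
      have hE₁ := isElementaryAbelian_sup_zpowers hEe hyp hcomm
      have hE₁C : E ⊔ zpowers y ≤ centralizer (E : Set G) := by
        apply sup_le
        · intro a ha
          rw [Subgroup.mem_centralizer_iff]
          intro b hb
          exact congrArg Subtype.val (hEe.1.is_comm.comm ⟨b, hb⟩ ⟨a, ha⟩)
        · exact (zpowers_le).mpr hyC
      have hle1 := card_le_of_prank hC' hE₁ hE₁C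
      have hle2 := sq_le_of_lt_ppow hpp hEp.exists_card_eq hEc
      have heq : E = E ⊔ zpowers y := Subgroup.eq_of_le_of_card_ge le_sup_left (hle1.trans hle2)
      have hyE : y ∈ E := by
        rw [heq]
        exact (le_sup_right : zpowers y ≤ E ⊔ zpowers y) (mem_zpowers y)
      intro x hx
      rw [Subgroup.mem_centralizer_iff]
      intro a ha
      simp only [Set.mem_singleton_iff] at ha
      rw [ha]
      exact (Subgroup.mem_centralizer_iff.mp (hEX hyE) x hx).symm)
    have hP₀X : P₀ ≤ centralizer (X : Set G) := (Subgroup.le_centralizer_iff).mp hfix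
    have hP₀top : P₀ ≠ ⊤ := IsMinSimpleOddOrder.ne_top_of_isPGroup hG hpp hP₀K.isP
    exact uniq_of_le (unique_of_prank huniq hpp hP₀top hP₀r) (le_inf hP₀M.le hP₀X) hne
  · exact uniq_of_le (huniq E hEtop hEr1 (Or.inr hC)) (le_inf hEM hEX) hne

/-- **S1408**. -/
theorem s1408_core (hG : IsMinSimpleOddOrder G) (huniq : UniquenessThm G) (hM : IsCoatom M) {p : ℕ} [Fact p.Prime]
    (hr2 : PRankLE p 2 M) (hr1 : ¬ PRankLE p 1 M) :
    ¬ IsIdealPrime p G ∧ ∀ A : Subgroup G, A ≤ M → IsElementaryAbelian p A → Nat.card A = p ^ 2 →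
        ∀ B : Subgroup G, IsElementaryAbelian p B → A ≤ B → B = A := by
  have hpp : p.Prime := Fact.out
  have key : ∀ A : Subgroup G, A ≤ M → IsElementaryAbelian p A → Nat.card A = p ^ 2 →
        ∀ B : Subgroup G, IsElementaryAbelian p B → A ≤ B → B = A := by
    intro A hAM hAe hAc B hBe hAB
    by_contra hne
    have hlt : A < B := lt_of_le_of_ne hAB (Ne.symm hne)
    have hBc : p ^ 2 < Nat.card B := by
      rw [← hAc]
      exact card_lt_of_subgroup_lt hlt
    have hBC : B ≤ centralizer (A : Set G) := by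
      intro b hb
      rw [Subgroup.mem_centralizer_iff]
      intro a ha
      exact congrArg Subtype.val (hBe.1.is_comm.comm ⟨a, hAB ha⟩ ⟨b, hb⟩)
    have hAp := isPGroup_of_elem hAe
    have hAtop : A ≠ ⊤ := IsMinSimpleOddOrder.ne_top_of_isPGroup hG hpp hAp
    have hAr1 : ¬ RankLE 1 ↥A := not_rankLE_of_not_prank hpp (not_prank_of_card (H := A) hAe le_rfl (by
      rw [hAc]
      exact Nat.pow_lt_pow_right hpp.one_lt (by norm_num)))
    have hu := huniq A hAtop hAr1 (Or.inr (not_rankLE_of_not_prank hpp (not_prank_of_card hBe hBC hBc)))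
    have hA1 : A ≠ ⊥ := by
      rintro rfl
      rw [Subgroup.card_bot] at hAc
      have : 1 < p ^ 2 := Nat.one_lt_pow (by norm_num) hpp.one_lt
      omega
    obtain ⟨a, ha, ha1⟩ : ∃ a ∈ A, a ≠ 1 := by
      by_contra h
      push Not at h
      exact hA1 (by
        rw [eq_bot_iff]
        intro x hx
        exact h x hx)
    have hCne : centralizer (A : Set G) ≠ ⊤ := fun h =>
      centralizer_singleton_ne_top hG ha1 (top_le_iff.mp (h ▸ Subgroup.centralizer_le (by simpa using ha)))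
    have hAC : A ≤ centralizer (A : Set G) := hAB.trans hBC
    have hCM := uniq_le hM hAM hu hCne hAC
    have := card_le_of_prank hr2 hBe (hBC.trans hCM)
    omega
  refine ⟨?_, key⟩
  rintro ⟨-, -, hid⟩
  obtain ⟨E, hEe, hEM, hEc⟩ := exists_of_not_prank hr1
  have hE2 := card_eq_sq_of_bounds hEe hEc (card_le_of_prank hr2 hEe hEM)
  obtain ⟨S, hS⟩ := (isPGroup_of_elem hEe).exists_le_sylow
  obtain ⟨B, -, hBe, hlt⟩ := hid S E hS hEe hE2
  exact hlt.ne (key E hEM hEe hE2 B hBe hlt.le).symm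

theorem exists_central_order_p {p : ℕ} [Fact p.Prime] {Q : Subgroup G} (hQ : IsPGroup p Q) (h1 : Q ≠ ⊥) :
    ∃ z ∈ Q, z ≠ 1 ∧ z ^ p = 1 ∧ ∀ y ∈ Q, z * y = y * z := by
  haveI : Nontrivial Q := (Subgroup.nontrivial_iff_ne_bot _).2 h1
  have hZ := hQ.center_nontrivial
  have hZ1 : center ↥Q ≠ ⊥ := (Subgroup.nontrivial_iff_ne_bot _).1 hZ
  obtain ⟨z, hz, hz1, hzp⟩ := exists_order_p_of_ne_bot p (hQ.to_subgroup (center ↥Q)) hZ1
  refine ⟨z, z.2, fun h => hz1 (Subtype.ext h), congrArg Subtype.val hzp, ?_⟩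
  intro y hy
  have := Subgroup.mem_center_iff.1 hz ⟨y, hy⟩
  exact (congrArg Subtype.val this).symm

/-- **S1407**. -/
theorem s1407_core (hG : IsMinSimpleOddOrder G) (huniq : UniquenessThm G) (hM : IsCoatom M) {p : ℕ} [Fact p.Prime]
    (hpM : p ∣ Nat.card M) (hp : p ∉ sigma M) (P : Sylow p ↥M) :
    ∃ x : G, x ∈ ((center ↥(P : Subgroup M)).map (P : Subgroup M).subtype).map M.subtype ∧ orderOf x = p ∧
      IsZGroup ↥(alphaCore M ⊓ centralizer ({x} : Set G)) ∧
      ¬ (centralizer ({x} : Set G) ≤ M ∧ ∀ L : Subgroup G, IsCoatom L → centralizer ({x} : Set G) ≤ L → L = M) := by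
  have hpp : p.Prime := Fact.out
  set P₀ : Subgroup G := (P : Subgroup M).map M.subtype with hP₀
  set Z : Subgroup G := ((center ↥(P : Subgroup M)).map (P : Subgroup M).subtype).map M.subtype with hZ
  have hZmem : ∀ x : G, x ∈ Z ↔ x ∈ P₀ ∧ ∀ y ∈ P₀, x * y = y * x := by
    intro x
    constructor
    · rintro ⟨_, ⟨u, hu, rfl⟩, rfl⟩
      refine ⟨⟨_, u.2, rfl⟩, ?_⟩
      rintro _ ⟨v, hv, rfl⟩
      have := Subgroup.mem_center_iff.1 hu ⟨v, hv⟩
      exact (congrArg (fun w : ↥(P : Subgroup M) => ((w : ↥M) : G)) this).symm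
    · rintro ⟨⟨u, hu, rfl⟩, h2⟩
      refine ⟨u, ⟨⟨u, hu⟩, Subgroup.mem_center_iff.2 ?_, rfl⟩, rfl⟩
      rintro ⟨v, hv⟩
      apply Subtype.ext
      apply Subtype.ext
      exact (h2 _ ⟨v, hv, rfl⟩).symm
  have hP := isMaxP_map P
  have hne : ¬ normalizer (P₀ : Set G) ≤ M := fun h => hp ⟨hpp, hpM, P, h⟩
  obtain ⟨g, hg, hgM⟩ := SetLike.not_le_iff_exists.mp hne
  have hP1 : P₀ ≠ ⊥ := by
    intro h
    have h1 : (P : Subgroup M) = ⊥ := by
      rw [eq_bot_iff]
      intro a ha
      have : (a : G) ∈ P₀ := ⟨a, ha, rfl⟩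
      rw [h, Subgroup.mem_bot] at this
      exact Subgroup.mem_bot.mpr (Subtype.ext this)
    exact P.ne_bot_of_dvd_card hpM h1
  obtain ⟨x₀, hx₀P, hx₀1, hx₀p, hx₀c⟩ := exists_central_order_p hP.isP hP1
  have hex : ∃ x ∈ Z, orderOf x = p ∧ ¬ (centralizer ({x} : Set G) ≤ M ∧
      ∀ L : Subgroup G, IsCoatom L → centralizer ({x} : Set G) ≤ L → L = M) := by
    by_contra hno
    push Not at hno
    have h0 := hno x₀ ((hZmem x₀).2 ⟨hx₀P, hx₀c⟩) (orderOf_eq_prime hx₀p hx₀1)
    have hx₁Z : g * x₀ * g⁻¹ ∈ Z := by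
      rw [hZmem]
      refine ⟨(Subgroup.mem_normalizer_iff.mp hg _).1 hx₀P, ?_⟩
      intro y hy
      have hy' : g⁻¹ * y * g ∈ P₀ := by
        have := (Subgroup.mem_normalizer_iff.mp hg (g⁻¹ * y * g)).2 (by
          convert hy using 1
          group)
        exact this
      have h3 := hx₀c _ hy'
      calc g * x₀ * g⁻¹ * y = g * (x₀ * (g⁻¹ * y * g)) * g⁻¹ := by group
        _ = g * ((g⁻¹ * y * g) * x₀) * g⁻¹ := by rw [h3]
        _ = y * (g * x₀ * g⁻¹) := by group
    have hx₁o : orderOf (g * x₀ * g⁻¹) = p := by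
      apply orderOf_eq_prime
      · rw [conj_pow, hx₀p]
        group
      · intro h
        apply hx₀1
        have : x₀ = g⁻¹ * (g * x₀ * g⁻¹) * g := by group
        rw [this, h]
        group
    have h1 := hno _ hx₁Z hx₁o
    have hsub : centralizer ({g * x₀ * g⁻¹} : Set G) ≤ M.map (MulAut.conj g).toMonoidHom := by
      intro y hy
      rw [mem_conj_map]
      apply h0.1
      rw [Subgroup.mem_centralizer_iff] at hy ⊢
      intro a ha
      simp only [Set.mem_singleton_iff] at ha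
      rw [ha]
      have h2 := hy (g * x₀ * g⁻¹) rfl
      calc x₀ * (g⁻¹ * y * g) = g⁻¹ * ((g * x₀ * g⁻¹) * y) * g := by group
        _ = g⁻¹ * (y * (g * x₀ * g⁻¹)) * g := by rw [h2]
        _ = g⁻¹ * y * g * x₀ := by group
    have e := h1.2 _ (coatom_conj hM g) hsub
    apply hgM
    rw [← normalizer_coatom hG hM, ← conj_map_eq_iff_mem_normalizer]
    exact e
  obtain ⟨x, hxZ, hxo, hnot⟩ := hex
  refine ⟨x, hxZ, hxo, ?_, hnot⟩
  have hx1 : x ≠ 1 := by
    rintro rfl
    rw [orderOf_one] at hxo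
    exact hpp.ne_one hxo.symm
  have hxM : x ∈ M := hP.le ((hZmem x).1 hxZ).1
  by_contra hZg
  rw [isZGroup_iff] at hZg
  push Not at hZg
  obtain ⟨q, hq, S, hnc⟩ := hZg
  haveI : Fact q.Prime := ⟨hq⟩
  have hq2 : q ≠ 2 := by
    rintro rfl
    have hcard : 2 ∣ Nat.card ↥(S : Subgroup ↥(alphaCore M ⊓ centralizer ({x} : Set G))) := by
      obtain ⟨k, hk⟩ := S.isPGroup'.exists_card_eq
      rcases k with _ | k
      · exfalso
        apply hnc
        rw [pow_zero] at hk
        haveI : Subsingleton ↥(S : Subgroup ↥(alphaCore M ⊓ centralizer ({x} : Set G))) :=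
          (Nat.card_eq_one_iff_unique.mp hk).1
        infer_instance
      · rw [hk, pow_succ]
        exact dvd_mul_left _ _
    have h1 := hcard.trans (Subgroup.card_subgroup_dvd_card _)
    have h2 := h1.trans (Subgroup.card_subgroup_dvd_card _)
    exact absurd (Odd.of_dvd_nat hG.1 h2) (by decide)
  have hrS := not_prank_one_of_not_cyclic hq2 S.isPGroup' hnc
  have hrW : ¬ RankLE 1 ↥(alphaCore M ⊓ centralizer (((zpowers x : Subgroup G)) : Set G)) := by
    rw [centralizer_zpowers_eq]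
    exact fun h => hrS (prank_of_subgroup (h q hq) _)
  have hu := s1406_core hG huniq hM (zpowers x) ((zpowers_le).mpr hxM) (by
    intro r hr hd hα
    rw [Nat.card_zpowers, hxo] at hd
    have hrp : r = p := (Nat.prime_dvd_prime_iff_eq hr hpp).1 hd
    subst hrp
    exact hp (alpha_sub_sigma hG huniq hM hα)) hrW
  rw [centralizer_zpowers_eq] at hu
  have hCne := centralizer_singleton_ne_top hG hx1
  apply hnot
  exact ⟨uniq_le hM inf_le_left hu hCne inf_le_right,
    fun L hL hCL => uniq_eq hu hL (inf_le_right.trans hCL) hM inf_le_left⟩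

/-- **S1409**. -/
theorem s1409_core (hG : IsMinSimpleOddOrder G) (huniq : UniquenessThm G) (hM : IsCoatom M) {p : ℕ} [Fact p.Prime]
    (hp : p ∉ sigma M) (X : Subgroup G) (hX : Nat.card X = p) (hNX : normalizer (X : Set G) ≤ M) :
    (PRankLE p 2 M ∧ ¬ PRankLE p 1 M) ∧ ¬ IsIdealPrime p G ∧
      ∃ A : Subgroup G, IsElementaryAbelian p A ∧ Nat.card A = p ^ 2 ∧ X ≤ A := by
  have hpp : p.Prime := Fact.out
  have hXM : X ≤ M := Subgroup.le_normalizer.trans hNX
  have hr2 : PRankLE p 2 M := by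
    by_contra h
    exact hp (alpha_sub_sigma hG huniq hM ⟨hpp, h⟩)
  have hXe : IsElementaryAbelian p X := by
    haveI : Fact (Nat.card X).Prime := ⟨hX ▸ hpp⟩
    haveI : IsCyclic X := isCyclic_of_prime_card rfl
    refine ⟨inferInstance, ?_⟩
    intro a ha
    have := Subgroup.orderOf_dvd_natCard X ha
    rw [hX] at this
    exact orderOf_dvd_iff_pow_eq_one.1 this
  have hXp := isPGroup_of_elem hXe
  have hX1 : X ≠ ⊥ := by
    rintro rfl
    rw [Subgroup.card_bot] at hX
    exact hpp.ne_one hX.symm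
  have hpM : p ∣ Nat.card M := by
    rw [← hX]
    exact Subgroup.card_dvd_of_le hXM
  have hX' : IsPGroup p (X.subgroupOf M) := by
    intro x
    obtain ⟨k, hk⟩ := hXp ⟨((x : ↥M) : G), x.2⟩
    exact ⟨k, by
      apply Subtype.ext
      apply Subtype.ext
      simpa using congrArg Subtype.val hk⟩
  obtain ⟨P, hXP'⟩ := hX'.exists_le_sylow
  set P₀ : Subgroup G := (P : Subgroup M).map M.subtype with hP₀
  have hP := isMaxP_map P
  have hXP : X ≤ P₀ := by
    intro x hx
    exact ⟨⟨x, hXM hx⟩, hXP' (Subgroup.mem_subgroupOf.mpr hx), rfl⟩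
  have hP1 : P₀ ≠ ⊥ := by
    intro h
    exact hX1 (le_bot_iff.mp (h ▸ hXP))
  obtain ⟨z, hzP, hz1, hzp, hzc⟩ := exists_central_order_p hP.isP hP1
  have hr1 : ¬ PRankLE p 1 M := by
    intro hr
    have key : ∀ L : Subgroup G, L ≤ P₀ → Nat.card L = p → L = zpowers z := by
      intro L hLP hL
      have hLe : IsElementaryAbelian p L := by
        haveI : Fact (Nat.card L).Prime := ⟨hL ▸ hpp⟩
        haveI : IsCyclic L := isCyclic_of_prime_card rfl
        refine ⟨inferInstance, ?_⟩
        intro a ha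
        have := Subgroup.orderOf_dvd_natCard L ha
        rw [hL] at this
        exact orderOf_dvd_iff_pow_eq_one.1 this
      have hzL : z ∈ L := by
        by_contra hzL
        have h1 := isElementaryAbelian_sup_zpowers hLe hzp (fun e he => hzc e (hLP he))
        have h2 : L ⊔ zpowers z ≤ M := sup_le (hLP.trans hP.le) ((zpowers_le).mpr (hP.le hzP))
        have h3 := card_le_of_prank hr h1 h2
        have h4 : L < L ⊔ zpowers z := lt_of_le_of_ne le_sup_left (fun he => hzL (by
          rw [he]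
          exact (le_sup_right : zpowers z ≤ L ⊔ zpowers z) (mem_zpowers z)))
        have h5 := card_lt_of_lt h4
        rw [hL] at h5
        rw [pow_one] at h3
        omega
      have hzo : Nat.card (zpowers z) = p := by
        rw [Nat.card_zpowers]
        exact orderOf_eq_prime hzp hz1
      exact (Subgroup.eq_of_le_of_card_ge ((zpowers_le).mpr hzL) (by rw [hzo, hL])).symm
    apply hp
    refine ⟨hpp, hpM, P, ?_⟩
    refine le_trans ?_ hNX
    intro g hg
    rw [← conj_map_eq_iff_mem_normalizer]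
    have h1 : X.map (MulAut.conj g).toMonoidHom ≤ P₀ := by
      rintro _ ⟨x, hx, rfl⟩
      exact (Subgroup.mem_normalizer_iff.mp hg _).1 (hXP hx)
    rw [key _ h1 (by rw [card_conj_map, hX]), key X hXP hX]
  have hr1' : ¬ PRankLE p 1 ↥P₀ := fun h => hr1 (hP.prank_of h)
  refine ⟨⟨hr2, hr1⟩, (s1408_core hG huniq hM hr2 hr1).1, ?_⟩
  -- an element of order `p` outside `X` commuting with `X`
  have hy : ∃ y ∈ P₀, y ^ p = 1 ∧ y ∉ X ∧ ∀ e ∈ X, y * e = e * y := by
    by_cases hzX : z ∈ X
    · obtain ⟨E, hEe, hEP, hEc⟩ := exists_of_not_prank hr1'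
      have hnle : ¬ E ≤ X := by
        intro h
        have := Nat.le_of_dvd Nat.card_pos (Subgroup.card_dvd_of_le h)
        rw [hX, pow_one] at *
        omega
      obtain ⟨y, hyE, hyX⟩ := SetLike.not_le_iff_exists.mp hnle
      refine ⟨y, hEP hyE, hEe.2 y hyE, hyX, ?_⟩
      intro e he
      have hzo : Nat.card (zpowers z) = p := by
        rw [Nat.card_zpowers]
        exact orderOf_eq_prime hzp hz1
      have heq : zpowers z = X := Subgroup.eq_of_le_of_card_ge ((zpowers_le).mpr hzX) (by rw [hzo, hX])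
      rw [← heq] at he
      obtain ⟨k, rfl⟩ := he
      have h1 : Commute z y := hzc y (hEP hyE)
      exact (h1.zpow_left k).symm
    · exact ⟨z, hzP, hzp, hzX, fun e he => hzc e (hXP he)⟩
  obtain ⟨y, hyP, hyp, hyX, hyc⟩ := hy
  have hA := isElementaryAbelian_sup_zpowers hXe hyp hyc
  have hAM : X ⊔ zpowers y ≤ M := sup_le hXM ((zpowers_le).mpr (hP.le hyP))
  have hlt : X < X ⊔ zpowers y := lt_of_le_of_ne le_sup_left (fun he => hyX (by
    rw [he]
    exact (le_sup_right : zpowers y ≤ X ⊔ zpowers y) (mem_zpowers y)))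
  refine ⟨_, hA, card_eq_sq_of_bounds hA ?_ (card_le_of_prank hr2 hA hAM), le_sup_left⟩
  have := card_lt_of_lt hlt
  rw [hX] at this
  rwa [pow_one]

end Main

end Cfsg.Agent.Lib.FT
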