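import Cfsg.Agent.Lib.FT.BG10d
import Cfsg.Agent.Lib.Coprime.PLen
import Cfsg.Agent.Lib.Transfer.Fusion

/-!
BG section 10 continued: `p`-length one of proper subgroups (S1410), conditional on S1444; fusion in
Sylow normalizers (S1411, S1413), conditional on `p`-length one; S1412 conditional on S1448.
-/

set_option autoImplicit false
set_option linter.unusedSectionVars false
set_option linter.style.haveILetI false

namespace Cfsg.Agent.Lib.FT

open Subgroup Cfsg Cfsg.Agent.Lib.OddLocal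
open scoped commutatorElement

section Comm

variable {X : Type*} [Group X] [Finite X]

theorem comm_mul_mul {G : Type*} [Group G] {h₁ h₂ r₁ r₂ : G} (c11 : Commute h₁ r₁) (c12 : Commute h₁ r₂)
    (c21 : Commute h₂ r₁) (c22 : Commute h₂ r₂) : ⁅h₁ * r₁, h₂ * r₂⁆ = ⁅h₁, h₂⁆ * ⁅r₁, r₂⁆ := by
  simp only [commutatorElement_def, mul_inv_rev]
  have e1 : r₁⁻¹ * h₁⁻¹ = h₁⁻¹ * r₁⁻¹ := (c11.inv_inv).eq.symm
  have e2 : r₂⁻¹ * h₂⁻¹ = h₂⁻¹ * r₂⁻¹ := (c22.inv_inv).eq.symm
  rw [e1, e2]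
  have e3 : h₁ * r₁ * (h₂ * r₂) = h₁ * h₂ * (r₁ * r₂) := by
    rw [mul_assoc h₁ r₁, ← mul_assoc r₁ h₂, c21.eq.symm, mul_assoc h₂, ← mul_assoc h₁]
  rw [e3]
  have c3 : Commute (r₁ * r₂) h₁⁻¹ := ((c11.mul_right c12).symm).inv_right
  have c4 : Commute (r₁ * r₂ * r₁⁻¹) h₂⁻¹ := (((c21.mul_right c22).symm).inv_right).mul_left
    (c21.symm.inv_left.inv_right)
  calc h₁ * h₂ * (r₁ * r₂) * (h₁⁻¹ * r₁⁻¹) * (h₂⁻¹ * r₂⁻¹)
      = h₁ * h₂ * ((r₁ * r₂) * h₁⁻¹) * r₁⁻¹ * h₂⁻¹ * r₂⁻¹ := by group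
    _ = h₁ * h₂ * (h₁⁻¹ * (r₁ * r₂)) * r₁⁻¹ * h₂⁻¹ * r₂⁻¹ := by rw [c3.eq]
    _ = h₁ * h₂ * h₁⁻¹ * ((r₁ * r₂ * r₁⁻¹) * h₂⁻¹) * r₂⁻¹ := by group
    _ = h₁ * h₂ * h₁⁻¹ * (h₂⁻¹ * (r₁ * r₂ * r₁⁻¹)) * r₂⁻¹ := by rw [c4.eq]
    _ = h₁ * h₂ * h₁⁻¹ * h₂⁻¹ * (r₁ * r₂ * r₁⁻¹ * r₂⁻¹) := by group

theorem normal_commutator_of_sup (H R : Subgroup X) [hHn : H.Normal] (hsup : H ⊔ R = ⊤) :
    (⁅H, R⁆).Normal := by
  have hHN : H ≤ normalizer ((⁅H, R⁆ : Subgroup X) : Set X) := by
    intro h₀ hh₀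
    apply Cfsg.Agent.Lib.Coprime.mem_normalizer_of_conj_le
    have h1 : ⁅H, R⁆ ≤ (⁅H, R⁆).comap (MulAut.conj h₀).toMonoidHom := by
      rw [Subgroup.commutator_le]
      intro h hh r hr
      rw [mem_comap]
      have e : (MulAut.conj h₀).toMonoidHom ⁅h, r⁆ = ⁅h₀ * h, r⁆ * ⁅h₀, r⁆⁻¹ := by
        simp only [commutatorElement_def, mul_inv_rev, inv_inv, MulEquiv.toMonoidHom_eq_coe,
          MonoidHom.coe_coe, MulAut.conj_apply]
        group
      rw [e]
      exact mul_mem (commutator_mem_commutator (H.mul_mem hh₀ hh) hr)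
        (inv_mem (commutator_mem_commutator hh₀ hr))
    intro x hx
    have := h1 hx
    simpa [mem_comap] using this
  have hRN : R ≤ normalizer ((⁅H, R⁆ : Subgroup X) : Set X) := by
    intro r₀ hr₀
    apply Cfsg.Agent.Lib.Coprime.mem_normalizer_of_conj_le
    have h1 : ⁅H, R⁆ ≤ (⁅H, R⁆).comap (MulAut.conj r₀).toMonoidHom := by
      rw [Subgroup.commutator_le]
      intro h hh r hr
      rw [mem_comap]
      have e : (MulAut.conj r₀).toMonoidHom ⁅h, r⁆ = ⁅r₀ * h * r₀⁻¹, r₀ * r * r₀⁻¹⁆ := by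
        simp only [MulEquiv.toMonoidHom_eq_coe, MonoidHom.coe_coe, MulAut.conj_apply]
        rw [conjugate_commutatorElement]
      rw [e]
      exact commutator_mem_commutator (hHn.conj_mem _ hh _)
        (R.mul_mem (R.mul_mem hr₀ hr) (R.inv_mem hr₀))
    intro x hx
    have := h1 hx
    simpa [mem_comap] using this
  have h2 : (⊤ : Subgroup X) ≤ normalizer ((⁅H, R⁆ : Subgroup X) : Set X) := by
    rw [← hsup]
    exact sup_le hHN hRN
  exact normalizer_eq_top_iff.1 (top_le_iff.1 h2)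

/-- `H = [H, R]` if `H` is a normal subgroup in `X'`, with complement `R`. -/
theorem commutator_eq_of_le_commutator [Group.IsSolvable X] (H R : Subgroup X) [hHn : H.Normal]
    (hc : IsComplement' H R) (hle : H ≤ commutator X) : ⁅H, R⁆ = H := by
  classical
  have hsup : H ⊔ R = ⊤ := hc.sup_eq_top
  have hinf : H ⊓ R = ⊥ := hc.disjoint.eq_bot
  set N : Subgroup X := ⁅H, R⁆ with hN
  haveI hNn : N.Normal := normal_commutator_of_sup H R hsup
  have hNH : N ≤ H := commutator_le_left H R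
  set π := QuotientGroup.mk' N with hπ
  have hπs : Function.Surjective π := QuotientGroup.mk'_surjective N
  have hker : π.ker = N := QuotientGroup.ker_mk' N
  set Hb : Subgroup (X ⧸ N) := H.map π with hHb
  set Rb : Subgroup (X ⧸ N) := R.map π with hRb
  haveI hHbn : Hb.Normal := hHn.map π hπs
  have hcomm : ∀ h ∈ H, ∀ r ∈ R, Commute (π h) (π r) := by
    intro h hh r hr
    have h1 : ⁅h, r⁆ ∈ N := commutator_mem_commutator hh hr
    have h2 : π ⁅h, r⁆ = 1 := by rw [← MonoidHom.mem_ker, hker]; exact h1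
    rw [map_commutatorElement] at h2
    exact commutatorElement_eq_one_iff_commute.1 h2
  have hdecomp : ∀ a : X ⧸ N, ∃ h ∈ H, ∃ r ∈ R, a = π h * π r := by
    intro a
    obtain ⟨x, rfl⟩ := hπs a
    have hx : x ∈ (↑(H ⊔ R) : Set X) := by rw [hsup]; trivial
    rw [normal_mul H R] at hx
    obtain ⟨h, hh, r, hr, rfl⟩ := hx
    exact ⟨h, hh, r, hr, by simp⟩
  set W : Subgroup (X ⧸ N) := ⁅Hb, Hb⁆ with hW
  haveI hWn : W.Normal := inferInstance
  have hWH : W ≤ Hb := commutator_le_left Hb Hb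
  have hcl : commutator (X ⧸ N) ≤ W ⊔ ⁅Rb, Rb⁆ := by
    rw [commutator_def, Subgroup.commutator_le]
    intro a _ b _
    obtain ⟨h₁, hh₁, r₁, hr₁, rfl⟩ := hdecomp a
    obtain ⟨h₂, hh₂, r₂, hr₂, rfl⟩ := hdecomp b
    rw [comm_mul_mul (hcomm _ hh₁ _ hr₁) (hcomm _ hh₁ _ hr₂) (hcomm _ hh₂ _ hr₁) (hcomm _ hh₂ _ hr₂)]
    exact mul_mem (mem_sup_left (commutator_mem_commutator (mem_map_of_mem π hh₁) (mem_map_of_mem π hh₂)))
      (mem_sup_right (commutator_mem_commutator (mem_map_of_mem π hr₁) (mem_map_of_mem π hr₂)))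
  have hinfb : Hb ⊓ Rb = ⊥ := by
    rw [eq_bot_iff]
    rintro x ⟨⟨h, hh, rfl⟩, ⟨r, hr, e⟩⟩
    have h1 : h⁻¹ * r ∈ N := by
      rw [← hker, MonoidHom.mem_ker, map_mul, map_inv, e, inv_mul_cancel]
    have h2 : r ∈ H := by
      have := H.mul_mem hh (hNH h1)
      simpa using this
    have h3 : r ∈ H ⊓ R := ⟨h2, hr⟩
    rw [hinf, mem_bot] at h3
    rw [mem_bot, ← e, h3, map_one]
  have hperf : Hb ≤ W := by
    rintro _ ⟨h, hh, rfl⟩
    have h1 : π h ∈ commutator (X ⧸ N) := by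
      have h2 : π h ∈ (commutator X).map π := mem_map_of_mem π (hle hh)
      rw [commutator_def, map_commutator, map_top_of_surjective π hπs] at h2
      exact h2
    have h2 := hcl h1
    have h3 : π h ∈ (↑(W ⊔ ⁅Rb, Rb⁆) : Set (X ⧸ N)) := h2
    rw [normal_mul W ⁅Rb, Rb⁆] at h3
    obtain ⟨w, hw, ρ, hρ, e⟩ := h3
    have hρR : ρ ∈ Rb := Subgroup.commutator_le_self Rb hρ
    have hρH : ρ ∈ Hb := by
      have e2 : w * ρ = π h := e
      have e' : ρ = w⁻¹ * π h := by rw [← e2]; simp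
      rw [e']
      exact Hb.mul_mem (Hb.inv_mem (hWH hw)) (mem_map_of_mem π hh)
    have hρ1 : ρ = 1 := by
      have : ρ ∈ Hb ⊓ Rb := ⟨hρH, hρR⟩
      rwa [hinfb, mem_bot] at this
    have e2 : w * ρ = π h := e
    rw [← e2, hρ1, mul_one]
    exact hw
  have hbot : Hb = ⊥ := by
    by_contra hne
    haveI : Nontrivial Hb := (Subgroup.nontrivial_iff_ne_bot _).2 hne
    have h1 : commutator ↥Hb < ⊤ := Group.IsSolvable.commutator_lt_top_of_nontrivial ↥Hb
    apply h1.ne
    rw [eq_top_iff]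
    rintro x -
    have h2 : (x : X ⧸ N) ∈ (commutator ↥Hb).map Hb.subtype := by
      rw [Subgroup.map_subtype_commutator]
      exact hperf x.2
    obtain ⟨y, hy, e⟩ := h2
    have : y = x := Subtype.ext e
    rwa [← this]
  apply le_antisymm hNH
  intro h hh
  have h1 : π h ∈ Hb := mem_map_of_mem π hh
  rw [hbot, mem_bot] at h1
  rw [← hker]
  exact h1

/-- `p`-length one passes from a normal subgroup of `p'`-index to the whole group. -/
theorem plength_of_normal {p : ℕ} [Fact p.Prime] (N : Subgroup X) [hNn : N.Normal] (hidx : N.index.Coprime p)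
    (hN : PLengthLE p 1 ↥N) : PLengthLE p 1 X := by
  classical
  set O := pPrimeCore p X with hO
  haveI hOn : O.Normal := Cfsg.Agent.Lib.Basic.pPrimeCore_normal p
  set π := QuotientGroup.mk' O with hπ
  have hπs : Function.Surjective π := QuotientGroup.mk'_surjective O
  have hker : π.ker = O := QuotientGroup.ker_mk' O
  set ON := pPrimeCore p ↥N with hON
  haveI hONn : ON.Normal := Cfsg.Agent.Lib.Basic.pPrimeCore_normal p
  haveI hONc : ON.Characteristic := Cfsg.Agent.Lib.Basic.pPrimeCore_characteristic p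
  -- `O_{p'}(N)` lies in `O_{p'}(X)`
  have hONX : ON.map N.subtype ≤ O := by
    apply Cfsg.Agent.Lib.Basic.le_pPrimeCore (Cfsg.Agent.Lib.Coprime.PLen.normal_map_of_characteristic ON)
    rw [Subgroup.card_map_of_injective N.subtype_injective]
    exact Cfsg.Agent.Lib.Basic.pPrimeCore_coprime p
  set K' := pPrimePCore p ↥N with hK'
  haveI hK'c : K'.Characteristic := by
    have := Cfsg.Agent.Lib.Coprime.PLen.series_characteristic (p := p) (G := ↥N) 2
    rwa [upperPSeries_two] at this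
  haveI hKn : (K'.map N.subtype).Normal := Cfsg.Agent.Lib.Coprime.PLen.normal_map_of_characteristic K'
  set f : ↥N →* X ⧸ O := π.comp N.subtype with hf
  have hfk : ∀ x ∈ ON, f x = 1 := by
    intro x hx
    have h1 : (x : X) ∈ O := hONX (mem_map_of_mem _ hx)
    show π (x : X) = 1
    rw [← MonoidHom.mem_ker, hker]
    exact h1
  let g : (↥N ⧸ ON) →* X ⧸ O := QuotientGroup.lift ON f (by
    intro x hx
    exact hfk x hx)
  have hKmap : (K'.map N.subtype).map π = (pCore p (↥N ⧸ ON)).map g := by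
    have h1 : (K'.map N.subtype).map π = K'.map f := by
      rw [Subgroup.map_map]
    have h2 : K'.map f = (K'.map (QuotientGroup.mk' ON)).map g := by
      rw [Subgroup.map_map]
      congr 1
    rw [h1, h2]
    congr 1
    exact Subgroup.map_comap_eq_self_of_surjective (QuotientGroup.mk'_surjective ON) _
  have hKp : IsPGroup p ((K'.map N.subtype).map π) := by
    rw [hKmap]
    exact (Cfsg.Agent.Lib.Basic.pCore_isPGroup p).map g
  have hKle : K'.map N.subtype ≤ pPrimePCore p X := by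
    intro x hx
    show π x ∈ pCore p (X ⧸ O)
    exact Cfsg.Agent.Lib.Basic.le_pCore (hKn.map π hπs) hKp (mem_map_of_mem π hx)
  apply plengthLE_one_of_index_coprime
  have h1 : (pPrimePCore p X).index ∣ (K'.map N.subtype).index := Subgroup.index_dvd_of_le hKle
  rw [Subgroup.index_map_subtype] at h1
  exact Nat.Coprime.coprime_dvd_left h1 (Nat.Coprime.mul_left (index_pPrimePCore_coprime hN) hidx)

end Comm

section Fusion

variable {G : Type*} [Group G] [Finite G] {p : ℕ} [hpf : Fact p.Prime]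

/-- The factorization of `N_G(R)` from `p`-length one. -/
theorem fact_of_plen (hG : IsMinSimpleOddOrder G) (hpl : ∀ H : Subgroup G, H ≠ ⊤ → PLengthLE p 1 ↥H)
    (R D : Subgroup G) (hRp : IsPGroup p R) (hR1 : R ≠ ⊥) (hRD : R ≤ D)
    (hD : IsMaxP p D (normalizer (R : Set G))) :
    ∀ n ∈ normalizer (R : Set G), ∃ b ∈ normalizer (D : Set G), ∃ a ∈ centralizer (R : Set G), n = b * a := by
  have hp : p.Prime := hpf.out
  have hRtop : R ≠ ⊤ := IsMinSimpleOddOrder.ne_top_of_isPGroup hG hp hRp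
  have hNtop : normalizer (R : Set G) ≠ ⊤ := IsMinSimpleOddOrder.normalizer_ne_top hG hR1 hRtop
  haveI hNs : Group.IsSolvable ↥(normalizer (R : Set G)) := IsMinSimpleOddOrder.isSolvable hG hNtop
  have hS := (Cfsg.Agent.S1461.result p (hpl _ hNtop) hD.toSylow).2.1
  intro n hn
  obtain ⟨g, hg, c, hc, e⟩ := hS ((R.subgroupOf (normalizer (R : Set G)) : Subgroup _) : Set _) ⟨n, hn⟩
    (by
      intro y hy
      exact Subgroup.mem_subgroupOf.mpr (hRD (Subgroup.mem_subgroupOf.mp hy)))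
    (by
      rintro _ ⟨y, hy, rfl⟩
      apply Subgroup.mem_subgroupOf.mpr
      have hy' : (y : G) ∈ R := Subgroup.mem_subgroupOf.mp hy
      exact hRD ((Subgroup.mem_normalizer_iff.mp hn _).1 hy'))
  refine ⟨(g : G), ?_, (c : G), ?_, ?_⟩
  · apply Cfsg.Agent.Lib.Coprime.mem_normalizer_of_conj_le
    intro x hx
    have hxN : x ∈ normalizer (R : Set G) := hD.le hx
    have h1 : (⟨x, hxN⟩ : ↥(normalizer (R : Set G))) ∈ ((hD.toSylow : Sylow p _) : Subgroup _) :=
      Subgroup.mem_subgroupOf.mpr hx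
    have h2 := (Subgroup.mem_normalizer_iff.mp hg _).1 h1
    exact Subgroup.mem_subgroupOf.mp h2
  · rw [Subgroup.mem_centralizer_iff]
    intro r hr
    have hrN : r ∈ normalizer (R : Set G) := Subgroup.le_normalizer hr
    have h1 := Subgroup.mem_centralizer_iff.mp hc ⟨r, hrN⟩ (Subgroup.mem_subgroupOf.mpr hr)
    exact congrArg Subtype.val h1
  · exact (congrArg Subtype.val e).symm

/-- `N_G(P)` controls fusion in `P`. -/
theorem ctrl_normalizer_sylow (hG : IsMinSimpleOddOrder G) (hpl : ∀ H : Subgroup G, H ≠ ⊤ → PLengthLE p 1 ↥H)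
    (P : Sylow p G) (T : Subgroup G) (hTp : IsPGroup p T) (hT1 : T ≠ ⊥)
    (hTM : T ≤ normalizer ((P : Subgroup G) : Set G)) : Ctrl (normalizer ((P : Subgroup G) : Set G)) T := by
  apply ctrl_of_fact P Subgroup.le_normalizer le_rfl _ T hTp hT1 hTM
  intro R D hRp hR1 hRD hD _ _
  exact fact_of_plen hG hpl R D hRp hR1 hRD hD

theorem s1413_c (hG : IsMinSimpleOddOrder G) (hpl : ∀ H : Subgroup G, H ≠ ⊤ → PLengthLE p 1 ↥H)
    (P : Sylow p G) (Q : Subgroup G) (x : G) (hQ : Q ≤ (P : Subgroup G))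
    (hQx : Q.map (MulAut.conj x).toMonoidHom ≤ (P : Subgroup G)) :
    ∃ y ∈ normalizer ((P : Subgroup G) : Set G),
      ∀ t ∈ Q, x * t * x⁻¹ = y * t * y⁻¹ := by
  by_cases hQ1 : Q = ⊥
  · refine ⟨1, one_mem _, ?_⟩
    intro t ht
    rw [hQ1, mem_bot] at ht
    simp [ht]
  · exact ctrl_normalizer_sylow hG hpl P Q (P.isPGroup'.to_le hQ) hQ1 (hQ.trans Subgroup.le_normalizer) x
      (hQx.trans Subgroup.le_normalizer)

/-- If `Q ≤ P` and `N_G(P)` normalizes `Q`, then `Q` is weakly closed in `P`. -/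
theorem mem_normalizer_of_conj_le_sylow (hG : IsMinSimpleOddOrder G)
    (hpl : ∀ H : Subgroup G, H ≠ ⊤ → PLengthLE p 1 ↥H) (P : Sylow p G) (Q : Subgroup G) (w : G)
    (hQ : Q ≤ (P : Subgroup G)) (hN : normalizer ((P : Subgroup G) : Set G) ≤ normalizer (Q : Set G))
    (hQw : Q.map (MulAut.conj w).toMonoidHom ≤ (P : Subgroup G)) : w ∈ normalizer (Q : Set G) := by
  obtain ⟨y, hy, hyc⟩ := s1413_c hG hpl P Q w hQ hQw
  apply Cfsg.Agent.Lib.Coprime.mem_normalizer_of_conj_le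
  intro t ht
  rw [hyc t ht]
  exact (Subgroup.mem_normalizer_iff.mp (hN hy) _).1 ht

theorem s1413_d (hG : IsMinSimpleOddOrder G) (hpl : ∀ H : Subgroup G, H ≠ ⊤ → PLengthLE p 1 ↥H)
    (P : Sylow p G) (Q : Subgroup G) (hQ : Q ≤ (P : Subgroup G)) :
    ¬ p ∣ ((P : Subgroup G) ⊓ normalizer (Q : Set G)).relIndex (normalizer (Q : Set G)) := by
  classical
  have hle : (P : Subgroup G) ⊓ normalizer (Q : Set G) ≤ normalizer (Q : Set G) := inf_le_right
  obtain ⟨D₀, hD₀, hPD⟩ := exists_isMaxP_ge hle (P.isPGroup'.to_le inf_le_left)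
  have hQD : Q ≤ D₀ := by
    intro q hq
    exact hPD ⟨hQ hq, Subgroup.le_normalizer hq⟩
  -- conjugate `D₀` into `P`
  obtain ⟨S, hS⟩ := hD₀.isP.exists_le_sylow
  obtain ⟨z, hz⟩ := MulAction.exists_smul_eq G S P
  have hzD : D₀.map (MulAut.conj z).toMonoidHom ≤ (P : Subgroup G) := by
    rintro _ ⟨w, hw, rfl⟩
    have := Cfsg.Agent.Lib.Basic.conj_mem_conj_smul (g := z) (x := w) (H := (S : Subgroup G)) |>.mpr (hS hw)
    rw [← hz, Sylow.coe_subgroup_smul]
    simpa [MulAut.conj_apply] using this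
  -- `Q' = z Q z⁻¹ ≤ P`, and `Q'^{z⁻¹} = Q ≤ P`
  set Q' := Q.map (MulAut.conj z).toMonoidHom with hQ'
  have hQ'P : Q' ≤ (P : Subgroup G) := (Cfsg.Agent.Lib.Coprime.conj_map_mono hQD z).trans hzD
  have hQ'z : Q'.map (MulAut.conj z⁻¹).toMonoidHom ≤ (P : Subgroup G) := by
    rw [hQ', Cfsg.Agent.Lib.Coprime.conj_map_conj_map, inv_mul_cancel, Cfsg.Agent.Lib.Coprime.conj_map_one]
    exact hQ
  obtain ⟨m, hm, hmc⟩ := s1413_c hG hpl P Q' z⁻¹ hQ'P hQ'z
  -- `c = m⁻¹ z` centralizes `Q`... as `z⁻¹ (z q z⁻¹) z = q = m (z q z⁻¹) m⁻¹`.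
  set c := m * z with hc
  have hcQ : ∀ q ∈ Q, c * q * c⁻¹ = q := by
    intro q hq
    have h1 := hmc (z * q * z⁻¹) (Cfsg.Agent.Lib.Coprime.conj_mem_conj_map Q z q hq)
    have h2 : z⁻¹ * (z * q * z⁻¹) * z⁻¹⁻¹ = q := by group
    rw [h2] at h1
    rw [hc]
    calc m * z * q * (m * z)⁻¹ = m * (z * q * z⁻¹) * m⁻¹ := by group
      _ = q := h1.symm
  have hcN : c ∈ normalizer (Q : Set G) := by
    apply Cfsg.Agent.Lib.Coprime.mem_normalizer_of_conj_le
    intro q hq
    rw [hcQ q hq]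
    exact hq
  -- `D₀^c ≤ P ⊓ N(Q)`
  have hcD : D₀.map (MulAut.conj c).toMonoidHom ≤ (P : Subgroup G) ⊓ normalizer (Q : Set G) := by
    apply le_inf
    · rintro _ ⟨w, hw, rfl⟩
      have h1 : z * w * z⁻¹ ∈ (P : Subgroup G) := hzD ⟨w, hw, rfl⟩
      have h2 := (Subgroup.mem_normalizer_iff.mp hm _).1 h1
      have e : (MulAut.conj c).toMonoidHom w = m * (z * w * z⁻¹) * m⁻¹ := by
        change c * w * c⁻¹ = _
        rw [hc]
        group
      rw [e]
      exact h2
    · rintro _ ⟨w, hw, rfl⟩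
      change c * w * c⁻¹ ∈ _
      exact mul_mem (mul_mem hcN (hD₀.le hw)) (inv_mem hcN)
  have heq : (P : Subgroup G) ⊓ normalizer (Q : Set G) = D₀ := by
    apply Subgroup.eq_of_le_of_card_ge hPD
    rw [← card_conj_map D₀ c]
    exact Nat.card_mono (Set.toFinite _) hcD
  rw [heq]
  have h1 : ¬ p ∣ (hD₀.toSylow : Subgroup ↥(normalizer (Q : Set G))).index := by
    haveI : (hD₀.toSylow : Sylow p ↥(normalizer (Q : Set G))) = hD₀.toSylow := rfl
    exact Sylow.not_dvd_index _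
  exact h1

theorem s1413_e (hG : IsMinSimpleOddOrder G) (hpl : ∀ H : Subgroup G, H ≠ ⊤ → PLengthLE p 1 ↥H)
    (P : Sylow p G) (R Q : Subgroup G) (hR : IsPGroup p R) (hQ : Q ≤ (P : Subgroup G) ⊓ R)
    (hN : normalizer ((P : Subgroup G) : Set G) ≤ normalizer (Q : Set G)) :
    normalizer (R : Set G) ≤ normalizer (Q : Set G) := by
  classical
  have hQP : Q ≤ (P : Subgroup G) := hQ.trans inf_le_left
  have hQR : Q ≤ R := hQ.trans inf_le_right
  obtain ⟨S, hS⟩ := hR.exists_le_sylow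
  obtain ⟨z, hz⟩ := MulAction.exists_smul_eq G S P
  have hzR : R.map (MulAut.conj z).toMonoidHom ≤ (P : Subgroup G) := by
    rintro _ ⟨w, hw, rfl⟩
    have := Cfsg.Agent.Lib.Basic.conj_mem_conj_smul (g := z) (x := w) (H := (S : Subgroup G)) |>.mpr (hS hw)
    rw [← hz, Sylow.coe_subgroup_smul]
    simpa [MulAut.conj_apply] using this
  have hz1 : z ∈ normalizer (Q : Set G) :=
    mem_normalizer_of_conj_le_sylow hG hpl P Q z hQP hN ((Cfsg.Agent.Lib.Coprime.conj_map_mono hQR z).trans hzR)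
  intro t ht
  have h2 : (z * t) ∈ normalizer (Q : Set G) := by
    apply mem_normalizer_of_conj_le_sylow hG hpl P Q (z * t) hQP hN
    rintro _ ⟨q, hq, rfl⟩
    have h3 : t * q * t⁻¹ ∈ R := (Subgroup.mem_normalizer_iff.mp ht _).1 (hQR hq)
    have h4 := hzR ⟨_, h3, rfl⟩
    have e : (MulAut.conj (z * t)).toMonoidHom q = (MulAut.conj z).toMonoidHom (t * q * t⁻¹) := by
      simp [MulAut.conj_apply, mul_assoc]
    rw [e]
    exact h4
  have : t = z⁻¹ * (z * t) := by group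
  rw [this]
  exact mul_mem (inv_mem hz1) h2

end Fusion

section S1410

universe u

/-- The statement of S1444, as a hypothesis. -/
def S1444Hyp : Prop :=
  ∀ (X : Type u) [Group X] [Finite X] [Group.IsSolvable X], Odd (Nat.card X) →
    ∀ (H R R₀ : Subgroup X) [H.Normal], (Nat.card H).Coprime H.index → IsComplement' H R → R₀ ≤ R →
      (Nat.card R₀).Prime → IsZGroup ↥(H ⊓ centralizer (R₀ : Set X)) → ∀ (p : ℕ) [Fact p.Prime],
        PLengthLE p 1 ↥⁅H, R⁆

variable {G : Type u} [Group G] [Finite G] {M : Subgroup G}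

theorem not_dvd_index_commutator (hG : IsMinSimpleOddOrder G) (huniq : UniquenessThm G) (hM : IsCoatom M)
    {p : ℕ} [Fact p.Prime] (hp : p ∈ sigma M) : ¬ p ∣ (commutator ↥M).index := by
  obtain ⟨S, hSM, -⟩ := sigma_exists_sylow hp
  have hSc := sylow_le_commutator hG huniq hM hp S hSM
  have hTc : (S : Subgroup G).subgroupOf M ≤ commutator ↥M := by
    intro x hx
    have h1 : (x : G) ∈ ⁅M, M⁆ := hSc (Subgroup.mem_subgroupOf.mp hx)
    rw [← Subgroup.map_subtype_commutator] at h1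
    obtain ⟨y, hy, hyx⟩ := h1
    have : y = x := Subtype.ext hyx
    rwa [← this]
  intro hd
  have h1 := hd.trans (Subgroup.index_dvd_of_le hTc)
  apply S.not_dvd_index
  have h2 : (S : Subgroup G).index = ((S : Subgroup G).subgroupOf M).index * M.index := by
    rw [← Subgroup.relIndex_mul_index hSM]
    rfl
  rw [h2]
  exact h1.trans (dvd_mul_right _ _)

theorem exists_prime_not_sigma (hG : IsMinSimpleOddOrder G) (huniq : UniquenessThm G) (hM : IsCoatom M) :
    ∃ r : ℕ, r.Prime ∧ r ∣ Nat.card M ∧ r ∉ sigma M := by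
  haveI := coatom_isSolvable hG hM
  by_contra hcon
  push Not at hcon
  have hne : M ≠ ⊥ := coatom_ne_bot hG hM
  haveI : Nontrivial ↥M := (Subgroup.nontrivial_iff_ne_bot _).2 hne
  have h1 : commutator ↥M < ⊤ := Group.IsSolvable.commutator_lt_top_of_nontrivial ↥M
  have h2 : (commutator ↥M).index ≠ 1 := by
    intro h
    exact h1.ne (Subgroup.index_eq_one.mp h)
  obtain ⟨r, hr, hrd⟩ := Nat.exists_prime_and_dvd h2
  have hrM : r ∣ Nat.card M := hrd.trans (Subgroup.index_dvd_card _)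
  haveI : Fact r.Prime := ⟨hr⟩
  exact not_dvd_index_commutator hG huniq hM (hcon r hr hrM) hrd

/-- **S1410** for maximal subgroups. -/
theorem s1410_coatom (hG : IsMinSimpleOddOrder G) (huniq : UniquenessThm G) (hS : S1444Hyp.{u}) (hM : IsCoatom M)
    (p : ℕ) [hpf : Fact p.Prime] : PLengthLE p 1 ↥M := by
  classical
  haveI hMs := coatom_isSolvable hG hM
  have hodd := subgroup_odd hG M
  have hpp : p.Prime := hpf.out
  by_cases hpa : p ∈ alpha M
  swap
  · have hr : PRankLE p 2 ↥M := not_mem_alpha_prank hpp hpa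
    by_cases hp2 : p = 2
    · subst hp2
      apply plengthLE_one_of_index_coprime
      have h1 : (pPrimePCore 2 ↥M).index ∣ Nat.card ↥M := Subgroup.index_dvd_card _
      have h2 : Odd (pPrimePCore 2 ↥M).index := Odd.of_dvd_nat hodd h1
      exact (Nat.coprime_two_right).2 h2
    · exact plengthLE_one_of_index_coprime (rank2_quotient_structure hodd p hp2 hr).2.1
  set H₀ : Subgroup ↥M := piCore (alpha M) ↥M with hH₀
  haveI hH₀n : H₀.Normal := inferInstance
  have hasub : ∀ {q : ℕ}, q ∈ alpha M → q ∈ sigma M := by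
    intro q hq
    haveI : Fact q.Prime := ⟨hq.1⟩
    exact alpha_sub_sigma hG huniq hM hq
  obtain ⟨r, hrp, hrM, hrσ⟩ := exists_prime_not_sigma hG huniq hM
  haveI hrf : Fact r.Prime := ⟨hrp⟩
  have hall := (s1405_core hG huniq hM).1
  have hcardH : Nat.card ↥(alphaCore M) = Nat.card H₀ := Subgroup.card_map_of_injective M.subtype_injective
  have hidxH : (alphaCore M).relIndex M = H₀.index := by
    unfold Subgroup.relIndex
    congr 1
    exact Subgroup.comap_map_eq_self_of_injective M.subtype_injective H₀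
  have hpri : ∀ q : ℕ, q.Prime → q ∣ Nat.card H₀ → q ∈ alpha M := by
    intro q hq hd
    rw [← hcardH] at hd
    exact hall.2.1 q hq hd
  have hidx' : ∀ q : ℕ, q ∈ alpha M → ¬ q ∣ H₀.index := by
    intro q hq
    rw [← hidxH]
    exact hall.2.2 q hq.1 hq
  have hcop : (Nat.card H₀).Coprime H₀.index := by
    by_contra hc
    obtain ⟨q, hq, h1, h2⟩ := Nat.Prime.not_coprime_iff_dvd.1 hc
    exact hidx' q (hpri q hq h1) h2
  obtain ⟨R, hR⟩ := Subgroup.exists_right_complement'_of_coprime hcop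
  -- a Sylow `r`-subgroup of `M` inside `R`
  have hrH : ¬ r ∣ Nat.card H₀ := fun h => hrσ (hasub (hpri r hrp h))
  obtain ⟨Q⟩ : Nonempty (Sylow r ↥R) := inferInstance
  have hQp : IsPGroup r ((Q : Subgroup ↥R).map R.subtype) := Q.isPGroup'.map R.subtype
  have hQi : ¬ r ∣ ((Q : Subgroup ↥R).map R.subtype).index := by
    rw [Subgroup.index_map_subtype, hR.index_eq_card]
    intro hd
    rcases (Nat.Prime.dvd_mul hrp).1 hd with h | h
    · exact Q.not_dvd_index h
    · exact hrH h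
  set P : Sylow r ↥M := hQp.toSylow hQi with hP
  have hPR : (P : Subgroup ↥M) ≤ R := by
    rw [hP]
    show (Q : Subgroup ↥R).map R.subtype ≤ R
    exact Subgroup.map_subtype_le _
  obtain ⟨x, ⟨_, ⟨u, -, rfl⟩, rfl⟩, hxo, hxZ, -⟩ := s1407_core hG huniq hM hrM hrσ P
  set x₀ : ↥M := (P : Subgroup ↥M).subtype u with hx₀
  have hx₀P : x₀ ∈ (P : Subgroup ↥M) := u.2
  set R₀ : Subgroup ↥M := zpowers x₀ with hR₀
  have hR₀R : R₀ ≤ R := (zpowers_le).2 (hPR hx₀P)
  have hordx : orderOf x₀ = r := by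
    rw [← hxo]
    exact (orderOf_injective M.subtype M.subtype_injective x₀).symm
  have hR₀p : (Nat.card R₀).Prime := by
    rw [hR₀, Nat.card_zpowers, hordx]
    exact hrp
  have hZ : IsZGroup ↥(H₀ ⊓ centralizer (R₀ : Set ↥M)) := by
    have hmem : ∀ y : ↥(H₀ ⊓ centralizer (R₀ : Set ↥M)),
        ((y : ↥M) : G) ∈ alphaCore M ⊓ centralizer ({M.subtype x₀} : Set G) := by
      rintro ⟨y, hy1, hy2⟩
      refine Subgroup.mem_inf.2 ⟨⟨y, hy1, rfl⟩, ?_⟩
      rw [Subgroup.mem_centralizer_singleton_iff]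
      have h1 := Subgroup.mem_centralizer_iff.1 hy2 x₀ (mem_zpowers x₀)
      have h2 := congrArg Subtype.val h1
      exact h2.symm
    let f : ↥(H₀ ⊓ centralizer (R₀ : Set ↥M)) →* ↥(alphaCore M ⊓ centralizer ({M.subtype x₀} : Set G)) :=
      (M.subtype.comp (H₀ ⊓ centralizer (R₀ : Set ↥M)).subtype).codRestrict _ hmem
    have hf : Function.Injective f := by
      intro a b hab
      have h1 : ((a : ↥M) : G) = ((b : ↥M) : G) :=
        congrArg (fun z : ↥(alphaCore M ⊓ centralizer ({M.subtype x₀} : Set G)) => (z : G)) hab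
      exact Subtype.ext (Subtype.ext h1)
    exact IsZGroup.of_injective hf
  have hpl := hS ↥M hodd H₀ R R₀ hcop hR hR₀R hR₀p hZ p
  -- `H₀ ≤ M'`
  have hle : H₀ ≤ commutator ↥M := by
    have h1 : (commutator ↥M).relIndex H₀ = 1 := by
      by_contra hne
      obtain ⟨t, ht, htd⟩ := Nat.exists_prime_and_dvd hne
      have h2 : t ∈ alpha M := hpri t ht (htd.trans (Subgroup.relIndex_dvd_card _ _))
      haveI : Fact t.Prime := ⟨ht⟩
      exact not_dvd_index_commutator hG huniq hM (hasub h2)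
        (htd.trans (Subgroup.relIndex_dvd_index_of_normal _ _))
    exact Subgroup.relIndex_eq_one.1 h1
  have he := commutator_eq_of_le_commutator H₀ R hR hle
  rw [he] at hpl
  apply plength_of_normal H₀ _ hpl
  rw [Nat.coprime_comm, Nat.Prime.coprime_iff_not_dvd hpp]
  exact hidx' p hpa

/-- **S1410**, conditional on the Uniqueness Theorem and S1444. -/
theorem s1410_core (hG : IsMinSimpleOddOrder G) (huniq : UniquenessThm G) (hS : S1444Hyp.{u})
    (p : ℕ) [hpf : Fact p.Prime] (H : Subgroup G) (hH : H ≠ ⊤) : PLengthLE p 1 ↥H := by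
  obtain ⟨L, hL, hHL⟩ := exists_coatom_ge hH
  have h1 := s1410_coatom hG huniq hS hL p
  have h2 : PLengthLE p 1 ↥(H.subgroupOf L) := Cfsg.Agent.Lib.Coprime.PLen.pLength_subgroup _ h1
  exact Cfsg.Agent.Lib.Coprime.PLen.pLength_map (Subgroup.subgroupOfEquivOfLe hHL).toMonoidHom
    (Subgroup.subgroupOfEquivOfLe hHL).surjective h2

end S1410

section S1411

variable {G : Type*} [Group G] [Finite G] {p : ℕ} [hpf : Fact p.Prime]

theorem commutator_eq_top (hG : IsMinSimpleOddOrder G) : commutator G = ⊤ := by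
  rcases IsMinSimpleOddOrder.normal_eq hG (N := commutator G) inferInstance with h | h
  · exfalso
    apply hG.2.2.1
    constructor
    constructor
    intro a b
    have h2 : ⁅a, b⁆ ∈ commutator G := Subgroup.commutator_mem_commutator (mem_top a) (mem_top b)
    rw [h, Subgroup.mem_bot, commutatorElement_eq_one_iff_mul_comm] at h2
    exact h2
  · exact h

/-- The second part of **S1411**. -/
theorem sylow_le_commutator_normalizer (hG : IsMinSimpleOddOrder G)
    (hpl : ∀ H : Subgroup G, H ≠ ⊤ → PLengthLE p 1 ↥H) (P : Sylow p G) :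
    (P : Subgroup G) ≤ ⁅normalizer ((P : Subgroup G) : Set G), normalizer ((P : Subgroup G) : Set G)⁆ := by
  have hctrl : ∀ x ∈ (P : Subgroup G), ∀ u : G, u * x * u⁻¹ ∈ (P : Subgroup G) →
      ∃ n ∈ normalizer ((P : Subgroup G) : Set G), n * x * n⁻¹ = u * x * u⁻¹ := by
    intro x hx u hu
    have hle : zpowers x ≤ (P : Subgroup G) := (zpowers_le).2 hx
    have hle2 : (zpowers x).map (MulAut.conj u).toMonoidHom ≤ (P : Subgroup G) := by
      rw [MonoidHom.map_zpowers, zpowers_le]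
      exact hu
    obtain ⟨y, hy, hyc⟩ := s1413_c hG hpl P (zpowers x) u hle hle2
    exact ⟨y, hy, (hyc x (mem_zpowers x)).symm⟩
  have h1 := Cfsg.Agent.Lib.Transfer.commutator_inf_eq_of_control P _ hctrl Subgroup.le_normalizer
  rw [commutator_eq_top hG, top_inf_eq] at h1
  exact (le_of_eq h1).trans inf_le_left

/-- **S1411**, from `p`-length one of proper subgroups. -/
theorem s1411_core (hG : IsMinSimpleOddOrder G) (hpl : ∀ H : Subgroup G, H ≠ ⊤ → PLengthLE p 1 ↥H)
    (P : Sylow p G) (V : Subgroup G) (hV : IsComplIn (P : Subgroup G) V (normalizer ((P : Subgroup G) : Set G))) :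
    (P : Subgroup G) = ⁅(P : Subgroup G), V⁆ ∧
      (P : Subgroup G) ≤ ⁅normalizer ((P : Subgroup G) : Set G), normalizer ((P : Subgroup G) : Set G)⁆ := by
  classical
  have hc2 := sylow_le_commutator_normalizer hG hpl P
  refine ⟨?_, hc2⟩
  by_cases hP1 : (P : Subgroup G) = ⊥
  · rw [hP1, Subgroup.commutator_bot_left]
  set N := normalizer ((P : Subgroup G) : Set G) with hN
  have hpp : p.Prime := hpf.out
  have hPtop : (P : Subgroup G) ≠ ⊤ := IsMinSimpleOddOrder.ne_top_of_isPGroup hG hpp P.isPGroup'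
  have hNtop : N ≠ ⊤ := IsMinSimpleOddOrder.normalizer_ne_top hG hP1 hPtop
  haveI hNs : Group.IsSolvable ↥N := IsMinSimpleOddOrder.isSolvable hG hNtop
  obtain ⟨hV1, hV2, hV3, hV4⟩ := hV
  set H := (P : Subgroup G).subgroupOf N with hH
  set R := V.subgroupOf N with hR
  haveI hHn : H.Normal := Subgroup.normal_subgroupOf_of_le_normalizer le_rfl
  have hcompl : IsComplement' H R := by
    apply Subgroup.isComplement'_of_disjoint_and_mul_eq_univ
    · rw [Subgroup.disjoint_def]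
      intro x h1 h2
      have h3 : (x : G) ∈ (P : Subgroup G) ⊓ V := ⟨Subgroup.mem_subgroupOf.1 h1, Subgroup.mem_subgroupOf.1 h2⟩
      rw [hV3, mem_bot] at h3
      exact Subtype.ext h3
    · rw [Set.eq_univ_iff_forall]
      intro x
      obtain ⟨a, ha, b, hb, e⟩ := hV4 x x.2
      refine Set.mem_mul.2 ⟨⟨a, hV1 ha⟩, Subgroup.mem_subgroupOf.2 ha, ⟨b, hV2 hb⟩, Subgroup.mem_subgroupOf.2 hb, ?_⟩
      exact Subtype.ext e.symm
  have hle : H ≤ commutator ↥N := by
    intro x hx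
    have h1 : (x : G) ∈ ⁅N, N⁆ := hc2 (Subgroup.mem_subgroupOf.mp hx)
    rw [← Subgroup.map_subtype_commutator] at h1
    obtain ⟨y, hy, hyx⟩ := h1
    have : y = x := Subtype.ext hyx
    rwa [← this]
  have he := commutator_eq_of_le_commutator H R hcompl hle
  have hmapH : H.map N.subtype = (P : Subgroup G) := by
    rw [hH, Subgroup.map_subgroupOf_eq_of_le hV1]
  have hmapR : R.map N.subtype = V := by
    rw [hR, Subgroup.map_subgroupOf_eq_of_le hV2]
  have := congrArg (Subgroup.map N.subtype) he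
  rw [Subgroup.map_commutator, hmapH, hmapR] at this
  exact this.symm

end S1411

end Cfsg.Agent.Lib.FT
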