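import Cfsg.Agent.Lib.OddLocal.Rank3J

/-!
Linear algebra on a two-dimensional space over `ZMod p`, for cyclic coprime actions on narrow `p`-groups.
-/

set_option autoImplicit false
set_option linter.unusedSectionVars false
set_option linter.style.haveILetI false

namespace Cfsg.Agent.Lib.FT

open Polynomial

section End2

variable {p : ℕ} [hp : Fact p.Prime]

theorem end2_sq {W : Type*} [AddCommGroup W] [Module (ZMod p) W] [Module.Finite (ZMod p) W]
    (h2 : Module.finrank (ZMod p) W = 2) (A : Module.End (ZMod p) W) :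
    ∃ s d : ZMod p, A * A = s • A - d • 1 := by
  classical
  let b := Module.finBasisOfFinrankEq (ZMod p) W h2
  let e := LinearMap.toMatrixAlgEquiv b
  set M := e A with hM
  refine ⟨M 0 0 + M 1 1, M 0 0 * M 1 1 - M 0 1 * M 1 0, ?_⟩
  apply e.injective
  rw [map_mul, map_sub, map_smul, map_smul, map_one, ← hM]
  ext i j
  fin_cases i <;> fin_cases j <;>
    simp [Matrix.mul_apply, Fin.sum_univ_two, Matrix.one_apply] <;> ring

variable {R : Type*} [Ring R] [Algebra (ZMod p) R]

/-- `(A ^ (p - 1) - 1) (A ^ (p + 1) - d) = 0` for a root of a monic quadratic over `ZMod p`. -/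
theorem end2_identity (A : R) (s d : ZMod p) (h : A * A = s • A - d • 1) :
    aeval A ((X ^ (p - 1) - 1) * (X ^ (p + 1) - C d) : (ZMod p)[X]) = 0 := by
  have hp1 : 1 ≤ p := hp.out.one_lt.le
  -- the polynomial `q = X ^ 2 - s X + d` kills `A`
  set q : (ZMod p)[X] := X ^ 2 - C s * X + C d with hq
  have hqA : aeval A q = 0 := by
    simp only [hq, map_add, map_sub, map_mul, map_pow, aeval_X, aeval_C]
    rw [pow_two, h, Algebra.algebraMap_eq_smul_one, Algebra.algebraMap_eq_smul_one, smul_mul_assoc, one_mul]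
    abel
  -- `q ∘ X ^ p = q ^ p`, so `q` divides `(X^p)^2 - s X^p + d`
  obtain ⟨r, hr⟩ : (q ∣ (X ^ p) ^ 2 - C s * X ^ p + C d) := by
    refine ⟨q ^ (p - 1), ?_⟩
    have h1 : q * q ^ (p - 1) = q ^ p := by
      rw [← pow_succ', Nat.sub_add_cancel hp1]
    rw [h1, hq]
    rw [add_pow_char, sub_pow_char, mul_pow, ← C_pow, ← C_pow, ZMod.pow_card, ZMod.pow_card]
    ring
  set u : (ZMod p)[X] := X ^ (p - 1) with hu
  have hY : (X : (ZMod p)[X]) ^ p = X * u := by
    rw [hu, ← pow_succ', Nat.sub_add_cancel hp1]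
  have hv : (X : (ZMod p)[X]) ^ (p + 1) = X * u * X := by
    rw [pow_succ, hY]
  rw [hY] at hr
  rw [hv]
  have key : (u - 1) * (X * u * X - C d) = q * r - q - (u - 1) * q := by
    linear_combination hr + u * hq
  rw [key, map_sub, map_sub, map_mul, map_mul, hqA]
  simp

/-- A cyclic subgroup of order prime to `p` in the automorphisms of a plane: `A ^ (p ^ 2 - 1) = 1`. -/
theorem end2_pow (A : R) (s d : ZMod p) (h : A * A = s • A - d • 1) (n : ℕ) (hn : A ^ n = 1) (hn0 : n ≠ 0)
    (hc : n.Coprime p) : A ^ (p ^ 2 - 1) = 1 := by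
  classical
  have hp1 : 1 ≤ p := hp.out.one_lt.le
  have hid := end2_identity (p := p) A s d h
  have hpq : p ^ 2 - 1 = (p - 1) * (p + 1) := by
    have := Nat.sq_sub_sq p 1
    simpa [mul_comm] using this
  have hpq' : p ^ 2 - 1 = (p + 1) * (p - 1) := by rw [hpq, mul_comm]
  by_cases hd : d = 0
  · subst hd
    have h1 : A ^ (p + 1) * (A ^ (p - 1) - 1) = 0 := by
      have h2 : ((X ^ (p - 1) - 1) * (X ^ (p + 1) - C 0) : (ZMod p)[X]) = X ^ (p + 1) * (X ^ (p - 1) - 1) := by
        rw [C_0, sub_zero, mul_comm]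
      rw [h2] at hid
      simpa using hid
    have h2 : A ^ (p - 1) - 1 = 0 := by
      have hn1 : 1 ≤ n := Nat.pos_of_ne_zero hn0
      have h3 : A ^ ((n - 1) * (p + 1)) * (A ^ (p + 1) * (A ^ (p - 1) - 1)) = A ^ (p - 1) - 1 := by
        rw [← mul_assoc, ← pow_add]
        have h4 : (n - 1) * (p + 1) + (p + 1) = n * (p + 1) := by
          nth_rewrite 2 [← Nat.sub_add_cancel hn1]
          ring
        rw [h4, pow_mul, hn, one_pow, one_mul]
      rw [← h3, h1, mul_zero]
    rw [hpq, pow_mul, sub_eq_zero.1 h2, one_pow]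
  · have hd1 : d ^ (p - 1) = 1 := ZMod.pow_card_sub_one_eq_one hd
    set U : (ZMod p)[X] := X ^ (p - 1) with hU
    set V : (ZMod p)[X] := X ^ (p + 1) with hV
    set Y : (ZMod p)[X] := X ^ (p ^ 2 - 1) with hY
    obtain ⟨r₁, hr₁⟩ : U - 1 ∣ Y - 1 := by
      have := sub_dvd_pow_sub_pow U 1 (p + 1)
      rwa [one_pow, hU, ← pow_mul, ← hpq, ← hY] at this
    obtain ⟨r₂, hr₂⟩ : V - C d ∣ Y - 1 := by
      have := sub_dvd_pow_sub_pow V (C d) (p - 1)
      rwa [← C_pow, hd1, C_1, hV, ← pow_mul, ← hpq', ← hY] at this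
    have hY2 : (Y - 1) ^ 2 = ((U - 1) * (V - C d)) * (r₁ * r₂) := by
      rw [pow_two]
      nth_rewrite 1 [hr₁]
      rw [hr₂]
      ring
    have hC : aeval A ((Y - 1) ^ 2) = 0 := by
      rw [hY2, map_mul, hid, zero_mul]
    have hC2 : aeval A (Y ^ p - 1) = 0 := by
      have h1 : Y ^ p - 1 = (Y - 1) ^ 2 * (Y - 1) ^ (p - 2) := by
        have hp2 : 2 ≤ p := hp.out.two_le
        rw [← pow_add, Nat.add_sub_cancel' hp2, sub_pow_char, one_pow]
      rw [h1, map_mul, hC, zero_mul]
    have hA : aeval A Y = A ^ (p ^ 2 - 1) := by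
      rw [hY, map_pow, aeval_X]
    have hCp : (A ^ (p ^ 2 - 1)) ^ p = 1 := by
      have h1 := hC2
      rw [map_sub, map_pow, hA, map_one, sub_eq_zero] at h1
      exact h1
    have hCn : (A ^ (p ^ 2 - 1)) ^ n = 1 := by
      rw [← pow_mul, mul_comm, pow_mul, hn, one_pow]
    have h3 : orderOf (A ^ (p ^ 2 - 1)) ∣ Nat.gcd n p :=
      Nat.dvd_gcd (orderOf_dvd_of_pow_eq_one hCn) (orderOf_dvd_of_pow_eq_one hCp)
    rw [hc.gcd_eq_one, Nat.dvd_one, orderOf_eq_one_iff] at h3
    exact h3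

theorem end2_fix {W : Type*} [AddCommGroup W] [Module (ZMod p) W] [Module.Finite (ZMod p) W]
    (h2 : Module.finrank (ZMod p) W = 2) (B : Module.End (ZMod p) W) (t : ℕ) (ht : B ^ t = 1) 
    (hc : t.Coprime (p * (p - 1))) (v : W) (hv : v ≠ 0) (hfix : B v = v) : B = 1 := by
  classical
  obtain ⟨s, d, h⟩ := end2_sq h2 B
  have hs : s = d + 1 := by
    have h1 := LinearMap.congr_fun h v
    simp only [Module.End.mul_apply, LinearMap.sub_apply, LinearMap.smul_apply, hfix, Module.End.one_apply] at h1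
    have h3 : (s - d - 1) • v = 0 := by
      rw [sub_smul, sub_smul, one_smul, ← h1]
      abel
    rcases smul_eq_zero.1 h3 with h4 | h4
    · linear_combination h4
    · exact absurd h4 hv
  have hu : ∀ w : W, B ((B - 1) w) = d • ((B - 1) w) := by
    intro w
    have h1 := LinearMap.congr_fun h w
    simp only [Module.End.mul_apply, LinearMap.sub_apply, LinearMap.smul_apply, Module.End.one_apply, map_sub] at h1 ⊢
    rw [h1, hs, smul_sub, add_smul, one_smul]
    abel
  have htp : t.Coprime p := Nat.Coprime.coprime_dvd_right (dvd_mul_right p (p - 1)) hc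
  have htq : t.Coprime (p - 1) := Nat.Coprime.coprime_dvd_right (dvd_mul_left (p - 1) p) hc
  by_cases hd : d = 1
  · subst hd
    have hq : aeval B ((X - 1) ^ 2 : (ZMod p)[X]) = 0 := by
      have h7 : aeval B ((X - 1) ^ 2 : (ZMod p)[X]) = (B - 1) * (B - 1) := by
        rw [map_pow, map_sub, aeval_X, map_one, pow_two]
      rw [h7]
      apply LinearMap.ext
      intro w
      have h1 := hu w
      rw [one_smul] at h1
      rw [Module.End.mul_apply, LinearMap.zero_apply, LinearMap.sub_apply, Module.End.one_apply, h1, sub_self]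
    have hp2 : 2 ≤ p := hp.out.two_le
    have h3 : aeval B ((X ^ p - 1 : (ZMod p)[X])) = 0 := by
      have h4 : (X ^ p - 1 : (ZMod p)[X]) = (X - 1) ^ 2 * (X - 1) ^ (p - 2) := by
        rw [← pow_add, Nat.add_sub_cancel' hp2, sub_pow_char, one_pow]
      rw [h4, map_mul, hq, zero_mul]
    have h5 : B ^ p = 1 := by
      rw [map_sub, map_pow, aeval_X, map_one, sub_eq_zero] at h3
      exact h3
    have h6 : orderOf B ∣ Nat.gcd t p :=
      Nat.dvd_gcd (orderOf_dvd_of_pow_eq_one ht) (orderOf_dvd_of_pow_eq_one h5)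
    rw [htp.gcd_eq_one, Nat.dvd_one, orderOf_eq_one_iff] at h6
    exact h6
  · by_contra hB
    obtain ⟨w, hw⟩ : ∃ w, (B - 1) w ≠ 0 := by
      by_contra hcon
      push Not at hcon
      apply hB
      apply LinearMap.ext
      intro w
      have := hcon w
      simp only [LinearMap.sub_apply, Module.End.one_apply, sub_eq_zero] at this
      simpa using this
    set u := (B - 1) w with hudef
    have hn : ∀ n : ℕ, (B ^ n) u = d ^ n • u := by
      intro n
      induction n with
      | zero => simp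
      | succ n ih =>
        rw [pow_succ, Module.End.mul_apply, hu w, map_smul, ih, smul_smul, pow_succ, mul_comm]
    have h1 : d ^ t • u = u := by
      rw [← hn, ht, Module.End.one_apply]
    have h2' : d ^ t = 1 := by
      have h3 : (d ^ t - 1) • u = 0 := by
        rw [sub_smul, one_smul, h1, sub_self]
      rcases smul_eq_zero.1 h3 with h4 | h4
      · linear_combination h4
      · exact absurd h4 hw
    have hd0 : d ≠ 0 := by
      rintro rfl
      rcases Nat.eq_zero_or_pos t with rfl | ht0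
      · have h8 : (0 : ℕ).Coprime p := htp
        rw [Nat.coprime_zero_left] at h8
        exact hp.out.one_lt.ne' h8
      · rw [zero_pow ht0.ne'] at h2'
        exact zero_ne_one h2'
    have h3 : d ^ (p - 1) = 1 := ZMod.pow_card_sub_one_eq_one hd0
    have h6 : orderOf d ∣ Nat.gcd t (p - 1) :=
      Nat.dvd_gcd (orderOf_dvd_of_pow_eq_one h2') (orderOf_dvd_of_pow_eq_one h3)
    rw [htq.gcd_eq_one, Nat.dvd_one, orderOf_eq_one_iff] at h6
    exact hd h6

end End2

section Rep

theorem finrank_eq_two_of_card {p : ℕ} [hp : Fact p.Prime] {W : Type*} [AddCommGroup W] [Module (ZMod p) W] [Finite W]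
    (hcard : Nat.card W = p ^ 2) : Module.finrank (ZMod p) W = 2 := by
  haveI : Module.Finite (ZMod p) W := Module.Finite.of_finite
  have h1 : Nat.card W = Nat.card (ZMod p) ^ Module.finrank (ZMod p) W :=
    Module.natCard_eq_pow_finrank
  rw [hcard, Nat.card_zmod] at h1
  exact (Nat.pow_right_injective hp.out.two_le h1).symm

variable {V T : Type*} [Group T]

theorem exists_end_rep_add {W T : Type*} [AddCommGroup W] [Group T] (p : ℕ) [hp : Fact p.Prime] [Module (ZMod p) W]
    (ρ : T →* AddMonoid.End W) : ∃ ψ : T →* Module.End (ZMod p) W, ∀ t x, ψ t x = ρ t x := by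
  let ψ : T →* Module.End (ZMod p) W :=
    { toFun := fun t => AddMonoidHom.toZModLinearMap p (ρ t)
      map_one' := by
        apply LinearMap.ext
        intro x
        show ρ 1 x = x
        rw [map_one]
        rfl
      map_mul' := by
        intro s t
        apply LinearMap.ext
        intro x
        show ρ (s * t) x = ρ s (ρ t x)
        rw [map_mul]
        rfl }
  exact ⟨ψ, fun t x => rfl⟩

theorem exists_end_rep (p : ℕ) [hp : Fact p.Prime] [CommGroup V] [Finite V] (hexp : ∀ a : V, a ^ p = 1)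
    (hcard : Nat.card V = p ^ 2) (ρ : T →* MulAut V) :
    ∃ (_ : Module (ZMod p) (Additive V)), Module.finrank (ZMod p) (Additive V) = 2 ∧
      ∃ ψ : T →* Module.End (ZMod p) (Additive V), ∀ t x, ψ t x = Additive.ofMul (ρ t x.toMul) := by
  classical
  let hmod : Module (ZMod p) (Additive V) := AddCommGroup.zmodModule (fun x => by
    show Additive.ofMul (x.toMul ^ p) = 0
    rw [hexp]
    rfl)
  haveI : Finite (Additive V) := inferInstanceAs (Finite V)
  haveI : Module.Finite (ZMod p) (Additive V) := Module.Finite.of_finite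
  refine ⟨hmod, ?_, ?_⟩
  · exact finrank_eq_two_of_card (p := p) (W := Additive V) hcard
  · let ρ' : T →* AddMonoid.End (Additive V) :=
      { toFun := fun t => MonoidHom.toAdditive (ρ t).toMonoidHom
        map_one' := by
          ext x
          show Additive.ofMul (ρ 1 (Additive.toMul x)) = x
          rw [map_one]
          rfl
        map_mul' := by
          intro s t
          ext x
          show Additive.ofMul (ρ (s * t) (Additive.toMul x)) = Additive.ofMul (ρ s (ρ t (Additive.toMul x)))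
          rw [map_mul]
          rfl }
    obtain ⟨ψ, hψ⟩ := @exists_end_rep_add (Additive V) T _ _ p _ hmod ρ'
    exact ⟨ψ, fun t x => (hψ t x)⟩

theorem rep2_pow (p : ℕ) [hp : Fact p.Prime] [Group V] [Finite V] (hcomm : ∀ a b : V, a * b = b * a)
    (hexp : ∀ a : V, a ^ p = 1) (hcard : Nat.card V = p ^ 2) (ρ : T →* MulAut V) (t : T) (n : ℕ) (hn : t ^ n = 1)
    (hn0 : n ≠ 0) (hc : n.Coprime p) (x : V) : ρ (t ^ (p ^ 2 - 1)) x = x := by
  letI : CommGroup V := { (inferInstance : Group V) with mul_comm := hcomm }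
  obtain ⟨_, h2, ψ, hψ⟩ := exists_end_rep p hexp hcard ρ
  haveI : Finite (Additive V) := inferInstanceAs (Finite V)
  haveI : Module.Finite (ZMod p) (Additive V) := Module.Finite.of_finite
  obtain ⟨s, d, h⟩ := end2_sq h2 (ψ t)
  have h1 : (ψ t) ^ n = 1 := by rw [← map_pow, hn, map_one]
  have h3 := end2_pow (p := p) (ψ t) s d h n h1 hn0 hc
  have h4 := hψ (t ^ (p ^ 2 - 1)) (Additive.ofMul x)
  rw [map_pow, h3, Module.End.one_apply] at h4
  exact (Additive.ofMul.injective h4).symm

theorem rep2_fix (p : ℕ) [hp : Fact p.Prime] [Group V] [Finite V] (hcomm : ∀ a b : V, a * b = b * a)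
    (hexp : ∀ a : V, a ^ p = 1) (hcard : Nat.card V = p ^ 2) (ρ : T →* MulAut V) (τ : T) (t : ℕ) (ht : τ ^ t = 1)
    (hc : t.Coprime (p * (p - 1))) (v : V) (hv : v ≠ 1) (hfix : ρ τ v = v) (x : V) : ρ τ x = x := by
  letI : CommGroup V := { (inferInstance : Group V) with mul_comm := hcomm }
  obtain ⟨_, h2, ψ, hψ⟩ := exists_end_rep p hexp hcard ρ
  haveI : Finite (Additive V) := inferInstanceAs (Finite V)
  haveI : Module.Finite (ZMod p) (Additive V) := Module.Finite.of_finite
  have h1 : (ψ τ) ^ t = 1 := by rw [← map_pow, ht, map_one]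
  have h3 := end2_fix h2 (ψ τ) t h1 hc (Additive.ofMul v) (fun h => hv (Additive.ofMul.injective h))
    (by rw [hψ]; exact congrArg Additive.ofMul hfix)
  have h4 := hψ τ (Additive.ofMul x)
  rw [h3, Module.End.one_apply] at h4
  exact (Additive.ofMul.injective h4).symm

theorem rep2_scalar (p : ℕ) [hp : Fact p.Prime] [Group V] [Finite V] (hcomm : ∀ a b : V, a * b = b * a)
    (hexp : ∀ a : V, a ^ p = 1) (hcard : Nat.card V = p ^ 2) (ρ : T →* MulAut V) (k : T)
    (hU : ∀ v : V, ρ (k ^ (p - 1)) v = v → v = 1) : ∃ l : ℕ, ∀ x : V, ρ (k ^ (p + 1)) x = x ^ l := by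
  letI : CommGroup V := { (inferInstance : Group V) with mul_comm := hcomm }
  obtain ⟨_, h2, ψ, hψ⟩ := exists_end_rep p hexp hcard ρ
  haveI : Finite (Additive V) := inferInstanceAs (Finite V)
  haveI : Module.Finite (ZMod p) (Additive V) := Module.Finite.of_finite
  obtain ⟨s, d, h⟩ := end2_sq h2 (ψ k)
  have hid := end2_identity (p := p) (ψ k) s d h
  have hA : aeval (ψ k) ((X ^ (p - 1) - 1) * (X ^ (p + 1) - C d) : (ZMod p)[X]) =
      ((ψ k) ^ (p - 1) - 1) * ((ψ k) ^ (p + 1) - d • 1) := by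
    simp [Algebra.algebraMap_eq_smul_one]
  rw [hA] at hid
  refine ⟨d.val, fun x => ?_⟩
  set y := ((ψ k) ^ (p + 1) - d • 1) (Additive.ofMul x) with hy
  have h1 : ((ψ k) ^ (p - 1)) y = y := by
    have h3 := LinearMap.congr_fun hid (Additive.ofMul x)
    rw [Module.End.mul_apply, ← hy, LinearMap.sub_apply, Module.End.one_apply, LinearMap.zero_apply, sub_eq_zero] at h3
    exact h3
  have h3 : y = 0 := by
    have h4 := hψ (k ^ (p - 1)) y
    rw [map_pow, h1] at h4
    have h5 := hU y.toMul (Additive.ofMul.injective h4).symm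
    exact h5
  have h4 : ((ψ k) ^ (p + 1)) (Additive.ofMul x) = d • Additive.ofMul x := by
    have h5 := h3
    rw [hy] at h5
    simp only [LinearMap.sub_apply, LinearMap.smul_apply, Module.End.one_apply, sub_eq_zero] at h5
    exact h5
  have h5 := hψ (k ^ (p + 1)) (Additive.ofMul x)
  rw [map_pow, h4] at h5
  have h6 : d • Additive.ofMul x = d.val • Additive.ofMul x := by
    conv_lhs => rw [← ZMod.natCast_zmod_val d]
    exact Nat.cast_smul_eq_nsmul _ _ _
  rw [h6, ← ofMul_pow] at h5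
  exact (Additive.ofMul.injective h5).symm

end Rep

section P3

open Cfsg.Agent.Lib.OddLocal

open scoped commutatorElement

variable {Q T : Type*} [Group Q] [Finite Q] [Group T] [Finite T]

theorem pow_mul_pow_of_central (a b c : Q) (hc : c ∈ Subgroup.center Q) (hab : a * b = c * b * a) (m n : ℕ) :
    a ^ m * b ^ n = c ^ (m * n) * b ^ n * a ^ m := by
  have hc1 : ∀ g : Q, g * c = c * g := fun g => (Subgroup.mem_center_iff.1 hc g)
  have hcc : ∀ (i : ℕ) (g : Q), g * c ^ i = c ^ i * g := fun i g => (Subgroup.mem_center_iff.1 (pow_mem hc i) g)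
  have h1 : ∀ m : ℕ, a ^ m * b = c ^ m * b * a ^ m := by
    intro m
    induction m with
    | zero => simp
    | succ m ih =>
      calc a ^ (m + 1) * b = a ^ m * (a * b) := by rw [pow_succ, mul_assoc]
        _ = (a ^ m * c) * b * a := by rw [hab]; simp only [mul_assoc]
        _ = c * (a ^ m * b) * a := by rw [hc1]; simp only [mul_assoc]
        _ = c * (c ^ m * b * a ^ m) * a := by rw [ih]
        _ = c ^ (m + 1) * b * a ^ (m + 1) := by rw [pow_succ', pow_succ]; simp only [mul_assoc]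
  induction n with
  | zero => simp
  | succ n ih =>
    calc a ^ m * b ^ (n + 1) = (a ^ m * b ^ n) * b := by rw [pow_succ, mul_assoc]
      _ = c ^ (m * n) * b ^ n * (a ^ m * b) := by rw [ih]; simp only [mul_assoc]
      _ = c ^ (m * n) * (b ^ n * c ^ m) * b * a ^ m := by rw [h1]; simp only [mul_assoc]
      _ = c ^ (m * n) * c ^ m * b ^ n * b * a ^ m := by rw [hcc]; simp only [mul_assoc]
      _ = c ^ (m * (n + 1)) * b ^ (n + 1) * a ^ m := by
        rw [Nat.mul_succ, pow_add, pow_succ b n]; simp only [mul_assoc]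

/-- The centre of a non-abelian group of order `p ^ 3` has order `p`. -/
theorem card_center_of_p3 (p : ℕ) [hp : Fact p.Prime] (hQ : Nat.card Q = p ^ 3) (hna : ¬ ∀ a b : Q, a * b = b * a) :
    Nat.card (Subgroup.center Q) = p := by
  have hpg : IsPGroup p Q := IsPGroup.of_card hQ
  haveI : Nontrivial Q := by
    apply Finite.one_lt_card_iff_nontrivial.1
    rw [hQ]
    exact Nat.one_lt_pow (by norm_num) hp.out.one_lt
  haveI := hpg.center_nontrivial
  have hdvd : Nat.card (Subgroup.center Q) ∣ p ^ 3 := hQ ▸ Subgroup.card_subgroup_dvd_card _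
  obtain ⟨i, hi, hi2⟩ := (Nat.dvd_prime_pow hp.out).1 hdvd
  have h1 : 1 < Nat.card (Subgroup.center Q) := Finite.one_lt_card
  have hmul := Subgroup.card_eq_card_quotient_mul_card_subgroup (Subgroup.center Q)
  have hi3 : i ≠ 0 := by
    rintro rfl
    rw [hi2] at h1
    simp at h1
  have hnc : ¬ IsCyclic (Q ⧸ Subgroup.center Q) := by
    intro hcyc
    apply hna
    exact commutative_of_cyclic_center_quotient (QuotientGroup.mk' (Subgroup.center Q)) (by rw [QuotientGroup.ker_mk'])
  interval_cases i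
  · omega
  · simpa using hi2
  · exfalso
    apply hnc
    have h2 : Nat.card (Q ⧸ Subgroup.center Q) = p := by
      rw [hQ, hi2] at hmul
      have : p * p ^ 2 = Nat.card (Q ⧸ Subgroup.center Q) * p ^ 2 := by rw [← hmul]; ring
      exact (Nat.eq_of_mul_eq_mul_right (pow_pos hp.out.pos 2) this).symm
    exact isCyclic_of_prime_card h2
  · exfalso
    apply hnc
    have h2 : Nat.card (Q ⧸ Subgroup.center Q) = 1 := by
      rw [hQ, hi2] at hmul
      have : 1 * p ^ 3 = Nat.card (Q ⧸ Subgroup.center Q) * p ^ 3 := by rw [← hmul]; ring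
      exact (Nat.eq_of_mul_eq_mul_right (pow_pos hp.out.pos 3) this).symm
    haveI : Subsingleton (Q ⧸ Subgroup.center Q) := (Nat.card_eq_one_iff_unique.1 h2).1
    exact isCyclic_of_subsingleton

theorem card_quot_center_of_p3 (p : ℕ) [hp : Fact p.Prime] (hQ : Nat.card Q = p ^ 3) (hna : ¬ ∀ a b : Q, a * b = b * a) :
    Nat.card (Q ⧸ Subgroup.center Q) = p ^ 2 := by
  have hmul := Subgroup.card_eq_card_quotient_mul_card_subgroup (Subgroup.center Q)
  rw [card_center_of_p3 p hQ hna, hQ] at hmul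
  have : p ^ 2 * p = Nat.card (Q ⧸ Subgroup.center Q) * p := by rw [← hmul]; ring
  exact (Nat.eq_of_mul_eq_mul_right hp.out.pos this).symm

theorem quot_center_exp_of_p3 (p : ℕ) [hp : Fact p.Prime] (hQ : Nat.card Q = p ^ 3) (hna : ¬ ∀ a b : Q, a * b = b * a)
    (v : Q ⧸ Subgroup.center Q) : v ^ p = 1 := by
  have h1 := card_quot_center_of_p3 p hQ hna
  have h2 : orderOf v ∣ p ^ 2 := h1 ▸ orderOf_dvd_natCard v
  obtain ⟨i, hi, hi2⟩ := (Nat.dvd_prime_pow hp.out).1 h2
  interval_cases i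
  · rw [pow_zero, orderOf_eq_one_iff] at hi2
    simp [hi2]
  · rw [pow_one] at hi2
    rw [← hi2, pow_orderOf_eq_one]
  · exfalso
    apply hna
    haveI : IsCyclic (Q ⧸ Subgroup.center Q) := isCyclic_of_orderOf_eq_card v (by rw [hi2, h1])
    exact commutative_of_cyclic_center_quotient (QuotientGroup.mk' (Subgroup.center Q)) (by rw [QuotientGroup.ker_mk'])

theorem p3_fix_of_trivial (p : ℕ) [hp : Fact p.Prime] (hQ : Nat.card Q = p ^ 3) (hna : ¬ ∀ a b : Q, a * b = b * a)
    (f : MulAut Q) (n : ℕ) (hn : f ^ n = 1) (hc : n.Coprime p) (hZ : ∀ z ∈ Subgroup.center Q, f z = z)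
    (hV : ∀ x : Q, ((f x : Q) : Q ⧸ Subgroup.center Q) = (x : Q ⧸ Subgroup.center Q)) : f = 1 := by
  apply MulEquiv.ext
  intro x
  have h1 := hV x
  rw [eq_comm, QuotientGroup.eq] at h1
  set z := x⁻¹ * f x with hz
  have hfx : f x = x * z := by rw [hz]; group
  have hpow : ∀ m : ℕ, (f ^ m) x = x * z ^ m := by
    intro m
    induction m with
    | zero => simp
    | succ m ih =>
      rw [pow_succ', MulAut.mul_apply, ih, map_mul, map_pow, hfx, hZ z h1, pow_succ', mul_assoc]
  have h2 := hpow n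
  rw [hn, MulAut.one_apply] at h2
  have h3 : z ^ n = 1 := by
    have := mul_left_cancel (a := x) (b := 1) (c := z ^ n) (by rw [mul_one]; exact h2)
    exact this.symm
  have h4 : z ^ p = 1 := by
    have h5 : (⟨z, h1⟩ : Subgroup.center Q) ^ p = 1 := by
      rw [← card_center_of_p3 p hQ hna]
      exact pow_card_eq_one'
    exact congrArg Subtype.val h5
  have h6 : orderOf z ∣ Nat.gcd n p := Nat.dvd_gcd (orderOf_dvd_of_pow_eq_one h3) (orderOf_dvd_of_pow_eq_one h4)
  rw [hc.gcd_eq_one, Nat.dvd_one, orderOf_eq_one_iff] at h6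
  rw [hfx, h6, mul_one, MulAut.one_apply]

theorem comm_central (x y z₁ z₂ : Q) (h₁ : ∀ g : Q, g * z₁ = z₁ * g) (h₂ : ∀ g : Q, g * z₂ = z₂ * g) :
    x * z₁ * (y * z₂) * (x * z₁)⁻¹ * (y * z₂)⁻¹ = x * y * x⁻¹ * y⁻¹ := by
  have c1 : ∀ g : Q, z₁ * g * z₁⁻¹ = g := fun g => by rw [← h₁ g]; group
  have c2 : ∀ g : Q, z₂ * g * z₂⁻¹ = g := fun g => by rw [← h₂ g]; group
  calc x * z₁ * (y * z₂) * (x * z₁)⁻¹ * (y * z₂)⁻¹
      = (z₁ * (x * (y * z₂) * x⁻¹) * z₁⁻¹) * (y * z₂)⁻¹ := by rw [h₁ x]; group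
    _ = x * (y * z₂) * x⁻¹ * (y * z₂)⁻¹ := by rw [c1]
    _ = x * y * (z₂ * x⁻¹ * z₂⁻¹) * y⁻¹ := by group
    _ = x * y * x⁻¹ * y⁻¹ := by rw [c2]

/-- The heart of the `p + 1` bound. -/
theorem p3_scalar (p : ℕ) [hp : Fact p.Prime] (hp2 : p ≠ 2) (hQ : Nat.card Q = p ^ 3) (hna : ¬ ∀ a b : Q, a * b = b * a)
    (σ : T →* MulAut Q) (hodd : Odd (Nat.card T)) (hcop : (Nat.card T).Coprime p) (k τ : T) (t : ℕ) (ht : t.Prime)
    (htn : ¬ t ∣ p * (p - 1)) (hτ : τ ^ t = 1) (hτ1 : σ τ ≠ 1) (j : ℕ) (hτU : τ = (k ^ (p - 1)) ^ j)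
    (hprime : ∀ z : Q, σ τ z = z → σ k z = z) : σ (k ^ (p + 1)) = 1 := by
  classical
  set Z := Subgroup.center Q with hZdef
  have hcardZ : Nat.card Z = p := card_center_of_p3 p hQ hna
  have hcardV : Nat.card (Q ⧸ Z) = p ^ 2 := card_quot_center_of_p3 p hQ hna
  have hexp : ∀ v : Q ⧸ Z, v ^ p = 1 := quot_center_exp_of_p3 p hQ hna
  have hcomm : ∀ a b : Q ⧸ Z, a * b = b * a := IsPGroup.commutative_of_card_eq_prime_sq hcardV
  set ρ : T →* MulAut (Q ⧸ Z) := (quotAut Z).comp σ with hρ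
  have hρmk : ∀ (u : T) (x : Q), ρ u (x : Q ⧸ Z) = ((σ u x : Q) : Q ⧸ Z) := fun u x => quotAut_mk Z (σ u) x
  set ρZ : T →* MulAut Z := (restrictAut Z).comp σ with hρZ
  have hρZc : ∀ (u : T) (z : Z), ((ρZ u z : Z) : Q) = σ u z := fun u z => restrictAut_coe Z (σ u) z
  have htp : t ≠ p := by
    rintro rfl
    exact htn (dvd_mul_right _ _)
  have htq : ¬ t ∣ p - 1 := fun h => htn (Dvd.dvd.mul_left h _)
  have hc1 : t.Coprime (p * (p - 1)) := (Nat.Prime.coprime_iff_not_dvd ht).2 htn
  -- `τ` fixes the centre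
  have hτZ : ∀ z ∈ Z, σ τ z = z := by
    intro z hz
    haveI : IsCyclic Z := isCyclic_of_prime_card hcardZ
    have h1 : orderOf (ρZ τ) ∣ t := orderOf_dvd_of_pow_eq_one (by rw [← map_pow, hτ, map_one])
    have h2 : orderOf (ρZ τ) ∣ p - 1 := by
      have h3 := orderOf_dvd_natCard (ρZ τ)
      rw [IsCyclic.card_mulAut, hcardZ, Nat.totient_prime hp.out] at h3
      exact h3
    have h3 : orderOf (ρZ τ) = 1 := by
      rcases (Nat.dvd_prime ht).1 h1 with h | h
      · exact h
      · rw [h] at h2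
        exact absurd h2 htq
    rw [orderOf_eq_one_iff] at h3
    have h4 := hρZc τ ⟨z, hz⟩
    rw [h3] at h4
    exact h4.symm
  have hkZ : ∀ z ∈ Z, σ k z = z := fun z hz => hprime z (hτZ z hz)
  have hpowZ : ∀ (m : ℕ), ∀ z ∈ Z, σ (k ^ m) z = z := by
    intro m z hz
    induction m with
    | zero => simp
    | succ m ih => rw [pow_succ, map_mul, MulAut.mul_apply, hkZ z hz, ih]
  -- no fixed points of `k ^ (p - 1)` on the quotient
  have hU : ∀ v : Q ⧸ Z, ρ (k ^ (p - 1)) v = v → v = 1 := by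
    intro v hv
    by_contra hv1
    have h0 : ∀ m : ℕ, ρ ((k ^ (p - 1)) ^ m) v = v := by
      intro m
      induction m with
      | zero => simp
      | succ m ih => rw [pow_succ, map_mul, MulAut.mul_apply, hv, ih]
    have h1 : ρ τ v = v := by
      rw [hτU]
      exact h0 j
    have h2 := rep2_fix p hcomm hexp hcardV ρ τ t hτ hc1 v hv1 h1
    apply hτ1
    have h3 : t.Coprime p := (Nat.coprime_primes ht hp.out).2 htp
    refine p3_fix_of_trivial p hQ hna (σ τ) t (by rw [← map_pow, hτ, map_one]) h3 hτZ (fun x => ?_)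
    rw [← hρmk]
    exact h2 _
  obtain ⟨l, hl⟩ := rep2_scalar p hcomm hexp hcardV ρ k hU
  set κ := k ^ (p + 1) with hκ
  have hκZ : ∀ z ∈ Z, σ κ z = z := hpowZ (p + 1)
  have hlift : ∀ x : Q, ∃ z ∈ Z, σ κ x = x ^ l * z := by
    intro x
    have h1 := hl (x : Q ⧸ Z)
    rw [hρmk, ← QuotientGroup.mk_pow, eq_comm, QuotientGroup.eq] at h1
    exact ⟨_, h1, by group⟩
  -- the scalar squares to one
  have hl2 : ((l : ℕ) : ZMod p) * (l : ZMod p) = 1 := by
    push Not at hna
    obtain ⟨a, b, hab⟩ := hna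
    set c := a * b * a⁻¹ * b⁻¹ with hc
    have hcZ : c ∈ Z := by
      rw [← QuotientGroup.eq_one_iff]
      have h1 := hcomm (a : Q ⧸ Z) (b : Q ⧸ Z)
      rw [hc, QuotientGroup.mk_mul, QuotientGroup.mk_mul, QuotientGroup.mk_mul, QuotientGroup.mk_inv, QuotientGroup.mk_inv,
        h1]
      group
    have hc1' : c ≠ 1 := by
      intro h
      apply hab
      rw [hc, mul_inv_eq_one, mul_inv_eq_iff_eq_mul] at h
      exact h
    have habc : a * b = c * b * a := by rw [hc]; group
    have hcen : ∀ (z : Q), z ∈ Z → ∀ g : Q, g * z = z * g := fun z hz g => Subgroup.mem_center_iff.1 hz g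
    obtain ⟨z₁, hz₁, ha⟩ := hlift a
    obtain ⟨z₂, hz₂, hb⟩ := hlift b
    have h1 : σ κ c = c := hκZ c hcZ
    have h2 : σ κ c = a ^ l * b ^ l * (a ^ l)⁻¹ * (b ^ l)⁻¹ := by
      rw [hc, map_mul, map_mul, map_mul, map_inv, map_inv, ha, hb]
      exact comm_central _ _ _ _ (hcen z₁ hz₁) (hcen z₂ hz₂)
    have h3 : a ^ l * b ^ l * (a ^ l)⁻¹ * (b ^ l)⁻¹ = c ^ (l * l) := by
      rw [pow_mul_pow_of_central a b c hcZ habc l l]
      group
    have h4 : c = c ^ (l * l) := by rw [← h3, ← h2, h1]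
    have hord : orderOf c = p := by
      apply orderOf_eq_prime _ hc1'
      have h5 : (⟨c, hcZ⟩ : Z) ^ p = 1 := by
        rw [← hcardZ]
        exact pow_card_eq_one'
      exact congrArg Subtype.val h5
    have h5 : c ^ 1 = c ^ (l * l) := by rw [pow_one]; exact h4
    have h6 := (pow_eq_pow_iff_modEq).1 h5
    rw [hord] at h6
    have h7 := (ZMod.natCast_eq_natCast_iff _ _ _).2 h6
    push_cast at h7
    exact h7.symm
  -- the scalar is one
  have hl1 : ((l : ℕ) : ZMod p) = 1 := by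
    haveI : Fact (2 < p) := ⟨lt_of_le_of_ne hp.out.two_le (Ne.symm hp2)⟩
    rcases mul_self_eq_one_iff.1 hl2 with h | h
    · exact h
    · exfalso
      haveI : Nontrivial (Q ⧸ Z) := by
        apply Finite.one_lt_card_iff_nontrivial.1
        rw [hcardV]
        exact Nat.one_lt_pow (by norm_num) hp.out.one_lt
      obtain ⟨v, hv⟩ := exists_ne (1 : Q ⧸ Z)
      have hord : orderOf v = p := orderOf_eq_prime (hexp v) hv
      have hpow : ∀ m : ℕ, ρ (κ ^ m) v = v ^ (l ^ m) := by
        intro m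
        induction m with
        | zero => simp
        | succ m ih => rw [pow_succ, map_mul, MulAut.mul_apply, hl, map_pow, ih, ← pow_mul, pow_succ]
      have h1 := hpow (Nat.card T)
      rw [pow_card_eq_one', map_one, MulAut.one_apply] at h1
      have h2 : v ^ 1 = v ^ (l ^ Nat.card T) := by rw [pow_one]; exact h1
      have h3 := (pow_eq_pow_iff_modEq).1 h2
      rw [hord] at h3
      have h4 := (ZMod.natCast_eq_natCast_iff _ _ _).2 h3
      push_cast at h4
      rw [h, hodd.neg_one_pow] at h4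
      exact ZMod.neg_one_ne_one h4.symm
  have hvl : ∀ v : Q ⧸ Z, v ^ l = v := by
    intro v
    have h1 := (ZMod.natCast_eq_natCast_iff' l 1 p).1 (by rw [hl1, Nat.cast_one])
    rw [Nat.mod_eq_of_lt hp.out.one_lt] at h1
    calc v ^ l = v ^ (p * (l / p) + l % p) := by rw [Nat.div_add_mod]
      _ = v := by rw [pow_add, pow_mul, hexp, one_pow, one_mul, h1, pow_one]
  refine p3_fix_of_trivial p hQ hna (σ κ) (Nat.card T) (by rw [← map_pow, pow_card_eq_one', map_one]) hcop hκZ (fun x => ?_)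
  rw [← hρmk, hl, hvl]

end P3

section GLevel

open Subgroup Cfsg Cfsg.Agent.Lib.OddLocal Cfsg.Agent.Lib.Coprime

open scoped commutatorElement

variable {G : Type*} [Group G] [Finite G]

/-- A cyclic odd coprime group acting on a non-abelian narrow `p`-group with "prime action". -/
theorem card_dvd_pm1 (p : ℕ) [hp : Fact p.Prime] (hp2 : p ≠ 2) (P K : Subgroup G) (hP : IsPGroup p P)
    (hPn : IsNarrow p P) (hna : ¬ IsMulCommutative P) (hK : K ≤ normalizer (P : Set G)) (hKc : IsCyclic K)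
    (hKo : Odd (Nat.card K)) (hcop : (Nat.card K).Coprime p) (hfaith : K ⊓ centralizer (P : Set G) = ⊥)
    (hprime : ∀ k ∈ K, k ≠ 1 → ∀ x ∈ P, k * x * k⁻¹ = x → ∀ k' ∈ K, k' * x * k'⁻¹ = x) (hcomm : ⁅P, K⁆ = P) :
    Nat.card K ∣ p - 1 ∨ (Nat.card P = p ^ 3 ∧ Nat.card K ∣ p + 1) := by
  classical
  obtain ⟨k, hk⟩ := hKc.exists_generator
  have hordk : orderOf k = Nat.card K := orderOf_eq_card_of_forall_mem_zpowers hk
  have hordk' : orderOf (k : G) = Nat.card K := by rw [← hordk, Subgroup.orderOf_coe]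
  have hcopk : ∀ u : ↥K, (orderOf u).Coprime p := fun u =>
    Nat.Coprime.coprime_dvd_left (orderOf_dvd_natCard u) hcop
  have hcent : ∀ u : ↥K, (∀ x : ↥P, (u : G) * x * (u : G)⁻¹ = x) → u = 1 := by
    intro u hu
    have h1 : (u : G) ∈ K ⊓ centralizer (P : Set G) := by
      refine Subgroup.mem_inf.2 ⟨u.2, ?_⟩
      rw [mem_centralizer_iff]
      intro x hx
      exact (mul_inv_eq_iff_eq_mul.1 (hu ⟨x, hx⟩)).symm
    rw [hfaith, Subgroup.mem_bot] at h1
    exact Subtype.ext h1
  by_cases hr : PRankLE p 2 P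
  swap
  · left
    rw [← hordk']
    exact s1454_b p hp2 P K hP hPn hK hfaith hr (k : G) k.2 (by rw [hordk']; exact hcop)
  have hnc : ¬ IsCyclic ↥P := by
    intro h
    letI := IsCyclic.commGroup (α := ↥P)
    exact hna ⟨⟨fun a b => mul_comm a b⟩⟩
  set ρ := sectionHom p hp2 P K hK with hρ
  -- every element of `K` has order dividing `p ^ 2 - 1`
  have hpow : ∀ u : ↥K, u ^ (p ^ 2 - 1) = 1 := by
    intro u
    have h1 : ∀ x, ρ (u ^ (p ^ 2 - 1)) x = x := rep2_pow p (quot_omegaZ2_comm p hp2) (quot_omegaZ2_exp p hp2)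
      (card_omegaZ2_quot p hp2 hP hr hnc) ρ u (Nat.card K) pow_card_eq_one' Nat.card_pos.ne' hcop
    have h2 : ρ (u ^ (p ^ 2 - 1)) = 1 := MulEquiv.ext h1
    exact hcent _ (section_key p hp2 P K hP hr hK hnc _ (hcopk _) h2)
  have hpq : p ^ 2 - 1 = (p - 1) * (p + 1) := by
    have := Nat.sq_sub_sq p 1
    simpa [mul_comm] using this
  have hdvd : Nat.card K ∣ (p - 1) * (p + 1) := by
    rw [← hordk, ← hpq]
    exact orderOf_dvd_of_pow_eq_one (hpow k)
  by_cases hall : ∀ t : ℕ, t.Prime → t ∣ Nat.card K → t ∣ p - 1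
  · left
    have hc : (Nat.card K).Coprime (p + 1) := by
      apply Nat.coprime_of_dvd
      intro t ht h1 h2
      have h3 := hall t ht h1
      have h4 : t ∣ (p + 1) - (p - 1) := Nat.dvd_sub h2 h3
      have h5 : (p + 1) - (p - 1) = 2 := by
        have := hp.out.one_lt
        omega
      rw [h5] at h4
      have h6 : t = 2 := (Nat.prime_dvd_prime_iff_eq ht Nat.prime_two).1 h4
      rw [h6] at h1
      exact (Nat.not_even_iff_odd.2 hKo) (even_iff_two_dvd.2 h1)
    exact hc.dvd_of_dvd_mul_right hdvd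
  · right
    push Not at hall
    obtain ⟨t, ht, htK, htq⟩ := hall
    have htp : t ≠ p := by
      rintro rfl
      exact ht.one_lt.ne' (Nat.eq_one_of_dvd_coprimes hcop htK dvd_rfl)
    have htn : ¬ t ∣ p * (p - 1) := by
      intro h
      rcases (Nat.Prime.dvd_mul ht).1 h with h1 | h1
      · exact htp ((Nat.prime_dvd_prime_iff_eq ht hp.out).1 h1)
      · exact htq h1
    have htc : t.Coprime p := (Nat.coprime_primes ht hp.out).2 htp
    set U : ↥K := k ^ (p - 1) with hU
    have hU0 : orderOf U ≠ 0 := (orderOf_pos U).ne'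
    have htU : t ∣ orderOf U := by
      rw [hU, orderOf_pow, hordk]
      have h1 : Nat.gcd (Nat.card K) (p - 1) * (Nat.card K / Nat.gcd (Nat.card K) (p - 1)) = Nat.card K :=
        Nat.mul_div_cancel' (Nat.gcd_dvd_left _ _)
      rw [← h1] at htK
      rcases (Nat.Prime.dvd_mul ht).1 htK with h2 | h2
      · exact absurd (dvd_trans h2 (Nat.gcd_dvd_right _ _)) htq
      · exact h2
    set τ₀ : ↥K := U ^ (orderOf U / t) with hτ₀
    have hτ₀o : orderOf τ₀ = t := orderOf_pow_orderOf_div hU0 htU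
    have hτ₀1 : τ₀ ≠ 1 := by
      intro h
      rw [h, orderOf_one] at hτ₀o
      exact ht.one_lt.ne hτ₀o
    set τ : G := (τ₀ : G) with hτ
    have hτK : τ ∈ K := τ₀.2
    have hτ1 : τ ≠ 1 := fun h => hτ₀1 (Subtype.ext h)
    have hτo : orderOf τ = t := by rw [hτ, Subgroup.orderOf_coe, hτ₀o]
    set T₁ : Subgroup G := zpowers τ with hT₁
    have hT₁K : T₁ ≤ K := (zpowers_le (G := G)).2 hτK
    have hT₁c : Nat.card T₁ = t := by rw [hT₁, Nat.card_zpowers, hτo]
    have hT₁n : T₁ ≤ normalizer (P : Set G) := le_trans hT₁K hK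
    have hT₁f : T₁ ⊓ centralizer (P : Set G) = ⊥ :=
      eq_bot_iff.2 (le_trans (inf_le_inf_right _ hT₁K) hfaith.le)
    have hT₁s : Group.IsSolvable ↥T₁ := by
      rw [hT₁]
      infer_instance
    have hT₁o : Odd (Nat.card T₁) := by
      rw [hT₁c]
      exact Odd.of_dvd_nat hKo htK
    have hcore := (s1454_core p hp2 P T₁ hP hPn hT₁n hT₁s hT₁o hT₁f).2.2 (by rw [hT₁c]; exact ht) (by rw [hT₁c]; exact htn)
    -- `⁅P, T₁⁆ = P`
    have hCA : CoprimeAction T₁ P := coprimeAction_of_isPGroup hP (by rw [hT₁c]; exact htc) hT₁n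
    have hQP : ⁅P, T₁⁆ ≤ P := hCA.commutator_le_self
    have hKcomm : ∀ a ∈ K, ∀ b ∈ K, a * b = b * a := by
      intro a ha b hb
      letI := IsCyclic.commGroup (α := ↥K)
      have := mul_comm (⟨a, ha⟩ : ↥K) ⟨b, hb⟩
      exact congrArg Subtype.val this
    have hQK : ∀ u ∈ K, ∀ q ∈ ⁅P, T₁⁆, u * q * u⁻¹ ∈ ⁅P, T₁⁆ := by
      intro u hu q hq
      have hle : ⁅P, T₁⁆ ≤ (⁅P, T₁⁆).comap (MulAut.conj u).toMonoidHom := by
        rw [Subgroup.commutator_le]
        intro x hx v hv
        show (MulAut.conj u) ⁅x, v⁆ ∈ ⁅P, T₁⁆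
        rw [map_commutatorElement]
        apply Subgroup.commutator_mem_commutator
        · rw [MulAut.conj_apply]
          exact (mem_normalizer_iff.1 (hK hu) x).1 hx
        · rw [MulAut.conj_apply, hKcomm u hu v (hT₁K hv), mul_inv_cancel_right]
          exact hv
      exact hle hq
    have hPQ : P ≤ ⁅P, T₁⁆ := by
      conv_lhs => rw [← hcomm]
      rw [Subgroup.commutator_le]
      intro x hx u hu
      obtain ⟨q, hq, c, hc, rfl⟩ := hCA.exists_commutator_mul_centralizer hx
      have hcc : τ * c * τ⁻¹ = c := by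
        have h1 := (Subgroup.mem_centralizer_iff.1 hc.2) τ (mem_zpowers τ)
        rw [h1, mul_inv_cancel_right]
      have hcu : u * c * u⁻¹ = c := hprime τ hτK hτ1 c hc.1 hcc u hu
      have h1 : ⁅q * c, u⁆ = q * (u * q⁻¹ * u⁻¹) := by
        rw [commutatorElement_def]
        have h2 : c * u * c⁻¹ = u := by
          have h3 : u * c = c * u := by
            have h4 := mul_inv_eq_iff_eq_mul.1 hcu
            exact h4
          rw [← h3, mul_inv_cancel_right]
        calc q * c * u * (q * c)⁻¹ * u⁻¹ = q * (c * u * c⁻¹) * q⁻¹ * u⁻¹ := by group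
          _ = q * (u * q⁻¹ * u⁻¹) := by rw [h2]; group
      rw [h1]
      exact mul_mem hq (hQK u hu _ (inv_mem hq))
    have hQeq : ⁅P, T₁⁆ = P := le_antisymm hQP hPQ
    have h3 : Nat.card P = p ^ 3 := hcore.2 hQeq hna
    refine ⟨h3, ?_⟩
    have hna' : ¬ ∀ a b : ↥P, a * b = b * a := fun h => hna ⟨⟨h⟩⟩
    have hτ₀t : τ₀ ^ t = 1 := by rw [← hτ₀o, pow_orderOf_eq_one]
    have hσ1 : conjHomOf P K hK τ₀ ≠ 1 := by
      intro h
      apply hτ₀1
      apply hcent
      intro x
      have h1 := conjHomOf_coe P K hK τ₀ x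
      rw [h] at h1
      exact h1.symm
    have hσk : ∀ z : ↥P, conjHomOf P K hK τ₀ z = z → conjHomOf P K hK k z = z := by
      intro z hz
      have h1 := conjHomOf_coe P K hK τ₀ z
      rw [hz] at h1
      have h2 := hprime τ hτK hτ1 z z.2 h1.symm k k.2
      apply Subtype.ext
      rw [conjHomOf_coe]
      exact h2
    have h4 := p3_scalar p hp2 h3 hna' (conjHomOf P K hK) hKo hcop k τ₀ t ht htn hτ₀t hσ1 (orderOf U / t) rfl hσk
    have h5 : k ^ (p + 1) = 1 := by
      apply hcent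
      intro x
      have h6 := conjHomOf_coe P K hK (k ^ (p + 1)) x
      rw [h4] at h6
      exact h6.symm
    rw [← hordk]
    exact orderOf_dvd_of_pow_eq_one h5

end GLevel

end Cfsg.Agent.Lib.FT
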