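import Cfsg.Agent.Lib.FT.FrobFree

/-!
BG section 3: the count for an extraspecial group acting with an automorphism `x` of prime order which is
fixed-point-free on `Q / Z` (the Hall-Higman-type lemma behind S1444, S1445, S3764).
-/

set_option autoImplicit false
set_option linter.unusedSectionVars false
set_option linter.style.haveILetI false

namespace Cfsg.Agent.Lib.FT

open Module
open scoped commutatorElement

section Numeric

/-- The numerical core. -/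
theorem eigen_numeric {K : Type*} [DecidableEq K] (Rt : Finset K) (one : K) (hone : one ∈ Rt) (m : K → ℕ)
    (r w c₁ : ℕ) (hr : 1 ≤ r) (hcard : Rt.card ≤ r) (hsum : ∑ μ ∈ Rt, m μ = w)
    (hsq : r * ∑ μ ∈ Rt, m μ ^ 2 ≤ w ^ 2 + (r - 1) * c₁) :
    ((w : ℤ) - r * m one) ^ 2 ≤ ((r : ℤ) - 1) ^ 2 * c₁ := by
  have hsum' : m one + ∑ μ ∈ Rt.erase one, m μ = w := by
    rw [← hsum]
    exact Finset.add_sum_erase Rt m hone
  have hsq' : m one ^ 2 + ∑ μ ∈ Rt.erase one, m μ ^ 2 = ∑ μ ∈ Rt, m μ ^ 2 :=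
    Finset.add_sum_erase Rt (fun μ => m μ ^ 2) hone
  set s := ∑ μ ∈ Rt.erase one, m μ ^ 2 with hs
  set t := ∑ μ ∈ Rt.erase one, m μ with ht
  have hcs : t ^ 2 ≤ (Rt.erase one).card * s := sq_sum_le_card_mul_sum_sq
  have hce : (Rt.erase one).card ≤ r - 1 := by
    rw [Finset.card_erase_of_mem hone]
    omega
  have hcs2 : t ^ 2 ≤ (r - 1) * s := hcs.trans (Nat.mul_le_mul_right _ hce)
  obtain ⟨r', rfl⟩ : ∃ r', r = r' + 1 := ⟨r - 1, by omega⟩
  simp only [Nat.add_sub_cancel] at hcs2 hsq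
  rw [← hsq'] at hsq
  have h1 : ((t : ℤ)) ^ 2 ≤ r' * s := by exact_mod_cast hcs2
  have h2 : ((r' : ℤ) + 1) * ((m one : ℤ) ^ 2 + s) ≤ (w : ℤ) ^ 2 + r' * c₁ := by exact_mod_cast hsq
  have h3 : (w : ℤ) = m one + t := by exact_mod_cast hsum'.symm
  push_cast
  have hr0 : (0 : ℤ) ≤ r' := Int.natCast_nonneg _
  have hc0 : (0 : ℤ) ≤ c₁ := Int.natCast_nonneg _
  have h4 : (r' : ℤ) * (((r' : ℤ) + 1) * ((m one : ℤ) ^ 2 + s)) ≤ r' * ((w : ℤ) ^ 2 + r' * c₁) :=
    mul_le_mul_of_nonneg_left h2 hr0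
  have h5 : ((r' : ℤ) + 1) * (t : ℤ) ^ 2 ≤ ((r' : ℤ) + 1) * (r' * s) :=
    mul_le_mul_of_nonneg_left h1 (by positivity)
  rw [h3] at h4 ⊢
  nlinarith [h4, h5]

/-- If the fixed space vanishes then `D ≤ r - 1`. -/
theorem numeric_zero (r w c₁ D : ℕ) (hr : 1 ≤ r) (hc : 1 ≤ c₁) (hD : D ^ 2 * c₁ ≤ w ^ 2)
    (h : ((w : ℤ) - r * (0 : ℕ)) ^ 2 ≤ ((r : ℤ) - 1) ^ 2 * c₁) : D + 1 ≤ r := by
  obtain ⟨r', rfl⟩ : ∃ r', r = r' + 1 := ⟨r - 1, by omega⟩
  simp only [Nat.cast_zero, mul_zero, sub_zero, Nat.cast_add, Nat.cast_one, add_sub_cancel_right] at h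
  have h1 : ((D : ℤ)) ^ 2 * c₁ ≤ (w : ℤ) ^ 2 := by exact_mod_cast hD
  have h2 : ((D : ℤ)) ^ 2 * c₁ ≤ (r' : ℤ) ^ 2 * c₁ := h1.trans h
  have hc0 : (0 : ℤ) < c₁ := by exact_mod_cast hc
  have h3 : (D : ℤ) ^ 2 ≤ (r' : ℤ) ^ 2 := le_of_mul_le_mul_right h2 hc0
  have h4 : (D : ℤ) ≤ r' := by
    apply abs_le_of_sq_le_sq' h3 (Int.natCast_nonneg _) |>.2
  have h5 : D ≤ r' := by exact_mod_cast h4
  omega

/-- If the fixed space has dimension one then `c₁ = 1`, `w = 2 r - 1`. -/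
theorem numeric_one (r w c₁ D : ℕ) (hr : 1 ≤ r) (hc : 1 ≤ c₁) (hD : D ^ 2 * c₁ ≤ w ^ 2) (hDr : 2 * r ≤ D + 1)
    (h : ((w : ℤ) - r * (1 : ℕ)) ^ 2 ≤ ((r : ℤ) - 1) ^ 2 * c₁) : c₁ = 1 ∧ w + 1 = 2 * r := by
  obtain ⟨r', rfl⟩ : ∃ r', r = r' + 1 := ⟨r - 1, by omega⟩
  simp only [Nat.cast_one, mul_one, Nat.cast_add, add_sub_cancel_right] at h
  have hD2 : (2 * r' + 1) ^ 2 * c₁ ≤ w ^ 2 := by
    have h0 : 2 * r' + 1 ≤ D := by omega
    exact (Nat.mul_le_mul_right _ (Nat.pow_le_pow_left h0 2)).trans hD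
  have h1 : ((2 * (r' : ℤ) + 1)) ^ 2 * c₁ ≤ (w : ℤ) ^ 2 := by exact_mod_cast hD2
  have hc0 : (1 : ℤ) ≤ c₁ := by exact_mod_cast hc
  have hw0 : (0 : ℤ) ≤ w := Int.natCast_nonneg _
  have hr0 : (0 : ℤ) ≤ r' := Int.natCast_nonneg _
  -- `w ≥ 2 r' + 1`
  have hw1 : 2 * (r' : ℤ) + 1 ≤ w := by
    have h2 : (2 * (r' : ℤ) + 1) ^ 2 ≤ (w : ℤ) ^ 2 := by nlinarith [sq_nonneg (2 * (r' : ℤ) + 1)]
    exact abs_le_of_sq_le_sq' h2 hw0 |>.2
  -- the product bound
  have h3 : ((2 * (r' : ℤ) + 1) * ((w : ℤ) - (r' + 1))) ^ 2 ≤ ((r' : ℤ) * w) ^ 2 := by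
    have h4 : (2 * (r' : ℤ) + 1) ^ 2 * (((w : ℤ) - (r' + 1)) ^ 2) ≤
        (2 * (r' : ℤ) + 1) ^ 2 * ((r' : ℤ) ^ 2 * c₁) := mul_le_mul_of_nonneg_left h (sq_nonneg _)
    have h5 : (r' : ℤ) ^ 2 * ((2 * (r' : ℤ) + 1) ^ 2 * c₁) ≤ (r' : ℤ) ^ 2 * (w : ℤ) ^ 2 :=
      mul_le_mul_of_nonneg_left h1 (sq_nonneg _)
    nlinarith [h4, h5]
  have h6 : (2 * (r' : ℤ) + 1) * ((w : ℤ) - (r' + 1)) ≤ (r' : ℤ) * w := by
    have h7 : (0 : ℤ) ≤ (r' : ℤ) * w := mul_nonneg hr0 hw0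
    exact abs_le_of_sq_le_sq' h3 h7 |>.2
  have h8 : (w : ℤ) ≤ 2 * r' + 1 := by
    have h9 : ((r' : ℤ) + 1) * w ≤ ((r' : ℤ) + 1) * (2 * r' + 1) := by nlinarith [h6]
    exact le_of_mul_le_mul_left h9 (by positivity)
  have hweq : (w : ℤ) = 2 * r' + 1 := le_antisymm h8 hw1
  constructor
  · have h10 : (2 * (r' : ℤ) + 1) ^ 2 * c₁ ≤ (2 * (r' : ℤ) + 1) ^ 2 * 1 := by
      rw [hweq] at h1
      simpa using h1
    have h11 : (c₁ : ℤ) ≤ 1 := le_of_mul_le_mul_left h10 (by positivity)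
    have : c₁ ≤ 1 := by exact_mod_cast h11
    omega
  · have : w = 2 * r' + 1 := by exact_mod_cast hweq
    omega

/-- In the last case all the other multiplicities are `2`. -/
theorem numeric_two {K : Type*} [DecidableEq K] (Rt : Finset K) (one : K) (hone : one ∈ Rt) (m : K → ℕ)
    (r w : ℕ) (hr : 1 ≤ r) (hcard : Rt.card ≤ r) (hsum : ∑ μ ∈ Rt, m μ = w)
    (hsq : r * ∑ μ ∈ Rt, m μ ^ 2 ≤ w ^ 2 + (r - 1) * 1) (hone1 : m one = 1) (hw : w + 1 = 2 * r) :
    ∀ μ ∈ Rt, μ ≠ one → m μ = 2 := by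
  have hsum' : m one + ∑ μ ∈ Rt.erase one, m μ = w := by
    rw [← hsum]
    exact Finset.add_sum_erase Rt m hone
  have hsq' : m one ^ 2 + ∑ μ ∈ Rt.erase one, m μ ^ 2 = ∑ μ ∈ Rt, m μ ^ 2 :=
    Finset.add_sum_erase Rt (fun μ => m μ ^ 2) hone
  have hce : (Rt.erase one).card + 1 ≤ r := by
    rw [Finset.card_erase_of_mem hone]
    have : 0 < Rt.card := Finset.card_pos.mpr ⟨one, hone⟩
    omega
  obtain ⟨r', rfl⟩ : ∃ r', r = r' + 1 := ⟨r - 1, by omega⟩
  simp only [Nat.add_sub_cancel] at hsq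
  set s := ∑ μ ∈ Rt.erase one, m μ ^ 2 with hs
  set t := ∑ μ ∈ Rt.erase one, m μ with ht
  rw [← hsq', hone1] at hsq
  rw [hone1] at hsum'
  have hw' : w = 2 * r' + 1 := by omega
  have ht' : t = 2 * r' := by omega
  have hs' : s ≤ 4 * r' := by
    subst hw'
    have h1 : (r' + 1) * (1 ^ 2 + s) ≤ (r' + 1) * (4 * r' + 1) := by
      calc (r' + 1) * (1 ^ 2 + s) ≤ (2 * r' + 1) ^ 2 + r' * 1 := hsq
        _ = (r' + 1) * (4 * r' + 1) := by ring
    have h2 := Nat.le_of_mul_le_mul_left h1 (Nat.succ_pos r')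
    omega
  have hcard' : (Rt.erase one).card ≤ r' := by omega
  have hdev : ∑ μ ∈ Rt.erase one, ((m μ : ℤ) - 2) ^ 2 ≤ 0 := by
    have h1 : ∑ μ ∈ Rt.erase one, ((m μ : ℤ) - 2) ^ 2 =
        ∑ μ ∈ Rt.erase one, (m μ : ℤ) ^ 2 - 4 * ∑ μ ∈ Rt.erase one, (m μ : ℤ) + 4 * (Rt.erase one).card := by
      rw [Finset.mul_sum, ← Finset.sum_sub_distrib]
      have : (4 * ((Rt.erase one).card : ℤ)) = ∑ μ ∈ Rt.erase one, (4 : ℤ) := by
        rw [Finset.sum_const, nsmul_eq_mul]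
        ring
      rw [this, ← Finset.sum_add_distrib]
      refine Finset.sum_congr rfl fun μ _ => ?_
      ring
    rw [h1]
    have h2 : ∑ μ ∈ Rt.erase one, (m μ : ℤ) ^ 2 = s := by
      rw [hs]
      push_cast
      rfl
    have h3 : ∑ μ ∈ Rt.erase one, (m μ : ℤ) = t := by
      rw [ht]
      push_cast
      rfl
    rw [h2, h3, ht']
    have h4 : (s : ℤ) ≤ 4 * r' := by exact_mod_cast hs'
    have h5 : ((Rt.erase one).card : ℤ) ≤ r' := by exact_mod_cast hcard'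
    push_cast
    linarith
  intro μ hμ hne
  have hmem : μ ∈ Rt.erase one := Finset.mem_erase.mpr ⟨hne, hμ⟩
  have h0 := (Finset.sum_eq_zero_iff_of_nonneg (fun i _ => sq_nonneg ((m i : ℤ) - 2))).1
    (le_antisymm hdev (Finset.sum_nonneg fun i _ => sq_nonneg _)) μ hmem
  have h1 : (m μ : ℤ) - 2 = 0 := by
    simpa using h0
  have h2 : (m μ : ℤ) = 2 := by linarith
  exact_mod_cast h2

end Numeric

section Eigen

variable {K W : Type*} [Field K] [AddCommGroup W] [Module K W] [FiniteDimensional K W]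

/-- The operators commuting with `f`. -/
def commSub (f : End K W) : Submodule K (End K W) where
  carrier := {g | g * f = f * g}
  add_mem' := fun {a b} ha hb => by
    simp only [Set.mem_setOf_eq] at ha hb ⊢
    rw [add_mul, mul_add, ha, hb]
  zero_mem' := by simp
  smul_mem' := fun c a ha => by
    simp only [Set.mem_setOf_eq] at ha ⊢
    rw [smul_mul_assoc, mul_smul_comm, ha]

@[simp] theorem mem_commSub {f g : End K W} : g ∈ commSub f ↔ g * f = f * g := Iff.rfl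

theorem sum_finrank_le_of_indep {ι : Type*} [Fintype ι] [DecidableEq ι] (B : ι → Submodule K W) (h : iSupIndep B) :
    ∑ i, finrank K (B i) ≤ finrank K W := by
  have hinj : Function.Injective (DirectSum.coeLinearMap B) := by
    have := h.dfinsupp_lsum_injective
    intro a b hab
    apply this
    exact hab
  have := LinearMap.finrank_le_finrank_of_injective hinj
  rwa [Module.finrank_directSum] at this

variable [IsAlgClosed K]

theorem eigen_internal (f : End K W) {r : ℕ} (hr : (r : K) ≠ 0) (hf : f ^ r = 1) :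
    iSupIndep f.eigenspace ∧ ⨆ μ, f.eigenspace μ = ⊤ := by
  have hss := (isSemisimple_of_pow_eq_one f hr hf).isFinitelySemisimple
  refine ⟨Module.End.eigenspaces_iSupIndep f, ?_⟩
  have h1 := Module.End.iSup_maxGenEigenspace_eq_top f
  simp only [hss.maxGenEigenspace_eq_eigenspace] at h1
  exact h1

theorem eigenvalue_pow (f : End K W) {r : ℕ} (hf : f ^ r = 1) {μ : K} {v : W} (hv : v ∈ f.eigenspace μ) (hv0 : v ≠ 0) :
    μ ^ r = 1 := by
  have h1 : ∀ n : ℕ, (f ^ n) v = μ ^ n • v := by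
    intro n
    induction n with
    | zero => simp
    | succ n ih =>
      rw [pow_succ', Module.End.mul_apply, ih, map_smul, Module.End.mem_eigenspace_iff.mp hv, smul_smul, pow_succ]
  have h2 := h1 r
  rw [hf, Module.End.one_apply] at h2
  have h3 : (1 : K) • v = μ ^ r • v := by rw [one_smul]; exact h2
  exact (smul_left_injective K hv0 h3).symm

/-- Sum over `r`-th roots of the multiplicities, and the bound for the dimension of the commutant. -/
theorem eigen_sums (f : End K W) {r : ℕ} (hr0 : 0 < r) (hr : (r : K) ≠ 0) (hf : f ^ r = 1) :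
    ∃ Rt : Finset K, 1 ∈ Rt ∧ Rt.card ≤ r ∧ (∀ μ, f.eigenspace μ ≠ ⊥ → μ ∈ Rt) ∧
      ∑ μ ∈ Rt, finrank K (f.eigenspace μ) = finrank K W ∧
      ∑ μ ∈ Rt, finrank K (f.eigenspace μ) ^ 2 ≤ finrank K (commSub f) := by
  classical
  obtain ⟨hind, htop⟩ := eigen_internal f hr hf
  set m : K → ℕ := fun μ => finrank K (f.eigenspace μ) with hm
  let Rt : Finset K := Polynomial.nthRootsFinset r (1 : K)
  have hRt : ∀ μ, μ ∈ Rt ↔ μ ^ r = 1 := by
    intro μ
    rw [Polynomial.mem_nthRootsFinset hr0]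
  have hmem : ∀ μ, f.eigenspace μ ≠ ⊥ → μ ∈ Rt := by
    intro μ hμ
    obtain ⟨v, hv, hv0⟩ := (Submodule.ne_bot_iff _).mp hμ
    exact (hRt μ).2 (eigenvalue_pow f hf hv hv0)
  have hint := DirectSum.isInternal_submodule_of_iSupIndep_of_iSup_eq_top hind htop
  let v : ∀ μ : K, Basis (Fin (m μ)) K (f.eigenspace μ) := fun μ => Module.finBasis K (f.eigenspace μ)
  let b := hint.collectedBasis v
  have hb : ∀ a : (Σ μ : K, Fin (m μ)), f (b a) = a.1 • b a := by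
    intro a
    exact Module.End.mem_eigenspace_iff.mp (hint.collectedBasis_mem v a)
  have hm0 : ∀ μ, μ ∉ Rt → m μ = 0 := by
    intro μ hμ
    by_contra hne
    apply hμ
    apply hmem
    intro h0
    apply hne
    simp [hm, h0]
  -- the index set
  have hfin : Finite (Σ μ : K, Fin (m μ)) := Module.Finite.finite_basis b
  letI : Fintype (Σ μ : K, Fin (m μ)) := Fintype.ofFinite _
  have huniv : (Finset.univ : Finset (Σ μ : K, Fin (m μ))) = Rt.sigma (fun μ => Finset.univ) := by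
    ext ⟨μ, i⟩
    simp only [Finset.mem_univ, Finset.mem_sigma, and_true, true_iff]
    by_contra hμ
    have := hm0 μ hμ
    have h2 := i.2
    omega
  refine ⟨Rt, (hRt 1).2 (one_pow r), ?_, hmem, ?_, ?_⟩
  · have := Polynomial.card_nthRoots r (1 : K)
    exact (Multiset.toFinset_card_le _).trans this
  · rw [Module.finrank_eq_card_basis b, ← Finset.card_univ, huniv, Finset.card_sigma]
    simp
  · -- the elementary operators
    let ι₂ := Σ μ : Rt, Fin (m μ) × Fin (m μ)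
    let e : ι₂ → End K W := fun p =>
      (b.coord ⟨p.1, p.2.2⟩).smulRight (b ⟨p.1, p.2.1⟩)
    have he : ∀ p : ι₂, e p * f = f * e p := by
      intro p
      apply b.ext
      intro k
      simp only [Module.End.mul_apply, e, LinearMap.smulRight_apply, hb, map_smul, Basis.coord_apply,
        Basis.repr_self, smul_eq_mul, smul_smul, Finsupp.single_apply]
      by_cases hk : k = (⟨(p.1 : K), p.2.2⟩ : Σ μ : K, Fin (m μ))
      · rw [if_pos hk, hk]
        simp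
      · rw [if_neg hk]
        simp
    have hli : LinearIndependent K e := by
      rw [Fintype.linearIndependent_iff]
      intro g hg p
      have h1 := congrArg (fun φ : End K W => b.coord ⟨p.1, p.2.1⟩ (φ (b ⟨p.1, p.2.2⟩))) hg
      simp only [LinearMap.sum_apply, LinearMap.smul_apply, map_sum, map_smul, e, LinearMap.smulRight_apply,
        Basis.coord_apply, Basis.repr_self, LinearMap.zero_apply, map_zero, smul_eq_mul,
        Finsupp.single_apply] at h1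
      rw [Finset.sum_eq_single p] at h1
      · simpa using h1
      · rintro ⟨μ', i', j'⟩ - hne
        by_cases h2 : (⟨(p.1 : K), p.2.2⟩ : Σ μ : K, Fin (m μ)) = ⟨(μ' : K), j'⟩
        · by_cases h3 : (⟨(μ' : K), i'⟩ : Σ μ : K, Fin (m μ)) = ⟨(p.1 : K), p.2.1⟩
          · exfalso
            apply hne
            obtain ⟨μ₀, i₀, j₀⟩ := p
            simp only [Sigma.mk.injEq] at h2 h3
            have hμ : μ' = μ₀ := Subtype.ext h3.1
            subst hμ
            have h4 : i' = i₀ := eq_of_heq h3.2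
            have h5 : j₀ = j' := eq_of_heq h2.2
            rw [h4, h5]
          · rw [if_neg h3]
            simp
        · rw [if_neg h2]
          simp
      · intro h
        exact absurd (Finset.mem_univ _) h
    have hle : Fintype.card ι₂ ≤ finrank K (commSub f) := by
      let e' : ι₂ → ↥(commSub f) := fun p => ⟨e p, he p⟩
      have hli' : LinearIndependent K e' := by
        apply LinearIndependent.of_comp (commSub f).subtype
        exact hli
      exact hli'.fintype_card_le_finrank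
    have hc : Fintype.card ι₂ = ∑ μ ∈ Rt, finrank K (f.eigenspace μ) ^ 2 := by
      rw [Fintype.card_sigma]
      simp only [Fintype.card_prod, Fintype.card_fin]
      rw [← Finset.sum_coe_sort Rt (fun μ => finrank K (f.eigenspace μ) ^ 2)]
      refine Finset.sum_congr rfl fun μ _ => ?_
      rw [sq]
    rw [← hc]
    exact hle

end Eigen

section Count

variable {K W F : Type*} [Field K] [AddCommGroup W] [Module K W] [Group F]

/-- Conjugation representation on `End W`. -/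
def conjRep (ρ : F →* End K W) : F →* End K (End K W) where
  toFun g :=
    { toFun := fun f => ρ g * f * ρ g⁻¹
      map_add' := fun a b => by rw [mul_add, add_mul]
      map_smul' := fun c a => by
        simp only [RingHom.id_apply, mul_smul_comm, smul_mul_assoc] }
  map_one' := by
    ext f v
    simp
  map_mul' a b := by
    apply LinearMap.ext
    intro f
    simp only [LinearMap.coe_mk, AddHom.coe_mk, Module.End.mul_apply, mul_inv_rev, map_mul, mul_assoc]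

@[simp] theorem conjRep_apply (ρ : F →* End K W) (g : F) (f : End K W) : conjRep ρ g f = ρ g * f * ρ g⁻¹ := rfl

theorem rho_mul_inv (ρ : F →* End K W) (g : F) : ρ g * ρ g⁻¹ = 1 := by
  rw [← map_mul, mul_inv_cancel, map_one]

theorem rho_inv_mul (ρ : F →* End K W) (g : F) : ρ g⁻¹ * ρ g = 1 := by
  rw [← map_mul, inv_mul_cancel, map_one]

/-- The hypotheses of the count. -/
structure T2Data (ρ : F →* End K W) (Q Z : Subgroup F) (x : F) (r : ℕ) : Prop where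
  hr : r.Prime
  hxr : x ^ r = 1
  hKF : (Nat.card F : K) ≠ 0
  hZQ : Z ≤ Q
  hZc : ∀ z ∈ Z, ∀ a ∈ Q, z * a = a * z
  hZs : ∀ z ∈ Z, ∃ c : K, ρ z = c • 1
  hcomm : ∀ a ∈ Q, ∀ b ∈ Q, ⁅a, b⁆ ∈ Z
  hnd : ∀ a ∈ Q, (∀ b ∈ Q, ρ ⁅a, b⁆ = 1) → a ∈ Z
  hxQ : ∀ a ∈ Q, x * a * x⁻¹ ∈ Q
  hxZ : ∀ z ∈ Z, ρ (x * z * x⁻¹) = ρ z
  hfpf : ∀ a ∈ Q, x * a * x⁻¹ * a⁻¹ ∈ Z → a ∈ Z
  hne : ∃ a ∈ Q, a ∉ Z

theorem comm_mul_right_of_central {G : Type*} [Group G] (g t c : G) (h : ⁅g, c⁆ * t = t * ⁅g, c⁆) :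
    ⁅g, t * c⁆ = ⁅g, t⁆ * ⁅g, c⁆ := by
  have h' : t⁻¹ * ⁅g, c⁆ = ⁅g, c⁆ * t⁻¹ := by
    rw [eq_mul_inv_iff_mul_eq, mul_assoc, h, ← mul_assoc, inv_mul_cancel, one_mul]
  calc ⁅g, t * c⁆ = g * t * g⁻¹ * (g * c * g⁻¹ * c⁻¹ * t⁻¹) := by
        simp only [commutatorElement_def]
        group
    _ = g * t * g⁻¹ * (⁅g, c⁆ * t⁻¹) := by rw [commutatorElement_def g c]
    _ = g * t * g⁻¹ * (t⁻¹ * ⁅g, c⁆) := by rw [h']
    _ = ⁅g, t⁆ * ⁅g, c⁆ := by
        rw [commutatorElement_def g t]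
        group

variable {ρ : F →* End K W} {Q Z : Subgroup F} {x : F} {r : ℕ}

theorem T2Data.mem_of_conj (h : T2Data ρ Q Z x r) {g : F} (hg : g ∈ Q) (hσ : conjRep ρ g = 1) : g ∈ Z := by
  apply h.hnd g hg
  intro b _
  have h1 : ρ g * ρ b * ρ g⁻¹ = ρ b := by
    have := congrArg (fun φ : End K (End K W) => φ (ρ b)) hσ
    exact this
  rw [commutatorElement_def, map_mul, map_mul, map_mul, h1, rho_mul_inv]

theorem conj_of_scalar {g : F} {c : K} (hg : ρ g = c • 1) : conjRep ρ g = 1 := by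
  apply LinearMap.ext
  intro f
  rw [conjRep_apply, Module.End.one_apply, hg, smul_mul_assoc, one_mul]
  have h1 : c • ρ g⁻¹ = 1 := by
    have := rho_mul_inv ρ g
    rwa [hg, smul_mul_assoc, one_mul] at this
  rw [smul_mul_assoc, ← mul_smul_comm, h1, mul_one]

theorem T2Data.conj_eq_one (h : T2Data ρ Q Z x r) {z : F} (hz : z ∈ Z) : conjRep ρ z = 1 := by
  obtain ⟨c, hc⟩ := h.hZs z hz
  exact conj_of_scalar hc

theorem T2Data.x_norm_Z (h : T2Data ρ Q Z x r) {z : F} (hz : z ∈ Z) : x * z * x⁻¹ ∈ Z := by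
  apply h.hnd _ (h.hxQ z (h.hZQ hz))
  intro b _
  obtain ⟨c, hc⟩ := h.hZs z hz
  have hc' : ρ (x * z * x⁻¹) = c • 1 := by rw [h.hxZ z hz, hc]
  have h1 : ρ (x * z * x⁻¹) * ρ b * ρ (x * z * x⁻¹)⁻¹ = ρ b := by
    have := congrArg (fun φ : End K (End K W) => φ (ρ b)) (conj_of_scalar hc')
    exact this
  rw [commutatorElement_def, map_mul, map_mul _ (x * z * x⁻¹ * b), map_mul _ (x * z * x⁻¹), h1, rho_mul_inv]

theorem T2Data.pow_norm_Q (h : T2Data ρ Q Z x r) (n : ℕ) {a : F} (ha : a ∈ Q) : x ^ n * a * (x ^ n)⁻¹ ∈ Q := by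
  induction n with
  | zero => simpa using ha
  | succ n ih =>
    have := h.hxQ _ ih
    convert this using 1
    group

theorem T2Data.pow_norm_Z (h : T2Data ρ Q Z x r) (n : ℕ) {a : F} (ha : a ∈ Z) : x ^ n * a * (x ^ n)⁻¹ ∈ Z := by
  induction n with
  | zero => simpa using ha
  | succ n ih =>
    have := h.x_norm_Z ih
    convert this using 1
    group

theorem T2Data.zpow_eq_pow (h : T2Data ρ Q Z x r) (i : ℤ) : ∃ n : ℕ, x ^ i = x ^ n := by
  have hpos : 0 < orderOf x := orderOf_pos_iff.2 (isOfFinOrder_iff_pow_eq_one.2 ⟨r, h.hr.pos, h.hxr⟩)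
  refine ⟨(i % (orderOf x : ℤ)).toNat, ?_⟩
  have hnn : 0 ≤ i % (orderOf x : ℤ) := Int.emod_nonneg _ (by exact_mod_cast hpos.ne')
  conv_lhs => rw [zpow_mod_orderOf x i |>.symm]
  conv_lhs => rw [← Int.toNat_of_nonneg hnn, zpow_natCast]

/-- Iterating fixed points modulo `Z`. -/
theorem T2Data.iter_fix (h : T2Data ρ Q Z x r) {a : F} (ha : a ∈ Q) (n : ℕ)
    (hw : x ^ n * a * (x ^ n)⁻¹ * a⁻¹ ∈ Z) (m : ℕ) : (x ^ n) ^ m * a * ((x ^ n) ^ m)⁻¹ * a⁻¹ ∈ Z := by
  induction m with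
  | zero => simp
  | succ m ih =>
    rw [← pow_mul] at ih ⊢
    have e : x ^ (n * (m + 1)) * a * (x ^ (n * (m + 1)))⁻¹ * a⁻¹ =
        (x ^ (n * m) * (x ^ n * a * (x ^ n)⁻¹ * a⁻¹) * (x ^ (n * m))⁻¹) * (x ^ (n * m) * a * (x ^ (n * m))⁻¹ * a⁻¹) := by
      rw [mul_add, mul_one, pow_add]
      group
    rw [e]
    exact Z.mul_mem (h.pow_norm_Z _ hw) ih

/-- Powers of `x` not equal to `1` are fixed-point-free on `Q / Z`. -/
theorem T2Data.pow_fpf (h : T2Data ρ Q Z x r) {a : F} (ha : a ∈ Q) (n : ℕ) (hn : x ^ n ≠ 1)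
    (hw : x ^ n * a * (x ^ n)⁻¹ * a⁻¹ ∈ Z) : a ∈ Z := by
  have hr := h.hr
  have hnd : ¬ r ∣ n := by
    rintro ⟨k, rfl⟩
    apply hn
    rw [pow_mul, h.hxr, one_pow]
  have hcop : Nat.Coprime n r := ((Nat.Prime.coprime_iff_not_dvd hr).2 hnd).symm
  obtain ⟨m, -, hm⟩ := Nat.exists_mul_mod_eq_one_of_coprime hcop hr.one_lt
  apply h.hfpf a ha
  have h1 := h.iter_fix ha n hw m
  rw [← pow_mul] at h1
  have h2 : x ^ (n * m) = x := by
    rw [pow_eq_pow_mod (n * m) h.hxr, hm, pow_one]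
  rwa [h2] at h1

variable [FiniteDimensional K W] [IsAlgClosed K] [Finite F]

/-- **The count**. -/
theorem t2_count [Nontrivial W] (h : T2Data ρ Q Z x r) :
    ∃ c₁ : ℕ, 1 ≤ c₁ ∧ Z.relIndex Q * c₁ ≤ finrank K W ^ 2 ∧
      r * finrank K (commSub (ρ x)) ≤ finrank K W ^ 2 + (r - 1) * c₁ := by
  classical
  have hr := h.hr
  set σ := conjRep ρ with hσ
  set N := σ.ker with hN
  haveI hNn : N.Normal := MonoidHom.normal_ker σ
  let π := QuotientGroup.mk' N
  let σ₂ : (F ⧸ N) →* End K (End K W) := QuotientGroup.lift N σ (fun g hg => hg)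
  have hσ₂ : ∀ g, σ₂ (π g) = σ g := fun g => rfl
  set U : Subgroup (F ⧸ N) := Q.map π with hU
  set y : F ⧸ N := π x with hy
  set E : Subgroup (F ⧸ N) := Subgroup.zpowers y with hE
  have hπ1 : ∀ g, π g = 1 ↔ σ g = 1 := by
    intro g
    rw [QuotientGroup.mk'_apply, QuotientGroup.eq_one_iff, hN, MonoidHom.mem_ker]
  -- elements of `E` and `U`
  have hEel : ∀ e ∈ E, ∃ n : ℕ, e = π (x ^ n) := by
    intro e he
    obtain ⟨i, rfl⟩ := Subgroup.mem_zpowers_iff.1 he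
    obtain ⟨n, hn⟩ := h.zpow_eq_pow i
    refine ⟨n, ?_⟩
    rw [hy, ← map_zpow, hn]
  have hcardK : ∀ d : ℕ, d ∣ Nat.card F → (d : K) ≠ 0 := by
    rintro d ⟨k, hk⟩ hd
    apply h.hKF
    rw [hk, Nat.cast_mul, hd, zero_mul]
  have hU' : Group.IsSolvable ↥U := by
    have hc : ∀ a b : ↥U, a * b = b * a := by
      rintro ⟨_, a, ha, rfl⟩ ⟨_, b, hb, rfl⟩
      apply Subtype.ext
      show π a * π b = π b * π a
      have h1 : π ⁅a, b⁆ = 1 := (hπ1 _).2 (h.conj_eq_one (h.hcomm a ha b hb))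
      rw [map_commutatorElement, commutatorElement_eq_one_iff_mul_comm] at h1
      exact h1
    letI : CommGroup ↥U := { (inferInstance : Group ↥U) with mul_comm := hc }
    infer_instance
  have hEU : ∀ e ∈ E, ∀ n ∈ U, e * n * e⁻¹ ∈ U := by
    intro e he n hn
    obtain ⟨k, rfl⟩ := hEel e he
    obtain ⟨a, ha, rfl⟩ := hn
    refine ⟨_, h.pow_norm_Q k ha, ?_⟩
    simp [π]
  have hfpf : ∀ e ∈ E, e ≠ 1 → ∀ n ∈ U, e * n = n * e → n = 1 := by
    intro e he hne n hn hc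
    obtain ⟨k, rfl⟩ := hEel e he
    obtain ⟨a, ha, rfl⟩ := hn
    have hk : x ^ k ≠ 1 := by
      intro h0
      apply hne
      rw [h0, map_one]
    have h1 : π (x ^ k * a * (x ^ k)⁻¹ * a⁻¹) = 1 := by
      simp only [map_mul, map_inv]
      rw [hc]
      group
    have h2 : x ^ k * a * (x ^ k)⁻¹ * a⁻¹ ∈ Z := h.mem_of_conj
      (Q.mul_mem (h.pow_norm_Q k ha) (Q.inv_mem ha)) ((hπ1 _).1 h1)
    have h3 := h.pow_fpf ha k hk h2
    exact (hπ1 _).2 (h.conj_eq_one h3)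
  have hK : (Nat.card ↥(U ⊔ E) : K) ≠ 0 := by
    apply hcardK
    exact (Subgroup.card_subgroup_dvd_card _).trans (Subgroup.card_quotient_dvd_card N)
  have hy1 : y ≠ 1 := by
    intro h0
    obtain ⟨a, ha, hna⟩ := h.hne
    apply hna
    apply h.hfpf a ha
    apply h.mem_of_conj (Q.mul_mem (h.hxQ a ha) (Q.inv_mem ha))
    rw [← hπ1]
    simp only [map_mul, map_inv]
    rw [← hy, h0]
    group
  have hcardE : Nat.card E = r := by
    rw [hE, Nat.card_zpowers]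
    have h1 : orderOf y ∣ r := orderOf_dvd_of_pow_eq_one (by rw [hy, ← map_pow, h.hxr, map_one])
    rcases (Nat.dvd_prime hr).1 h1 with h2 | h2
    · exact absurd (orderOf_eq_one_iff.1 h2) hy1
    · exact h2
  have hform := fx_formula σ₂ U E hU' hEU hfpf hK
  rw [hcardE] at hform
  set w := finrank K W with hw
  have hfinA : finrank K (End K W) = w ^ 2 := by
    rw [sq, hw]
    exact Module.finrank_linearMap K K W W
  rw [hfinA] at hform
  set c₁ := finrank K (fx σ₂ U) with hc₁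
  have hle1 : finrank K (fx σ₂ (U ⊔ E)) ≤ c₁ := Submodule.finrank_mono (fx_anti le_sup_left)
  have hcomm2 : commSub (ρ x) ≤ fx σ₂ E := by
    intro f hf e he
    obtain ⟨k, rfl⟩ := hEel e he
    rw [hσ₂]
    have h1 : ∀ n : ℕ, ρ (x ^ n) * f = f * ρ (x ^ n) := by
      intro n
      induction n with
      | zero => simp
      | succ n ih =>
        have hf' : f * ρ x = ρ x * f := hf
        rw [pow_succ, map_mul, mul_assoc, ← hf', ← mul_assoc, ih, mul_assoc]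
    rw [hσ, conjRep_apply, h1, mul_assoc, ← map_mul, mul_inv_cancel, map_one, mul_one]
  have hle2 : finrank K (commSub (ρ x)) ≤ finrank K (fx σ₂ E) := Submodule.finrank_mono hcomm2
  refine ⟨c₁, ?_, ?_, ?_⟩
  · rw [Nat.succ_le_iff, Module.finrank_pos_iff_exists_ne_zero]
    refine ⟨⟨1, ?_⟩, ?_⟩
    · intro n hn
      obtain ⟨a, _, rfl⟩ := hn
      rw [hσ₂, hσ, conjRep_apply, mul_one, rho_mul_inv]
    · intro h0
      have h1 : (1 : End K W) = 0 := congrArg Subtype.val h0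
      exact one_ne_zero h1
  · -- distinct cosets
    let Q₀ := ↥Q
    let Z₀ : Subgroup Q₀ := Z.subgroupOf Q
    haveI hZ₀n : Z₀.Normal := by
      constructor
      intro z hz g
      rw [Subgroup.mem_subgroupOf] at hz ⊢
      have h1 : (g : F) * z * (g : F)⁻¹ = z := by
        have := h.hZc z hz g g.2
        calc (g : F) * z * (g : F)⁻¹ = (z : F) * g * (g : F)⁻¹ := by rw [← this]
          _ = z := by group
      show (g : F) * z * (g : F)⁻¹ ∈ Z
      rw [h1]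
      exact hz
    letI : Fintype (Q₀ ⧸ Z₀) := Fintype.ofFinite _
    let τ : Q₀ ⧸ Z₀ → Q₀ := Quotient.out
    have hτ : ∀ u : Q₀ ⧸ Z₀, (QuotientGroup.mk (τ u) : Q₀ ⧸ Z₀) = u := fun u => Quotient.out_eq' u
    let σ' : Q₀ →* End K (End K W) := σ.comp Q.subtype
    have hcommσ : ∀ a b : Q₀, σ' a * σ' b = σ' b * σ' a := by
      intro a b
      have h1 : (a : F) * b = ⁅(a : F), (b : F)⁆ * ((b : F) * a) := by
        rw [commutatorElement_def]
        group
      show σ (a : F) * σ (b : F) = σ (b : F) * σ (a : F)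
      rw [← map_mul, h1, map_mul, h.conj_eq_one (h.hcomm a a.2 b b.2), one_mul, map_mul]
    have hKQ : (Nat.card Q₀ : K) ≠ 0 := hcardK _ (Subgroup.card_subgroup_dvd_card _)
    have hind := (simEig_indep σ' hcommσ hKQ).1
    have hex : ∀ (u : Q₀ ⧸ Z₀) (g : Q₀), ∃ c : K, ρ ⁅(g : F), ((τ u : Q₀) : F)⁆ = c • 1 := fun u g =>
      h.hZs _ (h.hcomm g g.2 (τ u) (τ u).2)
    choose χ hχ using hex
    have hχinj : Function.Injective χ := by
      intro u u' huu
      set c : Q₀ := (τ u)⁻¹ * τ u' with hc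
      have hcmem : (c : F) ∈ Z := by
        apply h.hnd c c.2
        intro b hb
        have hτu' : ((τ u' : Q₀) : F) = (τ u : Q₀) * (c : F) := by
          have h0 : τ u' = τ u * c := by
            rw [hc, mul_inv_cancel_left]
          exact congrArg Subtype.val h0
        have hcent : ⁅b, ((τ u : Q₀) : F) * (c : F)⁆ = ⁅b, ((τ u : Q₀) : F)⁆ * ⁅b, (c : F)⁆ :=
          comm_mul_right_of_central _ _ _ (h.hZc _ (h.hcomm b hb c c.2) (τ u) (τ u).2)
        have h3 := hχ u' ⟨b, hb⟩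
        have h4 := hχ u ⟨b, hb⟩
        rw [← huu] at h3
        have h5 : ρ ⁅b, ((τ u : Q₀) : F)⁆ * ρ ⁅b, (c : F)⁆ = ρ ⁅b, ((τ u : Q₀) : F)⁆ := by
          rw [← map_mul, ← hcent, ← hτu']
          exact h3.trans h4.symm
        have h6 : ρ ⁅b, (c : F)⁆ = 1 := by
          calc ρ ⁅b, (c : F)⁆ = ρ (⁅b, ((τ u : Q₀) : F)⁆⁻¹) * (ρ ⁅b, ((τ u : Q₀) : F)⁆ * ρ ⁅b, (c : F)⁆) := by
                rw [← mul_assoc, rho_inv_mul, one_mul]
            _ = 1 := by rw [h5, rho_inv_mul]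
        have h8 : ⁅(c : F), b⁆ = ⁅b, (c : F)⁆⁻¹ := (commutatorElement_inv _ _).symm
        rw [h8]
        have h9 := rho_mul_inv ρ ⁅b, (c : F)⁆
        rwa [h6, one_mul] at h9
      have hcmem' : c ∈ Z₀ := Subgroup.mem_subgroupOf.2 hcmem
      rw [← hτ u, ← hτ u']
      exact QuotientGroup.eq.2 hcmem'
    let B : Q₀ ⧸ Z₀ → Submodule K (End K W) := fun u =>
      (fx σ₂ U).map (LinearMap.mulLeft K (ρ ((τ u : Q₀) : F)))
    have hB : B ≤ fun u => simEig σ' (χ u) := by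
      intro u
      rintro _ ⟨f, hf, rfl⟩
      rw [mem_simEig]
      intro g
      have hgU : π (g : F) ∈ U := ⟨g, g.2, rfl⟩
      have hf2 : ρ (g : F) * f * ρ (g : F)⁻¹ = f := hf _ hgU
      set t : F := ((τ u : Q₀) : F) with ht
      have h1 : (g : F) * t * (g : F)⁻¹ = ⁅(g : F), t⁆ * t := by
        rw [commutatorElement_def]
        group
      show ρ (g : F) * (ρ t * f) * ρ (g : F)⁻¹ = χ u g • (ρ t * f)
      calc ρ (g : F) * (ρ t * f) * ρ (g : F)⁻¹
          = (ρ (g : F) * ρ t * ρ (g : F)⁻¹) * (ρ (g : F) * f * ρ (g : F)⁻¹) := by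
            simp only [mul_assoc]
            rw [← mul_assoc (ρ (g : F)⁻¹) (ρ (g : F)), rho_inv_mul, one_mul]
        _ = ρ (⁅(g : F), t⁆ * t) * f := by
            rw [hf2, ← h1, map_mul, map_mul]
        _ = χ u g • (ρ t * f) := by
            rw [map_mul, hχ u g, smul_mul_assoc, one_mul, smul_mul_assoc]
    have hfinB : ∀ u, finrank K (B u) = c₁ := by
      intro u
      apply (LinearEquiv.finrank_eq (Submodule.equivMapOfInjective _ _ _)).symm
      intro a b hab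
      have h1 : ρ ((τ u : Q₀) : F) * a = ρ ((τ u : Q₀) : F) * b := hab
      calc a = ρ ((τ u : Q₀) : F)⁻¹ * (ρ ((τ u : Q₀) : F) * a) := by rw [← mul_assoc, rho_inv_mul, one_mul]
        _ = b := by rw [h1, ← mul_assoc, rho_inv_mul, one_mul]
    have hsum := sum_finrank_le_of_indep B ((hind.comp hχinj).mono hB)
    simp only [hfinB, Finset.sum_const, Finset.card_univ, smul_eq_mul] at hsum
    rw [hfinA] at hsum
    have hidx : Z.relIndex Q = Fintype.card (Q₀ ⧸ Z₀) := by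
      rw [Subgroup.relIndex, Subgroup.index, Nat.card_eq_fintype_card]
    rw [hidx]
    exact hsum
  · obtain ⟨r', hr'⟩ : ∃ r', r = r' + 1 := ⟨r - 1, by have := hr.pos; omega⟩
    rw [hr'] at hform ⊢
    simp only [Nat.add_sub_cancel]
    have h1 : (r' + 1) * finrank K (fx σ₂ (U ⊔ E)) ≤ (r' + 1) * c₁ := Nat.mul_le_mul_left _ hle1
    have h2 : (r' + 1) * finrank K (commSub (ρ x)) ≤ (r' + 1) * finrank K (fx σ₂ E) := Nat.mul_le_mul_left _ hle2
    have h3 : (r' + 1) * c₁ = r' * c₁ + c₁ := by ring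
    omega


end Count

section Square

variable {K W F : Type*} [Field K] [AddCommGroup W] [Module K W] [Nontrivial W] [Group F]
  {ρ : F →* End K W} {Q Z : Subgroup F}

theorem scalar_inj {c d : K} (h : c • (1 : End K W) = d • (1 : End K W)) : c = d := by
  obtain ⟨v, hv⟩ := exists_ne (0 : W)
  have h1 := congrArg (fun f : End K W => f v) h
  simp only [LinearMap.smul_apply, Module.End.one_apply] at h1
  exact smul_left_injective K hv h1

theorem comm_mul_left_of_central {G : Type*} [Group G] (g g' a : G) (h1 : ⁅g', a⁆ * g = g * ⁅g', a⁆)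
    (h2 : ⁅g', a⁆ * a = a * ⁅g', a⁆) : ⁅g * g', a⁆ = ⁅g, a⁆ * ⁅g', a⁆ := by
  have e0 : ⁅g * g', a⁆ = g * ⁅g', a⁆ * a * g⁻¹ * a⁻¹ := by
    simp only [commutatorElement_def]
    group
  generalize ⁅g', a⁆ = d at *
  have cg : Commute d g := h1
  have ca : Commute d a := h2
  have cc : Commute d ⁅g, a⁆ := by
    rw [commutatorElement_def]
    exact ((cg.mul_right ca).mul_right cg.inv_right).mul_right ca.inv_right
  rw [e0, ← h1]
  calc d * g * a * g⁻¹ * a⁻¹ = d * ⁅g, a⁆ := by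
        rw [commutatorElement_def]
        group
    _ = ⁅g, a⁆ * d := cc.eq

/-- The character `g ↦ ρ [g, a]` of `Q`. -/
theorem exists_char (hZc : ∀ z ∈ Z, ∀ a ∈ Q, z * a = a * z) (hZs : ∀ z ∈ Z, ∃ c : K, ρ z = c • 1)
    (hcomm : ∀ a ∈ Q, ∀ b ∈ Q, ⁅a, b⁆ ∈ Z) {a : F} (ha : a ∈ Q) :
    ∃ ψ : ↥Q →* Kˣ, ∀ g : ↥Q, ρ ⁅(g : F), a⁆ = ((ψ g : Kˣ) : K) • 1 := by
  classical
  have hex : ∀ g : ↥Q, ∃ c : K, ρ ⁅(g : F), a⁆ = c • 1 := fun g => hZs _ (hcomm g g.2 a ha)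
  choose c hc using hex
  let f : ↥Q →* K :=
    { toFun := c
      map_one' := by
        have h1 := hc 1
        simp only [Subgroup.coe_one, commutatorElement_one_left, map_one] at h1
        have h2 : (1 : K) • (1 : End K W) = c 1 • 1 := by rw [one_smul]; exact h1
        exact (scalar_inj h2).symm
      map_mul' := fun x y => by
        have h1 : ⁅((x * y : ↥Q) : F), a⁆ = ⁅(x : F), a⁆ * ⁅(y : F), a⁆ :=
          comm_mul_left_of_central _ _ _ (hZc _ (hcomm y y.2 a ha) x x.2) (hZc _ (hcomm y y.2 a ha) a ha)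
        have h2 := hc (x * y)
        rw [h1, map_mul, hc x, hc y, smul_mul_smul_comm, one_mul] at h2
        exact (scalar_inj h2).symm }
  refine ⟨f.toHomUnits, fun g => ?_⟩
  rw [MonoidHom.coe_toHomUnits]
  exact hc g


theorem rho_comm_symm {u v : F} (h : ρ ⁅u, v⁆ = 1) : ρ ⁅v, u⁆ = 1 := by
  have h8 : ⁅v, u⁆ = ⁅u, v⁆⁻¹ := (commutatorElement_inv _ _).symm
  rw [h8]
  have h9 : ρ ⁅u, v⁆ * ρ (⁅u, v⁆⁻¹) = 1 := by rw [← map_mul, mul_inv_cancel, map_one]
  rwa [h, one_mul] at h9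

/-- **The order of `Q / Z` is a square**. -/
theorem card_square [Finite F] [FiniteDimensional K W] {q : ℕ} [hq : Fact q.Prime] (hZs : ∀ z ∈ Z, ∃ c : K, ρ z = c • 1) :
    ∀ (n : ℕ) (Q : Subgroup F), Nat.card Q = n → Z ≤ Q → (∀ z ∈ Z, ∀ a ∈ Q, z * a = a * z) →
      (∀ a ∈ Q, ∀ b ∈ Q, ⁅a, b⁆ ∈ Z) → (∀ a ∈ Q, (∀ b ∈ Q, ρ ⁅a, b⁆ = 1) → a ∈ Z) → (∀ a ∈ Q, a ^ q ∈ Z) →
      ∃ m, Z.relIndex Q = q ^ (2 * m) := by
  intro n
  induction n using Nat.strong_induction_on with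
  | _ n ih =>
    intro Q hn hZQ hZc hcomm hnd hpow
    by_cases hQZ : Q ≤ Z
    · exact ⟨0, by simpa using Subgroup.relIndex_eq_one.2 hQZ⟩
    obtain ⟨a, ha, haZ⟩ := SetLike.not_le_iff_exists.1 hQZ
    have hb : ∃ b ∈ Q, ρ ⁅a, b⁆ ≠ 1 := by
      by_contra hcon
      push Not at hcon
      exact haZ (hnd a ha hcon)
    obtain ⟨b, hb, hab⟩ := hb
    obtain ⟨ψa, hψa⟩ := exists_char (ρ := ρ) hZc hZs hcomm ha
    obtain ⟨ψb, hψb⟩ := exists_char (ρ := ρ) hZc hZs hcomm hb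
    -- vanishing on commutators equal to one
    have hone : ∀ (ψ : ↥Q →* Kˣ) (c : F), (∀ g : ↥Q, ρ ⁅(g : F), c⁆ = ((ψ g : Kˣ) : K) • 1) → ∀ g : ↥Q,
        ρ ⁅(g : F), c⁆ = 1 → ψ g = 1 := by
      intro ψ c hψ g hg
      have h1 := hψ g
      rw [hg] at h1
      have h2 : (1 : K) • (1 : End K W) = ((ψ g : Kˣ) : K) • 1 := by rw [one_smul]; exact h1
      exact Units.ext (scalar_inj h2).symm
    have htriv : ∀ g : ↥Q, ∀ c ∈ Q, (g : F) ∈ Z → ρ ⁅(g : F), c⁆ = 1 := by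
      intro g c hc hg
      have h1 := hZc g hg c hc
      rw [commutatorElement_eq_one_iff_mul_comm.2 h1, map_one]
    have hpowq : ∀ (ψ : ↥Q →* Kˣ) (c : F), c ∈ Q → (∀ g : ↥Q, ρ ⁅(g : F), c⁆ = ((ψ g : Kˣ) : K) • 1) → ∀ g : ↥Q,
        ψ g ^ q = 1 := by
      intro ψ c hc hψ g
      rw [← map_pow]
      apply hone ψ c hψ
      apply htriv _ c hc
      simpa using hpow g g.2
    set A : ↥Q := ⟨a, ha⟩ with hA
    set B : ↥Q := ⟨b, hb⟩ with hB
    set ξ : Kˣ := ψb A with hξ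
    have hξ1 : ξ ≠ 1 := by
      intro h0
      apply hab
      have h1 := hψb A
      rw [← hξ, h0] at h1
      simpa using h1
    have hξq : ξ ^ q = 1 := hpowq ψb b hb hψb A
    have hψaA : ψa A = 1 := by
      apply hone ψa a hψa
      show ρ ⁅a, a⁆ = 1
      rw [commutatorElement_self, map_one]
    have hψbB : ψb B = 1 := by
      apply hone ψb b hψb
      show ρ ⁅b, b⁆ = 1
      rw [commutatorElement_self, map_one]
    have hψaB : ψa B * ξ = 1 := by
      have h1 := hψa B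
      have h2 := hψb A
      have h3 : ρ ⁅b, a⁆ * ρ ⁅a, b⁆ = 1 := by
        rw [← map_mul, ← commutatorElement_inv a b, inv_mul_cancel, map_one]
      have h4 : ρ ⁅b, a⁆ = ((ψa B : Kˣ) : K) • 1 := h1
      have h5 : ρ ⁅a, b⁆ = ((ξ : Kˣ) : K) • 1 := h2
      rw [h4, h5, smul_mul_smul_comm, one_mul] at h3
      have h6 : ((ψa B : Kˣ) : K) * (ξ : K) = 1 := by
        apply scalar_inj (W := W)
        rw [h3, one_smul]
      exact Units.ext (by simpa using h6)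
    have hψaBi : ψa B⁻¹ = ξ := by
      rw [map_inv]
      exact inv_eq_of_mul_eq_one_right hψaB
    -- the roots of unity
    have hord : orderOf ξ = q := orderOf_eq_prime hξq hξ1
    have hroots : ∀ η : Kˣ, η ^ q = 1 → ∃ i : ℕ, ξ ^ i = η := by
      intro η hη
      haveI : NeZero q := ⟨hq.out.ne_zero⟩
      have hp : IsPrimitiveRoot (ξ : K) q := by
        rw [← hord, ← orderOf_units]
        exact IsPrimitiveRoot.orderOf _
      have hη' : (η : K) ^ q = 1 := by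
        rw [← Units.val_pow_eq_pow_val, hη, Units.val_one]
      obtain ⟨i, -, hi⟩ := hp.eq_pow_of_pow_eq_one hη'
      exact ⟨i, Units.ext (by simpa using hi)⟩
    let Ψ : ↥Q →* Kˣ × Kˣ := ψa.prod ψb
    have hΨ : ∀ g, Ψ g = (ψa g, ψb g) := fun g => rfl
    have hdec : ∀ g : ↥Q, ∃ i j : ℕ, Ψ g = Ψ (A ^ j * B⁻¹ ^ i) := by
      intro g
      obtain ⟨i, hi⟩ := hroots _ (hpowq ψa a ha hψa g)
      obtain ⟨j, hj⟩ := hroots _ (hpowq ψb b hb hψb g)
      refine ⟨i, j, ?_⟩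
      rw [hΨ, hΨ, map_mul, map_mul, map_pow, map_pow, map_pow, map_pow, hψaA, hψaBi, one_pow, one_mul, map_inv,
        hψbB, inv_one, one_pow, mul_one, ← hi, ← hj, hξ]
    let R : Subgroup (Kˣ × Kˣ) := (Subgroup.zpowers ξ).prod (Subgroup.zpowers ξ)
    have hrange : Ψ.range = R := by
      apply le_antisymm
      · rintro _ ⟨g, rfl⟩
        obtain ⟨i, hi⟩ := hroots _ (hpowq ψa a ha hψa g)
        obtain ⟨j, hj⟩ := hroots _ (hpowq ψb b hb hψb g)
        refine Subgroup.mem_prod.2 ⟨?_, ?_⟩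
        · show ψa g ∈ _
          rw [← hi]
          exact pow_mem (Subgroup.mem_zpowers ξ) i
        · show ψb g ∈ _
          rw [← hj]
          exact pow_mem (Subgroup.mem_zpowers ξ) j
      · rintro ⟨u, v⟩ h0
        obtain ⟨hu, hv⟩ := Subgroup.mem_prod.1 h0
        obtain ⟨s, hs⟩ := Subgroup.mem_zpowers_iff.1 hu
        obtain ⟨t, ht⟩ := Subgroup.mem_zpowers_iff.1 hv
        refine ⟨A ^ t * B⁻¹ ^ s, ?_⟩
        rw [hΨ, map_mul, map_mul, map_zpow, map_zpow, map_zpow, map_zpow, hψaA, hψaBi, one_zpow, one_mul, map_inv,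
          hψbB, inv_one, one_zpow, mul_one]
        exact Prod.ext hs ht
    have hindex : Ψ.ker.index = q ^ 2 := by
      rw [Subgroup.index_ker, hrange]
      have hc : Nat.card R = Nat.card (Subgroup.zpowers ξ) * Nat.card (Subgroup.zpowers ξ) := by
        rw [← Nat.card_prod]
        exact Nat.card_congr (Subgroup.prodEquiv _ _).toEquiv
      rw [hc, Nat.card_zpowers, hord, sq]
    set C : Subgroup F := Ψ.ker.map Q.subtype with hC
    have hCQ : C ≤ Q := Subgroup.map_subtype_le _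
    have hCmem : ∀ c : ↥Q, (c : F) ∈ C ↔ c ∈ Ψ.ker := by
      intro c
      constructor
      · rintro ⟨d, hd, hde⟩
        have : d = c := Subtype.ext hde
        rwa [← this]
      · intro h
        exact ⟨c, h, rfl⟩
    have hCmem' : ∀ c : ↥Q, (c : F) ∈ C → ρ ⁅(c : F), a⁆ = 1 ∧ ρ ⁅(c : F), b⁆ = 1 := by
      intro c hc
      have h1 : Ψ c = 1 := (hCmem c).1 hc
      have h2 : ψa c = 1 := congrArg Prod.fst h1
      have h3 : ψb c = 1 := congrArg Prod.snd h1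
      constructor
      · rw [hψa c, h2]
        simp
      · rw [hψb c, h3]
        simp
    have hZC : Z ≤ C := by
      intro z hz
      have hzQ : z ∈ Q := hZQ hz
      apply (hCmem ⟨z, hzQ⟩).2
      rw [MonoidHom.mem_ker, hΨ]
      exact Prod.ext (hone ψa a hψa _ (htriv ⟨z, hzQ⟩ a ha hz)) (hone ψb b hψb _ (htriv ⟨z, hzQ⟩ b hb hz))
    have haC : a ∉ C := by
      intro h0
      apply hab
      exact (hCmem' A h0).2
    have hlt : Nat.card C < n := by
      rw [← hn]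
      by_contra hge
      push Not at hge
      have h0 := Subgroup.eq_of_le_of_card_ge hCQ hge
      exact haC (h0 ▸ ha)
    have hndC : ∀ c ∈ C, (∀ d ∈ C, ρ ⁅c, d⁆ = 1) → c ∈ Z := by
      intro c hc hcd
      have hcQ := hCQ hc
      apply hnd c hcQ
      intro g hg
      obtain ⟨ψc, hψc⟩ := exists_char (ρ := ρ) hZc hZs hcomm hcQ
      have hcA : ψc A = 1 := by
        apply hone ψc c hψc
        exact rho_comm_symm (hCmem' ⟨c, hcQ⟩ hc).1
      have hcB : ψc B = 1 := by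
        apply hone ψc c hψc
        exact rho_comm_symm (hCmem' ⟨c, hcQ⟩ hc).2
      obtain ⟨i, j, hij⟩ := hdec ⟨g, hg⟩
      set t : ↥Q := A ^ j * B⁻¹ ^ i with ht
      have hd : (⟨g, hg⟩ * t⁻¹ : ↥Q) ∈ Ψ.ker := by
        rw [MonoidHom.mem_ker, map_mul, map_inv, hij, mul_inv_cancel]
      have hdc : ψc (⟨g, hg⟩ * t⁻¹) = 1 := by
        apply hone ψc c hψc
        exact rho_comm_symm (hcd _ ((hCmem _).2 hd))
      have htc : ψc t = 1 := by
        rw [ht, map_mul, map_pow, map_pow, hcA, map_inv, hcB, inv_one, one_pow, one_pow, mul_one]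
      have hgc : ψc ⟨g, hg⟩ = 1 := by
        have h1 : (⟨g, hg⟩ : ↥Q) = (⟨g, hg⟩ * t⁻¹) * t := by group
        rw [h1, map_mul, hdc, htc, mul_one]
      have h2 := hψc ⟨g, hg⟩
      rw [hgc] at h2
      apply rho_comm_symm
      simpa using h2
    obtain ⟨m, hm⟩ := ih _ hlt C rfl hZC (fun z hz d hd => hZc z hz d (hCQ hd))
      (fun x hx y hy => hcomm x (hCQ hx) y (hCQ hy)) hndC (fun x hx => hpow x (hCQ hx))
    refine ⟨m + 1, ?_⟩
    have h1 := Subgroup.relIndex_mul_relIndex Z C Q hZC hCQ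
    have h2 : C.relIndex Q = Ψ.ker.index := by
      rw [Subgroup.relIndex, hC]
      congr 1
      exact Subgroup.comap_map_eq_self_of_injective Q.subtype_injective _
    rw [← h1, hm, h2, hindex]
    ring

end Square

section Conclusion

variable {K W F : Type*} [Field K] [AddCommGroup W] [Module K W] [Group F] {ρ : F →* End K W} {Q Z : Subgroup F}
  {x : F} {r : ℕ} [FiniteDimensional K W] [IsAlgClosed K] [Finite F]

theorem T2Data.x_ne_one (h : T2Data ρ Q Z x r) : x ≠ 1 := by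
  rintro rfl
  obtain ⟨a, ha, hna⟩ := h.hne
  apply hna
  apply h.hfpf a ha
  simp [Z.one_mem]

theorem T2Data.r_ne_zero (h : T2Data ρ Q Z x r) : (r : K) ≠ 0 := by
  haveI : Fact r.Prime := ⟨h.hr⟩
  have h1 : orderOf x = r := orderOf_eq_prime h.hxr h.x_ne_one
  have h2 : r ∣ Nat.card F := h1 ▸ orderOf_dvd_natCard x
  obtain ⟨k, hk⟩ := h2
  intro h0
  apply h.hKF
  rw [hk, Nat.cast_mul, h0, zero_mul]

/-- The numerical data of the eigenspaces of `ρ x`. -/
theorem t2_numeric [Nontrivial W] (h : T2Data ρ Q Z x r) :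
    ∃ (Rt : Finset K) (c₁ : ℕ), 1 ∈ Rt ∧ Rt.card ≤ r ∧ (∀ μ, (ρ x).eigenspace μ ≠ ⊥ → μ ∈ Rt) ∧
      ∑ μ ∈ Rt, finrank K ((ρ x).eigenspace μ) = finrank K W ∧ 1 ≤ c₁ ∧ Z.relIndex Q * c₁ ≤ finrank K W ^ 2 ∧
      r * ∑ μ ∈ Rt, finrank K ((ρ x).eigenspace μ) ^ 2 ≤ finrank K W ^ 2 + (r - 1) * c₁ := by
  have hf : (ρ x) ^ r = 1 := by rw [← map_pow, h.hxr, map_one]
  obtain ⟨Rt, h1, h2, h3, h4, h5⟩ := eigen_sums (ρ x) h.hr.pos h.r_ne_zero hf
  obtain ⟨c₁, h6, h7, h8⟩ := t2_count h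
  exact ⟨Rt, c₁, h1, h2, h3, h4, h6, h7, (Nat.mul_le_mul_left _ h5).trans h8⟩

/-- If `ρ x` has no fixed vector, then `D + 1 ≤ r`, where `|Q : Z| = D ^ 2`. -/
theorem t2_no_fix [Nontrivial W] (h : T2Data ρ Q Z x r) {D : ℕ} (hD : Z.relIndex Q = D ^ 2)
    (hfix : (ρ x).eigenspace 1 = ⊥) : D + 1 ≤ r := by
  classical
  obtain ⟨Rt, c₁, h1, h2, h3, h4, h6, h7, h8⟩ := t2_numeric h
  have hr1 := h.hr.one_le
  have hn := eigen_numeric Rt 1 h1 (fun μ => finrank K ((ρ x).eigenspace μ)) r (finrank K W) c₁ hr1 h2 h4 h8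
  have hm0 : finrank K ((ρ x).eigenspace 1) = 0 := by rw [hfix, finrank_bot]
  change ((finrank K W : ℤ) - r * (finrank K ((ρ x).eigenspace 1) : ℕ)) ^ 2 ≤ _ at hn
  rw [hm0] at hn
  rw [hD] at h7
  exact numeric_zero r _ c₁ D hr1 h6 h7 hn

/-- **The main conclusions for `D ≥ 2 r - 1`.** -/
theorem t2_main [Nontrivial W] (h : T2Data ρ Q Z x r) {D : ℕ} (hD : Z.relIndex Q = D ^ 2) (hDr : 2 * r ≤ D + 1) :
    (ρ x).eigenspace 1 ≠ ⊥ ∧
      (finrank K ((ρ x).eigenspace 1) ≤ 1 → ∀ μ, finrank K ((ρ x).eigenspace μ) ≤ 2) := by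
  classical
  have hr1 := h.hr.one_le
  have hr2 := h.hr.two_le
  have hne : (ρ x).eigenspace 1 ≠ ⊥ := by
    intro h0
    have := t2_no_fix h hD h0
    omega
  refine ⟨hne, fun hle μ => ?_⟩
  obtain ⟨Rt, c₁, h1, h2, h3, h4, h6, h7, h8⟩ := t2_numeric h
  have hm1 : finrank K ((ρ x).eigenspace 1) = 1 := by
    have h9 : finrank K ((ρ x).eigenspace 1) ≠ 0 := fun h0 => hne (Submodule.finrank_eq_zero.mp h0)
    omega
  have hn := eigen_numeric Rt 1 h1 (fun μ => finrank K ((ρ x).eigenspace μ)) r (finrank K W) c₁ hr1 h2 h4 h8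
  change ((finrank K W : ℤ) - r * (finrank K ((ρ x).eigenspace 1) : ℕ)) ^ 2 ≤ _ at hn
  rw [hm1] at hn
  rw [hD] at h7
  obtain ⟨hc, hw⟩ := numeric_one r _ c₁ D hr1 h6 h7 hDr hn
  rw [hc] at h8
  have h2' := numeric_two Rt 1 h1 (fun μ => finrank K ((ρ x).eigenspace μ)) r (finrank K W) hr1 h2 h4 h8 hm1 hw
  by_cases hμ : μ = 1
  · rw [hμ, hm1]
    omega
  by_cases hμ2 : μ ∈ Rt
  · exact (h2' μ hμ2 hμ).le
  · have h0 : (ρ x).eigenspace μ = ⊥ := by
      by_contra hne2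
      exact hμ2 (h3 μ hne2)
    rw [h0, finrank_bot]
    omega

end Conclusion

end Cfsg.Agent.Lib.FT
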