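import Cfsg.Agent.Lib.OddLocal.Rank3J

/-!
An eigenvalue chain lemma for a `p`-element acting on an abelian `p`-group normalized by a `p'`-element.
-/

set_option autoImplicit false
set_option linter.unusedSectionVars false
set_option linter.style.haveILetI false

namespace Cfsg.Agent.Lib.FT

section Chain

variable {V : Type*} [AddCommGroup V]

theorem bg4_endMul (f g : AddMonoid.End V) (x : V) : (f * g) x = f (g x) := rfl

theorem bg4_endOne (x : V) : (1 : AddMonoid.End V) x = x := rfl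

theorem bg4_endAdd (f g : AddMonoid.End V) (x : V) : (f + g) x = f x + g x := rfl

theorem bg4_endSub (f g : AddMonoid.End V) (x : V) : (f - g) x = f x - g x := rfl

theorem bg4_endNat (n : ℕ) (x : V) : (n : AddMonoid.End V) x = n • x := rfl

theorem bg4_endInt (n : ℤ) (x : V) : (n : AddMonoid.End V) x = n • x := rfl

/-- Nakayama for a nilpotent endomorphism. -/
theorem nak_of_nilp (T : AddMonoid.End V) (k : ℕ) (hk : T ^ k = 0) (L H : AddSubgroup V)
    (hTH : ∀ h ∈ H, T h ∈ H) (hL : ∀ x ∈ L, ∃ h ∈ H, ∃ x' ∈ L, x = h + T x') : L ≤ H := by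
  have hTjH : ∀ j : ℕ, ∀ h ∈ H, (T ^ j) h ∈ H := by
    intro j
    induction j with
    | zero => intro h hh; simpa using hh
    | succ j ih =>
      intro h hh
      rw [pow_succ, bg4_endMul]
      exact ih _ (hTH h hh)
  have key : ∀ j : ℕ, ∀ x ∈ L, ∃ h ∈ H, ∃ x' ∈ L, x = h + (T ^ j) x' := by
    intro j
    induction j with
    | zero =>
      intro x hx
      exact ⟨0, H.zero_mem, x, hx, by simp⟩
    | succ j ih =>
      intro x hx
      obtain ⟨h, hh, x', hx', e⟩ := ih x hx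
      obtain ⟨h', hh', x'', hx'', e'⟩ := hL x' hx'
      refine ⟨h + (T ^ j) h', H.add_mem hh (hTjH j h' hh'), x'', hx'', ?_⟩
      rw [e, e', map_add, add_assoc, pow_succ, bg4_endMul]
  intro x hx
  obtain ⟨h, hh, x', _, e⟩ := key k x hx
  rw [hk] at e
  have : x = h := by simpa using e
  rwa [this]

/-- The power expansion of `θ ^ m` around `1`. -/
theorem pow_expand (θ : AddMonoid.End V) (m : ℕ) :
    ∃ u : AddMonoid.End V, Commute u θ ∧ θ ^ m - 1 = (m : AddMonoid.End V) * (θ - 1) + (θ - 1) * (θ - 1) * u := by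
  induction m with
  | zero => exact ⟨0, Commute.zero_left _, by simp⟩
  | succ m ih =>
    obtain ⟨u, hu, e⟩ := ih
    have hc1 : Commute u (θ - 1) := hu.sub_right (Commute.one_right _)
    refine ⟨(m : AddMonoid.End V) + u + (θ - 1) * u, ?_, ?_⟩
    · apply Commute.add_left
      · apply Commute.add_left
        · exact Nat.cast_commute m θ
        · exact hu
      · apply Commute.mul_left
        · exact (Commute.refl θ).sub_left (Commute.one_left _)
        · exact hu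
    · have h1 : θ ^ (m + 1) - 1 = θ * (θ ^ m - 1) + (θ - 1) := by
        rw [pow_succ']
        noncomm_ring
      have h2 : θ = (θ - 1) + 1 := by abel
      rw [h1, e]
      push_cast
      generalize hN : θ - 1 = N at *
      rw [h2]
      have hmN : N * (m : AddMonoid.End V) = m * N := (Nat.cast_commute m N).symm.eq
      have : (N + 1) * ((m : AddMonoid.End V) * N + N * N * u) + N =
          ((m : AddMonoid.End V) + 1) * N + N * N * ((m : AddMonoid.End V) + u + N * u) := by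
        have e1 : N * N * (m : AddMonoid.End V) = N * ((m : AddMonoid.End V) * N) := by rw [mul_assoc, hmN]
        simp only [add_mul, mul_add, one_mul, mul_one, ← mul_assoc, e1, hmN]
        abel
      exact this

variable (p : ℕ) [hpf : Fact p.Prime]

/-- Nilpotency of `θ - 1`. -/
theorem sub_one_nilp (hodd : p ≠ 2) (θ : AddMonoid.End V) (hθ : θ ^ p = 1) (e : ℕ) (he : ((p : AddMonoid.End V)) ^ e = 0) :
    (θ - 1) ^ (p * e) = 0 := by
  obtain ⟨r, hr⟩ := (Commute.one_right θ).neg_right.exists_add_pow_prime_eq hpf.out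
  have hpodd : Odd p := hpf.out.odd_of_ne_two hodd
  rw [← sub_eq_add_neg, hpodd.neg_pow, one_pow, hθ, add_neg_cancel, zero_add] at hr
  rw [pow_mul, hr]
  have hc : Commute ((p : AddMonoid.End V)) (θ * -1 * r) := Nat.cast_commute _ _
  have : (↑p * θ * -1 * r : AddMonoid.End V) = p * (θ * -1 * r) := by
    simp only [mul_assoc]
  rw [this, hc.mul_pow, he, zero_mul]

/-- Nilpotency of a degree two polynomial. -/
theorem phi_nilp (φ : AddMonoid.End V) (hφ : ∀ x : V, p • x = 0 → φ x = 0) (e : ℕ) (he : ∀ x : V, p ^ e • x = 0) :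
    φ ^ e = 0 := by
  have key : ∀ k : ℕ, ∀ x : V, p ^ k • x = 0 → (φ ^ k) x = 0 := by
    intro k
    induction k with
    | zero =>
      intro x hx
      simpa using hx
    | succ k ih =>
      intro x hx
      rw [pow_succ', bg4_endMul]
      apply hφ
      have h1 : (φ ^ k) (p • x) = 0 := ih _ (by rwa [smul_smul, ← pow_succ])
      rwa [map_nsmul] at h1
  ext x
  exact key e x (he x)

/-- The eigenvalue of a section. -/
theorem section_eigen (α φ : AddMonoid.End V) (ν ζ : ℤ) (hφdef : φ = (α - (ν : AddMonoid.End V)) * (α - (ζ : AddMonoid.End V)))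
    (e : ℕ) (hφe : φ ^ e = 0) (L H : AddSubgroup V) (hHL : H ≤ L)
    (hpL : ∀ x ∈ L, p • x ∈ H) (hαL : ∀ x ∈ L, α x ∈ L) (m ρ : ℤ) (hm : (m : ZMod p) ≠ 0)
    (hmα : ∀ x ∈ L, m • α x - ρ • x ∈ H) (hne : ¬ L ≤ H) :
    ((ρ : ZMod p) - m * ν) * ((ρ : ZMod p) - m * ζ) = 0 := by
  have hinv : ∀ c : ℤ, (c : ZMod p) ≠ 0 → ∃ c' k : ℤ, c' * c = 1 + p * k := by
    intro c hc
    refine ⟨(((c : ZMod p)⁻¹).val : ℤ), ?_⟩
    have h1 : (((((c : ZMod p)⁻¹).val : ℤ) * c - 1 : ℤ) : ZMod p) = 0 := by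
      push_cast
      rw [ZMod.natCast_zmod_val, inv_mul_cancel₀ hc, sub_self]
    rw [ZMod.intCast_zmod_eq_zero_iff_dvd] at h1
    obtain ⟨k, hk⟩ := h1
    exact ⟨k, by linarith⟩
  have hpzL : ∀ (k : ℤ), ∀ x ∈ L, (p * k) • x ∈ H := by
    intro k x hx
    rw [mul_comm, mul_smul, natCast_zsmul]
    exact H.zsmul_mem (hpL x hx) k
  obtain ⟨m', k, hm'⟩ := hinv m hm
  set lam : ℤ := m' * ρ with hlam
  have hlamL : ∀ x ∈ L, α x - lam • x ∈ H := by
    intro x hx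
    have h1 : α x - lam • x = m' • (m • α x - ρ • x) - (p * k) • α x := by
      rw [smul_sub, smul_smul, smul_smul, hm', add_smul, one_smul]
      abel
    rw [h1]
    exact H.sub_mem (H.zsmul_mem (hmα x hx) _) (hpzL k _ (hαL x hx))
  have hαH : ∀ h ∈ H, α h ∈ H := by
    intro h hh
    have h1 := hlamL h (hHL hh)
    have h2 : α h = (α h - lam • h) + lam • h := by abel
    rw [h2]
    exact H.add_mem h1 (H.zsmul_mem hh _)
  have hφapp : ∀ x, φ x = α (α x) - ν • α x - ζ • α x + (ν * ζ) • x := by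
    intro x
    rw [hφdef, bg4_endMul, bg4_endSub, bg4_endSub, bg4_endInt, bg4_endInt, map_sub, map_zsmul]
    module
  have hzero : ((lam : ZMod p) - ν) * ((lam : ZMod p) - ζ) = 0 := by
    by_contra hc
    have hc' : (((lam - ν) * (lam - ζ) : ℤ) : ZMod p) ≠ 0 := by
      push_cast
      exact hc
    obtain ⟨c', k', hcc⟩ := hinv _ hc'
    apply hne
    apply nak_of_nilp φ e hφe L H
    · intro h hh
      rw [hφapp]
      have h1 := hαH _ hh
      have h2 : α (α h) ∈ H := hαH _ h1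
      exact H.add_mem (H.sub_mem (H.sub_mem h2 (H.zsmul_mem h1 _)) (H.zsmul_mem h1 _)) (H.zsmul_mem hh _)
    · intro x hx
      obtain ⟨h₃, hh₃H, h5⟩ : ∃ h₃ ∈ H, φ x = h₃ + ((lam - ν) * (lam - ζ)) • x := by
        have hh₁H : α x - lam • x ∈ H := hlamL x hx
        have hh₁α : α (α x - lam • x) = α (α x) - lam • α x := by
          rw [map_sub, map_zsmul]
        refine ⟨α (α x - lam • x) - ν • (α x - lam • x) + (lam - ζ) • (α x - lam • x),
          H.add_mem (H.sub_mem (hαH _ hh₁H) (H.zsmul_mem hh₁H _)) (H.zsmul_mem hh₁H _), ?_⟩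
        rw [hφapp, hh₁α]
        module
      have h6 : c' • (((lam - ν) * (lam - ζ)) • x) = x + (p * k') • x := by
        rw [smul_smul, hcc, add_smul, one_smul]
      refine ⟨-(c' • h₃) - (p * k') • x, H.sub_mem (H.neg_mem (H.zsmul_mem hh₃H _)) (hpzL k' x hx), c' • x,
        L.zsmul_mem hx _, ?_⟩
      rw [map_zsmul, h5, smul_add, h6]
      abel
  have hmm' : (m' : ZMod p) * m = 1 := by
    have := congrArg (fun z : ℤ => (z : ZMod p)) hm'
    simpa using this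
  have hmlam : (m : ZMod p) * lam = ρ := by
    rw [hlam]
    push_cast
    rw [← mul_assoc, mul_comm (m : ZMod p), hmm', one_mul]
  rw [← hmlam]
  have : ((m : ZMod p) * lam - m * ν) * ((m : ZMod p) * lam - m * ζ) =
      (m : ZMod p) * m * (((lam : ZMod p) - ν) * ((lam : ZMod p) - ζ)) := by ring
  rw [this, hzero, mul_zero]

/-- **The chain lemma**. -/
theorem chain_lemma (hodd : p ≠ 2) (α θ : AddMonoid.End V) (m : ℕ) (ν ζ : ℤ) (e : ℕ) (he : ∀ x : V, p ^ e • x = 0)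
    (hθ : θ ^ p = 1) (hαθ : α * θ = θ ^ m * α)
    (hφ : ∀ x : V, p • x = 0 → ((α - (ν : AddMonoid.End V)) * (α - (ζ : AddMonoid.End V))) x = 0)
    (hm0 : (m : ZMod p) ≠ 0) (hm1 : (m : ZMod p) ≠ 1) (hm2 : (m : ZMod p) ^ 2 ≠ 1) (hν : (ν : ZMod p) ≠ 0)
    (hζ : (ζ : ZMod p) ≠ 0) : (θ - 1) * (θ - 1) = 0 := by
  by_contra hNN
  set N := θ - 1 with hN
  set φ := (α - (ν : AddMonoid.End V)) * (α - (ζ : AddMonoid.End V)) with hφdef
  have hpe : ((p : AddMonoid.End V)) ^ e = 0 := by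
    ext x
    rw [← Nat.cast_pow]
    exact he x
  have hNnil : N ^ (p * e) = 0 := sub_one_nilp p hodd θ hθ e hpe
  have hφnil : φ ^ e = 0 := phi_nilp p φ hφ e he
  obtain ⟨u, hu, hmexp⟩ := pow_expand θ m
  have hu' : Commute u N := hu.sub_right (Commute.one_right _)
  have huN : ∀ x, u (N x) = N (u x) := fun x => congrFun (congrArg DFunLike.coe hu'.eq) x
  -- the key identity
  have hstar : ∀ x, α (N x) = m • N (α x) + N (N (u (α x))) := by
    intro x
    have h1 : α * N = (θ ^ m - 1) * α := by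
      rw [hN, mul_sub, hαθ, sub_mul, mul_one, one_mul]
    have h2 := congrFun (congrArg DFunLike.coe h1) x
    rw [hmexp] at h2
    exact h2
  set V₁ : AddSubgroup V := N.range with hV₁def
  set V₂ : AddSubgroup V := (N * N).range with hV₂def
  set V₃ : AddSubgroup V := (N * N * N).range with hV₃def
  have hV₁ : ∀ v, N v ∈ V₁ := fun v => ⟨v, rfl⟩
  have hV₂ : ∀ v, N (N v) ∈ V₂ := fun v => ⟨v, rfl⟩
  have hV₃ : ∀ v, N (N (N v)) ∈ V₃ := fun v => ⟨v, rfl⟩
  have hV₁m : ∀ x ∈ V₁, ∃ v, x = N v := fun x hx => by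
    obtain ⟨v, hv⟩ := hx
    exact ⟨v, hv.symm⟩
  have hV₂m : ∀ x ∈ V₂, ∃ v, x = N (N v) := fun x hx => by
    obtain ⟨v, hv⟩ := hx
    exact ⟨v, hv.symm⟩
  have hV₃m : ∀ x ∈ V₃, ∃ v, x = N (N (N v)) := fun x hx => by
    obtain ⟨v, hv⟩ := hx
    exact ⟨v, hv.symm⟩
  have hαV₁ : ∀ x ∈ V₁, α x ∈ V₁ := by
    intro x hx
    obtain ⟨v, rfl⟩ := hV₁m x hx
    rw [hstar]
    exact V₁.add_mem (V₁.nsmul_mem (hV₁ _) _) (hV₁ _)
  have hαV₂ : ∀ x ∈ V₂, α x ∈ V₂ := by
    intro x hx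
    obtain ⟨v, rfl⟩ := hV₂m x hx
    rw [hstar]
    obtain ⟨w, hw⟩ := hV₁m _ (hαV₁ (N v) (hV₁ v))
    rw [hw, huN]
    exact V₂.add_mem (V₂.nsmul_mem (hV₂ _) _) (hV₂ _)
  have hαV₃ : ∀ x ∈ V₃, α x ∈ V₃ := by
    intro x hx
    obtain ⟨v, rfl⟩ := hV₃m x hx
    rw [hstar]
    obtain ⟨w, hw⟩ := hV₂m _ (hαV₂ (N (N v)) (hV₂ v))
    rw [hw, huN, huN]
    exact V₃.add_mem (V₃.nsmul_mem (hV₃ _) _) (hV₃ _)
  set P : AddMonoid.End V := (p : AddMonoid.End V) with hP
  have hPapp : ∀ x, P x = p • x := fun x => rfl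
  set U : AddSubgroup V := V₂.map P ⊔ V₃ with hU
  have hPV₂U : ∀ x ∈ V₂, P x ∈ U := fun x hx => (le_sup_left : V₂.map P ≤ U) ⟨x, hx, rfl⟩
  have hV₃U : ∀ x ∈ V₃, x ∈ U := fun x hx => (le_sup_right : V₃ ≤ U) hx
  have hmapP : ∀ x ∈ V₂.map P, ∃ y ∈ V₂, x = P y := fun x hx => by
    obtain ⟨y, hy, hy'⟩ := hx
    exact ⟨y, hy, hy'.symm⟩
  have hαU : ∀ x ∈ U, α x ∈ U := by
    intro x hx
    obtain ⟨x', hx', z, hz, rfl⟩ := AddSubgroup.mem_sup.1 hx
    obtain ⟨y, hy, rfl⟩ := hmapP x' hx'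
    rw [map_add, hPapp, map_nsmul, ← hPapp]
    exact U.add_mem (hPV₂U _ (hαV₂ y hy)) (hV₃U _ (hαV₃ z hz))
  have hUne : ¬ V₂ ≤ U := by
    intro h
    have h1 : V₂ ≤ V₂.map P := by
      apply nak_of_nilp N (p * e) hNnil V₂ (V₂.map P)
      · intro x hx
        obtain ⟨y, hy, rfl⟩ := hmapP x hx
        obtain ⟨v, rfl⟩ := hV₂m y hy
        refine ⟨N (N (N v)), ?_, ?_⟩
        · exact hV₂ (N v)
        · show p • N (N (N v)) = N (p • N (N v))
          rw [map_nsmul]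
      · intro x hx
        obtain ⟨a, ha, b, hb, e'⟩ := AddSubgroup.mem_sup.1 (h hx)
        obtain ⟨w, rfl⟩ := hV₃m b hb
        exact ⟨a, ha, N (N w), hV₂ w, e'.symm⟩
    have h2 : V₂ ≤ ⊥ := by
      apply nak_of_nilp P e hpe V₂ ⊥
      · intro h hh
        rw [AddSubgroup.mem_bot] at hh ⊢
        rw [hh, map_zero]
      · intro x hx
        obtain ⟨y, hy, rfl⟩ := hmapP x (h1 hx)
        exact ⟨0, AddSubgroup.zero_mem _, y, hy, by rw [zero_add]⟩
    apply hNN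
    ext x
    exact AddSubgroup.mem_bot.1 (h2 (hV₂ x))
  have hsubU : ∀ c : ℤ, ∀ h ∈ U, (α - (c : AddMonoid.End V)) h ∈ U := by
    intro c h hh
    rw [bg4_endSub, bg4_endInt]
    exact U.sub_mem (hαU h hh) (U.zsmul_mem hh _)
  obtain ⟨ρ, hρ, hne₂⟩ : ∃ ρ : ℤ, (ρ = ν ∨ ρ = ζ) ∧ ¬ V₂ ≤ U ⊔ V₂.map (α - (ρ : AddMonoid.End V)) := by
    by_contra hcon
    push Not at hcon
    apply hUne
    have h1 := hcon ν (Or.inl rfl)
    have h2 := hcon ζ (Or.inr rfl)
    apply nak_of_nilp φ e hφnil V₂ U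
    · intro h hh
      rw [hφdef, bg4_endMul]
      exact hsubU _ _ (hsubU _ _ hh)
    · intro x hx
      have hmapα : ∀ (c : ℤ), ∀ x ∈ V₂.map (α - (c : AddMonoid.End V)), ∃ y ∈ V₂, x = (α - (c : AddMonoid.End V)) y :=
        fun c x hx => by
          obtain ⟨y, hy, hy'⟩ := hx
          exact ⟨y, hy, hy'.symm⟩
      obtain ⟨u₁, hu₁, a₁, ha₁, e₁⟩ := AddSubgroup.mem_sup.1 (h1 hx)
      obtain ⟨x₁, hx₁, rfl⟩ := hmapα _ a₁ ha₁
      obtain ⟨u₂, hu₂, a₂, ha₂, e₂⟩ := AddSubgroup.mem_sup.1 (h2 hx₁)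
      obtain ⟨x₂, hx₂, rfl⟩ := hmapα _ a₂ ha₂
      refine ⟨u₁ + (α - (ν : AddMonoid.End V)) u₂, U.add_mem hu₁ (hsubU _ _ hu₂), x₂, hx₂, ?_⟩
      rw [← e₁, ← e₂, map_add, add_assoc, hφdef, bg4_endMul]
  set H₂ : AddSubgroup V := U ⊔ V₂.map (α - (ρ : AddMonoid.End V)) with hH₂
  have hUH₂ : ∀ x ∈ U, x ∈ H₂ := fun x hx => (le_sup_left : U ≤ H₂) hx
  have hαρ : ∀ x ∈ V₂, (α - (ρ : AddMonoid.End V)) x ∈ H₂ := fun x hx =>
    (le_sup_right : V₂.map _ ≤ H₂) ⟨x, hx, rfl⟩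
  set H₁ : AddSubgroup V := V₁ ⊓ H₂.comap N with hH₁
  set H₀ : AddSubgroup V := H₁.comap N with hH₀
  have hne₁ : ¬ V₁ ≤ H₁ := by
    intro h
    apply hne₂
    intro x hx
    obtain ⟨v, rfl⟩ := hV₂m x hx
    exact (AddSubgroup.mem_inf.1 (h (hV₁ v))).2
  have hp₁ : ∀ x ∈ V₁, p • x ∈ H₁ := by
    intro x hx
    obtain ⟨v, rfl⟩ := hV₁m x hx
    refine AddSubgroup.mem_inf.2 ⟨V₁.nsmul_mem (hV₁ _) _, ?_⟩
    show N (p • N v) ∈ H₂
    rw [map_nsmul]
    exact hUH₂ _ (hPV₂U _ (hV₂ v))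
  have hmα₁ : ∀ x ∈ V₁, (m : ℤ) • α x - ρ • x ∈ H₁ := by
    intro x hx
    refine AddSubgroup.mem_inf.2 ⟨V₁.sub_mem (V₁.zsmul_mem (hαV₁ x hx) _) (V₁.zsmul_mem hx _), ?_⟩
    show N ((m : ℤ) • α x - ρ • x) ∈ H₂
    obtain ⟨v, rfl⟩ := hV₁m x hx
    obtain ⟨w, hw⟩ := hV₁m _ (hαV₁ _ (hV₁ v))
    have h1 := hstar (N v)
    rw [hw, huN] at h1
    have h2 : N ((m : ℤ) • N w - ρ • N v) = (α - (ρ : AddMonoid.End V)) (N (N v)) - N (N (N (u w))) := by
      have e3 : (α - (ρ : AddMonoid.End V)) (N (N v)) = α (N (N v)) - ρ • N (N v) := rfl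
      rw [e3, h1, map_sub, map_zsmul, map_zsmul, natCast_zsmul]
      abel
    rw [hw, h2]
    exact H₂.sub_mem (hαρ _ (hV₂ v)) (hUH₂ _ (hV₃U _ (hV₃ _)))
  have hV₂H₁ : ∀ x ∈ V₂, x ∈ H₁ := by
    intro x hx
    obtain ⟨v, rfl⟩ := hV₂m x hx
    refine AddSubgroup.mem_inf.2 ⟨hV₁ (N v), ?_⟩
    exact hUH₂ _ (hV₃U _ (hV₃ _))
  have hH₁V₁ : H₁ ≤ V₁ := inf_le_left
  have key1 := section_eigen p α φ ν ζ hφdef e hφnil V₁ H₁ hH₁V₁ hp₁ hαV₁ (m : ℤ) ρ (by simpa using hm0) hmα₁ hne₁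
  have hne₀ : ¬ (⊤ : AddSubgroup V) ≤ H₀ := by
    intro h
    apply hne₁
    intro x hx
    obtain ⟨v, rfl⟩ := hV₁m x hx
    exact h (AddSubgroup.mem_top v)
  have hp₀ : ∀ x ∈ (⊤ : AddSubgroup V), p • x ∈ H₀ := by
    intro x _
    show N (p • x) ∈ H₁
    rw [map_nsmul]
    exact hp₁ _ (hV₁ x)
  have hmα₀ : ∀ x ∈ (⊤ : AddSubgroup V), ((m : ℤ) ^ 2) • α x - ρ • x ∈ H₀ := by
    intro x _
    show N (((m : ℤ) ^ 2) • α x - ρ • x) ∈ H₁
    have h1 := hmα₁ _ (hV₁ x)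
    have h2 := hstar x
    have h3 : N (((m : ℤ) ^ 2) • α x - ρ • x) = ((m : ℤ) • α (N x) - ρ • N x) - (m : ℤ) • N (N (u (α x))) := by
      rw [h2, map_sub, map_zsmul, map_zsmul, smul_add, natCast_zsmul, smul_smul, natCast_zsmul, pow_two]
      norm_cast
      abel
    rw [h3]
    exact H₁.sub_mem h1 (H₁.zsmul_mem (hV₂H₁ _ (hV₂ _)) _)
  have key0 := section_eigen p α φ ν ζ hφdef e hφnil ⊤ H₀ le_top hp₀ (fun _ _ => AddSubgroup.mem_top _)
    ((m : ℤ) ^ 2) ρ (by simpa using pow_ne_zero 2 hm0) hmα₀ hne₀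
  push_cast at key1 key0
  set M := (m : ZMod p) with hM
  set n := (ν : ZMod p) with hn
  set z := (ζ : ZMod p) with hz
  set r := (ρ : ZMod p) with hr
  have hr' : r = n ∨ r = z := by
    rcases hρ with h | h
    · exact Or.inl (by rw [hr, hn, h])
    · exact Or.inr (by rw [hr, hz, h])
  have hM1 : ∀ a : ZMod p, a ≠ 0 → a = M * a → False := by
    intro a ha h
    apply hm1
    have : (M - 1) * a = 0 := by
      rw [sub_mul, one_mul, ← h, sub_self]
    exact sub_eq_zero.1 ((mul_eq_zero.1 this).resolve_right ha)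
  have hM2 : ∀ a : ZMod p, a ≠ 0 → a = M ^ 2 * a → False := by
    intro a ha h
    apply hm2
    have : (M ^ 2 - 1) * a = 0 := by
      rw [sub_mul, one_mul, ← h, sub_self]
    exact sub_eq_zero.1 ((mul_eq_zero.1 this).resolve_right ha)
  have hlast : ∀ a b : ZMod p, a ≠ 0 → b ≠ 0 → (a - M * a) * (a - M * b) = 0 → (a - M ^ 2 * a) * (a - M ^ 2 * b) = 0 → False := by
    intro a b ha hb h1 h2
    rcases mul_eq_zero.1 h1 with h1 | h1
    · exact hM1 a ha (sub_eq_zero.1 h1)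
    rcases mul_eq_zero.1 h2 with h2 | h2
    · exact hM2 a ha (sub_eq_zero.1 h2)
    have e1 := sub_eq_zero.1 h1
    have e2 := sub_eq_zero.1 h2
    apply hM1 (M * b) (mul_ne_zero hm0 hb)
    calc M * b = a := e1.symm
      _ = M ^ 2 * b := e2
      _ = M * (M * b) := by ring
  rcases hr' with h | h
  · rw [h] at key1 key0
    exact hlast n z hν hζ key1 key0
  · rw [h] at key1 key0
    exact hlast z n hζ hν (by rw [mul_comm]; exact key1) (by rw [mul_comm]; exact key0)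

/-- Consequences of the chain lemma. -/
theorem chain_conseq (α θ : AddMonoid.End V) (m : ℕ) (hθ : θ ^ p = 1) (hαθ : α * θ = θ ^ m * α)
    (hNN : (θ - 1) * (θ - 1) = 0) :
    (∀ x, p • (θ - 1) x = 0) ∧ ∀ x, α ((θ - 1) x) = m • (θ - 1) (α x) := by
  constructor
  · intro x
    obtain ⟨u, _, hexp⟩ := pow_expand θ p
    rw [hθ, sub_self, hNN, zero_mul, add_zero] at hexp
    exact (congrFun (congrArg DFunLike.coe hexp) x).symm
  · intro x
    obtain ⟨u, _, hexp⟩ := pow_expand θ m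
    rw [hNN, zero_mul, add_zero] at hexp
    have h1 : α * (θ - 1) = (θ ^ m - 1) * α := by
      rw [mul_sub, hαθ, sub_mul, mul_one, one_mul]
    rw [hexp] at h1
    exact congrFun (congrArg DFunLike.coe h1) x

end Chain

section ChainMul

variable {Q : Type*} [CommGroup Q] [Finite Q] (p : ℕ) [hpf : Fact p.Prime]

/-- The multiplicative chain lemma. -/
theorem chain_mul (hodd : p ≠ 2) (hQ : IsPGroup p Q) (α θ : Q →* Q) (m ν ζ : ℕ)
    (hθ : ∀ x, θ^[p] x = x) (hαθ : ∀ x, α (θ x) = θ^[m] (α x))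
    (hφ : ∀ x, x ^ p = 1 → α (α x) * x ^ (ν * ζ) = (α x) ^ (ν + ζ))
    (hm0 : (m : ZMod p) ≠ 0) (hm1 : (m : ZMod p) ≠ 1) (hm2 : (m : ZMod p) ^ 2 ≠ 1) (hν : (ν : ZMod p) ≠ 0)
    (hζ : (ζ : ZMod p) ≠ 0) :
    (∀ x, θ (θ x) * x = (θ x) ^ 2) ∧ (∀ x, (θ x) ^ p = x ^ p) ∧
      ∀ (x : Q) (μ : ℕ), α x = x ^ μ → θ x = x ∨
        (((m * μ : ℕ) : ZMod p) - ν) * (((m * μ : ℕ) : ZMod p) - ζ) = 0 := by
  let A : AddMonoid.End (Additive Q) := MonoidHom.toAdditive α
  let Θ : AddMonoid.End (Additive Q) := MonoidHom.toAdditive θ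
  have hAap : ∀ x : Q, A (Additive.ofMul x) = Additive.ofMul (α x) := fun _ => rfl
  have hΘap : ∀ x : Q, Θ (Additive.ofMul x) = Additive.ofMul (θ x) := fun _ => rfl
  have hΘpow : ∀ (k : ℕ) (x : Q), (Θ ^ k) (Additive.ofMul x) = Additive.ofMul (θ^[k] x) := by
    intro k
    induction k with
    | zero => intro x; rfl
    | succ k ih =>
      intro x
      rw [pow_succ, bg4_endMul, hΘap, ih, Function.iterate_succ_apply]
  obtain ⟨e, he⟩ := IsPGroup.iff_card.1 hQ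
  have hpe : ∀ x : Additive Q, p ^ e • x = 0 := by
    intro x
    have h1 : (Additive.toMul x) ^ (p ^ e) = 1 := by
      rw [← he]
      exact pow_card_eq_one'
    exact congrArg Additive.ofMul h1
  have hΘp : Θ ^ p = 1 := by
    ext x
    have := hΘpow p (Additive.toMul x)
    rw [hθ] at this
    exact this
  have hAΘ : A * Θ = Θ ^ m * A := by
    ext x
    have h1 := hΘpow m (α (Additive.toMul x))
    rw [← hαθ] at h1
    exact h1.symm
  have hφ' : ∀ (x : Additive Q), p • x = 0 →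
      ((A - (((ν : ℤ)) : AddMonoid.End (Additive Q))) * (A - (((ζ : ℤ)) : AddMonoid.End (Additive Q)))) x = 0 := by
    intro x hx
    have h1 : (Additive.toMul x) ^ p = 1 := congrArg Additive.toMul hx
    have h2 := hφ _ h1
    have h3 : A (A x) + (ν * ζ) • x = (ν + ζ) • A x := congrArg Additive.ofMul h2
    have e3 : ((A - (((ν : ℤ)) : AddMonoid.End (Additive Q))) * (A - (((ζ : ℤ)) : AddMonoid.End (Additive Q)))) x =
        A (A x) - (ν : ℤ) • A x - (ζ : ℤ) • A x + ((ν : ℤ) * (ζ : ℤ)) • x := by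
      rw [bg4_endMul, bg4_endSub, bg4_endSub, bg4_endInt, bg4_endInt, map_sub, map_zsmul]
      module
    rw [e3]
    have h4 : A (A x) = (ν + ζ) • A x - (ν * ζ) • x := eq_sub_of_add_eq h3
    rw [h4]
    simp only [natCast_zsmul, ← Nat.cast_mul, add_smul]
    abel
  have hNN := chain_lemma p hodd A Θ m (ν : ℤ) (ζ : ℤ) e hpe hΘp hAΘ hφ' hm0 hm1 hm2 (by simpa using hν) (by simpa using hζ)
  obtain ⟨hpN, hαN⟩ := chain_conseq p A Θ m hΘp hAΘ hNN
  have hNapp : ∀ x : Additive Q, (Θ - 1) x = Θ x - x := fun _ => rfl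
  refine ⟨?_, ?_, ?_⟩
  · intro x
    have h1 := congrFun (congrArg DFunLike.coe hNN) (Additive.ofMul x)
    have h2 : ((Θ - 1) * (Θ - 1)) (Additive.ofMul x) = Θ (Θ (Additive.ofMul x)) - Θ (Additive.ofMul x) - (Θ (Additive.ofMul x) - Additive.ofMul x) := by
      rw [bg4_endMul, hNapp, hNapp, map_sub]
    rw [h2] at h1
    have h3 : Θ (Θ (Additive.ofMul x)) + Additive.ofMul x = 2 • Θ (Additive.ofMul x) := by
      have h5 : (0 : AddMonoid.End (Additive Q)) (Additive.ofMul x) = 0 := rfl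
      rw [h5] at h1
      rw [two_smul]
      have h6 : Θ (Θ (Additive.ofMul x)) + Additive.ofMul x - (Θ (Additive.ofMul x) + Θ (Additive.ofMul x)) = 0 := by
        rw [← h1]
        abel
      exact sub_eq_zero.1 h6
    exact congrArg Additive.toMul h3
  · intro x
    have h1 := hpN (Additive.ofMul x)
    rw [hNapp, smul_sub, sub_eq_zero] at h1
    exact congrArg Additive.toMul h1
  · intro x μ hx
    by_cases hw : (Θ - 1) (Additive.ofMul x) = 0
    · left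
      rw [hNapp, sub_eq_zero] at hw
      exact congrArg Additive.toMul hw
    right
    set w := (Θ - 1) (Additive.ofMul x) with hwdef
    have hpw : p • w = 0 := hpN _
    have hAx : A (Additive.ofMul x) = μ • Additive.ofMul x := congrArg Additive.ofMul hx
    have hAw : A w = (m * μ) • w := by
      rw [hwdef, hαN, hAx, map_nsmul, smul_smul]
    have h3 := hφ' w hpw
    have e3 : ((A - (((ν : ℤ)) : AddMonoid.End (Additive Q))) * (A - (((ζ : ℤ)) : AddMonoid.End (Additive Q)))) w =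
        A (A w) - (ν : ℤ) • A w - (ζ : ℤ) • A w + ((ν : ℤ) * (ζ : ℤ)) • w := by
      rw [bg4_endMul, bg4_endSub, bg4_endSub, bg4_endInt, bg4_endInt, map_sub, map_zsmul]
      module
    rw [e3] at h3
    have hAAw : A (A w) = ((m * μ : ℕ) * (m * μ : ℕ)) • w := by
      rw [hAw, map_nsmul, hAw, smul_smul]
    have h4 : ((((m * μ : ℕ) : ℤ) - ν) * (((m * μ : ℕ) : ℤ) - ζ)) • w = 0 := by
      rw [← h3, hAAw, hAw]
      simp only [← natCast_zsmul w, smul_smul, ← sub_smul, ← add_smul]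
      congr 1
      push_cast
      ring
    have hord : addOrderOf w = p := addOrderOf_eq_prime hpw hw
    have h5 := addOrderOf_dvd_iff_zsmul_eq_zero.2 h4
    rw [hord] at h5
    have h6 := (ZMod.intCast_zmod_eq_zero_iff_dvd _ p).2 h5
    push_cast at h6 ⊢
    exact h6

end ChainMul

end Cfsg.Agent.Lib.FT
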