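import Cfsg.Agent.Lib.FT.BG4a

/-!
Rank two `p`-groups under an odd coprime action: the case of a non central `Ω₁(Z₂)` of order `p ^ 2`.
-/

set_option autoImplicit false
set_option linter.unusedSectionVars false
set_option linter.style.haveILetI false

namespace Cfsg.Agent.Lib.FT

open Subgroup Cfsg Cfsg.Agent.Lib.Basic Cfsg.Agent.Lib.OddLocal Cfsg.Agent.Lib.Coprime

open scoped commutatorElement

universe u

variable {G : Type u} [Group G] [Finite G]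

theorem ab_of_surj (T : Type*) [Group T] : Function.Surjective (Abelianization.of : T →* Abelianization T) := by
  intro x
  exact Quot.exists_rep x |>.imp fun _ h => h

/-- The conjugation action on the abelianization. -/
noncomputable def abHomOf (T : Subgroup G) (g : ↥(normalizer (T : Set G))) : Abelianization ↥T →* Abelianization ↥T :=
  Abelianization.map (conjHomOf T (normalizer (T : Set G)) le_rfl g).toMonoidHom

theorem abHomOf_of (T : Subgroup G) (g : ↥(normalizer (T : Set G))) (t : ↥T) :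
    abHomOf T g (Abelianization.of t) = Abelianization.of (conjHomOf T (normalizer (T : Set G)) le_rfl g t) := rfl

theorem abHomOf_one (T : Subgroup G) (x : Abelianization ↥T) : abHomOf T 1 x = x := by
  obtain ⟨t, rfl⟩ := ab_of_surj _ x
  rw [abHomOf_of, map_one]
  rfl

theorem abHomOf_mul (T : Subgroup G) (g h : ↥(normalizer (T : Set G))) (x : Abelianization ↥T) :
    abHomOf T (g * h) x = abHomOf T g (abHomOf T h x) := by
  obtain ⟨t, rfl⟩ := ab_of_surj _ x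
  rw [abHomOf_of, abHomOf_of, abHomOf_of, map_mul]
  rfl

theorem abHomOf_pow (T : Subgroup G) (g : ↥(normalizer (T : Set G))) (k : ℕ) (x : Abelianization ↥T) :
    abHomOf T (g ^ k) x = (abHomOf T g)^[k] x := by
  induction k generalizing x with
  | zero => rw [pow_zero, abHomOf_one]; rfl
  | succ k ih => rw [pow_succ, abHomOf_mul, ih, Function.iterate_succ_apply]

theorem abHomOf_inner (T : Subgroup G) (g : ↥(normalizer (T : Set G))) (hg : (g : G) ∈ T) (x : Abelianization ↥T) :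
    abHomOf T g x = x := by
  obtain ⟨t, rfl⟩ := ab_of_surj _ x
  rw [abHomOf_of]
  have h1 : conjHomOf T (normalizer (T : Set G)) le_rfl g t = ⟨(g : G), hg⟩ * t * (⟨(g : G), hg⟩ : ↥T)⁻¹ := rfl
  rw [h1, map_mul, map_mul, map_inv]
  rw [mul_comm, ← mul_assoc, inv_mul_cancel, one_mul]

theorem ab_of_eq_iff {T : Type*} [Group T] {a b : T} :
    (Abelianization.of a : Abelianization T) = Abelianization.of b ↔ a * b⁻¹ ∈ commutator T := by
  rw [← Abelianization.ker_of, MonoidHom.mem_ker, map_mul, map_inv, mul_inv_eq_one]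

/-- Elements of a `p`-group modulo a normal subgroup of index `≤ p`. -/
theorem exists_pow_mul_of_index_le {Q : Type*} [Group Q] [Finite Q] (p : ℕ) [hp : Fact p.Prime] (S : Subgroup Q) [hS : S.Normal]
    (hQ : IsPGroup p Q) (hidx : S.index ≤ p) (y : Q) (hy : y ∉ S) :
    y ^ p ∈ S ∧ ∀ r : Q, ∃ (i : ℕ) (t : Q), t ∈ S ∧ r = y ^ i * t := by
  classical
  have hp1 := hp.out.one_lt
  obtain ⟨k, hk⟩ := IsPGroup.iff_card.1 (hQ.to_quotient S)
  have hne : Nat.card (Q ⧸ S) ≠ 1 := by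
    intro h
    apply hy
    rw [← Subgroup.index_eq_card, Subgroup.index_eq_one] at h
    rw [h]
    exact mem_top y
  have hk1 : k = 1 := by
    have h1 : p ^ k ≤ p ^ 1 := by
      rw [← hk, pow_one, ← Subgroup.index_eq_card]
      exact hidx
    have h2 := (Nat.pow_le_pow_iff_right hp1).1 h1
    rcases Nat.le_one_iff_eq_zero_or_eq_one.1 h2 with rfl | h3
    · exact absurd (by rw [hk, pow_zero]) hne
    · exact h3
  rw [hk1, pow_one] at hk
  haveI : Fact (Nat.card (Q ⧸ S)).Prime := by rw [hk]; exact hp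
  have hmk1 : ((y : Q) : Q ⧸ S) ≠ 1 := by
    rw [Ne, QuotientGroup.eq_one_iff]
    exact hy
  constructor
  · rw [← QuotientGroup.eq_one_iff, QuotientGroup.mk_pow, ← hk]
    exact pow_card_eq_one'
  · intro r
    have h1 : (r : Q ⧸ S) ∈ zpowers ((y : Q) : Q ⧸ S) := mem_zpowers_of_prime_card rfl hmk1
    have hfin : IsOfFinOrder ((y : Q) : Q ⧸ S) := isOfFinOrder_of_finite _
    rw [← hfin.mem_powers_iff_mem_zpowers] at h1
    obtain ⟨i, hi⟩ := h1
    refine ⟨i, (y ^ i)⁻¹ * r, ?_, by group⟩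
    rw [← QuotientGroup.eq_one_iff, QuotientGroup.mk_mul, QuotientGroup.mk_inv, QuotientGroup.mk_pow]
    rw [show ((y : Q) : Q ⧸ S) ^ i = r from hi, inv_mul_cancel]

/-- The chain lemma for `T / T'`. -/
theorem chain_setup {p : ℕ} [hp : Fact p.Prime] (hodd : p ≠ 2) (T : Subgroup G) (hTp : IsPGroup p T) {y a₀ t₀ : G} {m : ℕ}
    (hyN : y ∈ normalizer (T : Set G)) (haN : a₀ ∈ normalizer (T : Set G)) (hypT : y ^ p ∈ T)
    (ht₀ : t₀ ∈ T) (e₀ : a₀ * y * a₀⁻¹ = y ^ m * t₀)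
    (hm0 : (m : ZMod p) ≠ 0) (hm1 : (m : ZMod p) ≠ 1) (hm2 : (m : ZMod p) ^ 2 ≠ 1) (ν ζ : ℕ) (hν : (ν : ZMod p) ≠ 0)
    (hζ : (ζ : ZMod p) ≠ 0)
    (hφ : ∀ x, x ^ p = 1 → abHomOf T ⟨a₀, haN⟩ (abHomOf T ⟨a₀, haN⟩ x) * x ^ (ν * ζ) = (abHomOf T ⟨a₀, haN⟩ x) ^ (ν + ζ)) :
    (∀ x, abHomOf T ⟨y, hyN⟩ (abHomOf T ⟨y, hyN⟩ x) * x = (abHomOf T ⟨y, hyN⟩ x) ^ 2) ∧ (∀ x, (abHomOf T ⟨y, hyN⟩ x) ^ p = x ^ p) ∧
      ∀ (x : Abelianization ↥T) (μ : ℕ), abHomOf T ⟨a₀, haN⟩ x = x ^ μ → abHomOf T ⟨y, hyN⟩ x = x ∨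
        (((m * μ : ℕ) : ZMod p) - ν) * (((m * μ : ℕ) : ZMod p) - ζ) = 0 := by
  haveI : Finite (Abelianization ↥T) := inferInstanceAs (Finite (↥T ⧸ commutator ↥T))
  have hQ : IsPGroup p (Abelianization ↥T) := hTp.to_quotient (commutator ↥T)
  set Y : ↥(normalizer (T : Set G)) := ⟨y, hyN⟩ with hY
  set B : ↥(normalizer (T : Set G)) := ⟨a₀, haN⟩ with hB
  set Tt : ↥(normalizer (T : Set G)) := ⟨t₀, le_normalizer ht₀⟩ with hTt
  have hBY : B * Y = Y ^ m * Tt * B := by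
    apply Subtype.ext
    show a₀ * y = y ^ m * t₀ * a₀
    rw [← e₀]
    group
  apply chain_mul p hodd hQ (abHomOf T B) (abHomOf T Y) m ν ζ ?_ ?_ hφ hm0 hm1 hm2 hν hζ
  · intro x
    rw [← abHomOf_pow]
    exact abHomOf_inner T _ hypT x
  · intro x
    rw [← abHomOf_pow, ← abHomOf_mul T B Y, hBY, abHomOf_mul, abHomOf_mul, abHomOf_inner T Tt ht₀]

theorem bg4_mem_normalizer (H : Subgroup G) (g : G) (h : ∀ x ∈ H, g * x * g⁻¹ ∈ H) : g ∈ normalizer (H : Set G) := by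
  rw [mem_normalizer_iff]
  have hinj : Function.Injective (fun w : H => (⟨g * w * g⁻¹, h w w.2⟩ : H)) := by
    intro a b hab
    have := congrArg Subtype.val hab
    simp only at this
    exact Subtype.ext (by simpa using this)
  have hsurj := (Finite.injective_iff_surjective.mp hinj)
  intro x
  refine ⟨h x, fun hx => ?_⟩
  obtain ⟨w, hw⟩ := hsurj ⟨g * x * g⁻¹, hx⟩
  have h1 : g * (w : G) * g⁻¹ = g * x * g⁻¹ := congrArg Subtype.val hw
  have h2 : (w : G) = x := by simpa using h1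
  rw [← h2]
  exact w.2

theorem bg4_conj_mem {H : Subgroup G} {g x : G} (hg : g ∈ normalizer (H : Set G)) (hx : x ∈ H) : g * x * g⁻¹ ∈ H :=
  (mem_normalizer_iff.1 hg x).1 hx

/-- The setting of the non central case. -/
structure Gap4 (p : ℕ) (R A W : Subgroup G) : Prop where
  hodd : p ≠ 2
  hR : IsPGroup p R
  hr : PRankLE p 2 R
  hA : A ≤ normalizer (R : Set G)
  hcop : (Nat.card A).Coprime p
  hAodd : Odd (Nat.card A)
  hRA : ⁅R, A⁆ = R
  hWR : W ≤ R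
  hWA : A ≤ normalizer (W : Set G)
  hWn : R ≤ normalizer (W : Set G)
  hWe : ∀ w ∈ W, w ^ p = 1
  hWc : ∀ a ∈ W, ∀ b ∈ W, a * b = b * a
  hW2 : Nat.card W = p ^ 2
  hWZ : ∀ w ∈ W, ∀ r ∈ R, ∀ s ∈ R, w * r * w⁻¹ * r⁻¹ * s = s * (w * r * w⁻¹ * r⁻¹)
  hΩ : ∀ u ∈ R, u ^ p = 1 → (∀ r ∈ R, ∀ s ∈ R, u * r * u⁻¹ * r⁻¹ * s = s * (u * r * u⁻¹ * r⁻¹)) → u ∈ W
  hidx : ((R ⊓ centralizer (W : Set G)).subgroupOf R).index ≤ p

namespace Gap4

variable {p : ℕ} [hp : Fact p.Prime] {R A W : Subgroup G} (h : Gap4 p R A W)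

include h

theorem mem_T {t : G} : t ∈ R ⊓ centralizer (W : Set G) ↔ t ∈ R ∧ ∀ w ∈ W, w * t = t * w := by
  rw [Subgroup.mem_inf, mem_centralizer_iff]
  rfl

theorem T_le : R ⊓ centralizer (W : Set G) ≤ R := inf_le_left

theorem T_norm_R : R ≤ normalizer ((R ⊓ centralizer (W : Set G) : Subgroup G) : Set G) := by
  intro r hr
  apply bg4_mem_normalizer
  intro t ht
  rw [h.mem_T] at ht ⊢
  refine ⟨R.mul_mem (R.mul_mem hr ht.1) (R.inv_mem hr), fun w hw => ?_⟩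
  have h1 : r⁻¹ * w * r⁻¹⁻¹ ∈ W := bg4_conj_mem (h.hWn (R.inv_mem hr)) hw
  have h2 := ht.2 _ h1
  simp only [inv_inv] at h1 h2
  calc w * (r * t * r⁻¹) = r * ((r⁻¹ * w * r) * t) * r⁻¹ := by group
    _ = r * (t * (r⁻¹ * w * r)) * r⁻¹ := by rw [h2]
    _ = _ := by group

theorem T_norm_A : A ≤ normalizer ((R ⊓ centralizer (W : Set G) : Subgroup G) : Set G) := by
  intro a ha
  apply bg4_mem_normalizer
  intro t ht
  rw [h.mem_T] at ht ⊢
  refine ⟨bg4_conj_mem (h.hA ha) ht.1, fun w hw => ?_⟩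
  have h1 : a⁻¹ * w * a⁻¹⁻¹ ∈ W := bg4_conj_mem (h.hWA (A.inv_mem ha)) hw
  have h2 := ht.2 _ h1
  simp only [inv_inv] at h1 h2
  calc w * (a * t * a⁻¹) = a * ((a⁻¹ * w * a) * t) * a⁻¹ := by group
    _ = a * (t * (a⁻¹ * w * a)) * a⁻¹ := by rw [h2]
    _ = _ := by group

/-- The elements of order `p` of `T` lie in `W`. -/
theorem T_omega {u : G} (hu : u ∈ R ⊓ centralizer (W : Set G)) (hup : u ^ p = 1) : u ∈ W := by
  classical
  by_contra huW
  have hp1 := hp.out.one_lt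
  rw [h.mem_T] at hu
  set E : Subgroup ↥R := W.subgroupOf R with hE
  haveI hEn : E.Normal := by
    constructor
    intro e he r
    rw [hE, Subgroup.mem_subgroupOf] at he ⊢
    exact bg4_conj_mem (h.hWn r.2) he
  have hEe : IsElementaryAbelian p E := by
    refine ⟨⟨⟨fun a b => ?_⟩⟩, fun a ha => ?_⟩
    · apply Subtype.ext
      apply Subtype.ext
      exact h.hWc _ a.2 _ b.2
    · apply Subtype.ext
      exact h.hWe _ ha
  have hcardE : Nat.card E = p ^ 2 := by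
    rw [hE, Nat.card_congr (Subgroup.subgroupOfEquivOfLe h.hWR).toEquiv]
    exact h.hW2
  set u' : ↥R := ⟨u, hu.1⟩ with hu'
  have hu'p : u' ^ p = 1 := Subtype.ext hup
  have hu'E : u' ∉ E := fun hc => huW hc
  have hEA := isElementaryAbelian_sup_zpowers hEe hu'p (fun e he => Subtype.ext (hu.2 _ he).symm)
  have h1 := h.hr _ hEA.1 hEA.2
  rw [card_sup_zpowers p E hu'E hu'p, hcardE] at h1
  have h3 : p ^ 2 * p = p ^ 3 := by ring
  rw [h3] at h1
  have := (Nat.pow_le_pow_iff_right hp1).1 h1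
  omega

/-- Elements `y` outside of `T`. -/
theorem exists_y (hnot : ¬ ∀ w ∈ W, ∀ r ∈ R, w * r = r * w) :
    ∃ y ∈ R, y ∉ R ⊓ centralizer (W : Set G) ∧ y ^ p ∈ R ⊓ centralizer (W : Set G) ∧
      ∀ r ∈ R, ∃ (i : ℕ) (t : G), t ∈ R ⊓ centralizer (W : Set G) ∧ r = y ^ i * t := by
  classical
  push Not at hnot
  obtain ⟨w, hw, y, hy, hwy⟩ := hnot
  have hyT : y ∉ R ⊓ centralizer (W : Set G) := by
    intro hc
    rw [h.mem_T] at hc
    exact hwy (hc.2 w hw)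
  refine ⟨y, hy, hyT, ?_⟩
  set S := (R ⊓ centralizer (W : Set G)).subgroupOf R with hS
  haveI hSn : S.Normal := by
    constructor
    intro e he r
    rw [hS, Subgroup.mem_subgroupOf] at he ⊢
    exact bg4_conj_mem (h.T_norm_R r.2) he
  have hyS : (⟨y, hy⟩ : ↥R) ∉ S := hyT
  obtain ⟨h1, h2⟩ := exists_pow_mul_of_index_le p S h.hR h.hidx ⟨y, hy⟩ hyS
  refine ⟨h1, fun r hr => ?_⟩
  obtain ⟨i, t, ht, e⟩ := h2 ⟨r, hr⟩
  refine ⟨i, t, ht, ?_⟩
  have := congrArg Subtype.val e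
  simpa using this

/-- Powers of `y ^ i * τ` modulo `T`. -/
theorem pow_mod_T {y : G} (hyR : y ∈ R) (i : ℕ) {τ : G} (hτ : τ ∈ R ⊓ centralizer (W : Set G)) (j : ℕ) :
    ∃ τ' ∈ R ⊓ centralizer (W : Set G), (y ^ i * τ) ^ j = y ^ (i * j) * τ' := by
  induction j with
  | zero => exact ⟨1, one_mem _, by simp⟩
  | succ j ih =>
    obtain ⟨τ', hτ', e⟩ := ih
    have h1 : (y ^ i)⁻¹ * τ' * ((y ^ i)⁻¹)⁻¹ ∈ R ⊓ centralizer (W : Set G) :=
      bg4_conj_mem (h.T_norm_R (R.inv_mem (R.pow_mem hyR i))) hτ'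
    refine ⟨_, mul_mem h1 hτ, ?_⟩
    rw [pow_succ, e, mul_add, mul_one, pow_add]
    group

/-- Choice of the element `a₀`. -/
theorem exists_a {y : G} (hyR : y ∈ R) (hyT : y ∉ R ⊓ centralizer (W : Set G)) (hypT : y ^ p ∈ R ⊓ centralizer (W : Set G))
    (hgen : ∀ r ∈ R, ∃ (i : ℕ) (t : G), t ∈ R ⊓ centralizer (W : Set G) ∧ r = y ^ i * t) :
    ∃ a₀ ∈ A, ∃ (m : ℕ) (t₀ : G), t₀ ∈ R ⊓ centralizer (W : Set G) ∧ a₀ * y * a₀⁻¹ = y ^ m * t₀ ∧
      (m : ZMod p) ≠ 0 ∧ (m : ZMod p) ≠ 1 ∧ (m : ZMod p) ^ 2 ≠ 1 := by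
  classical
  set T := R ⊓ centralizer (W : Set G) with hT
  have hdiv : ∀ j : ℕ, y ^ j ∈ T → p ∣ j := by
    intro j hj
    by_contra hnd
    have hcop : IsCoprime (j : ℤ) (p : ℤ) :=
      Nat.isCoprime_iff_coprime.2 ((Nat.Prime.coprime_iff_not_dvd hp.out).2 hnd).symm
    obtain ⟨a, b, hab⟩ := hcop
    apply hyT
    have e : y = (y ^ j) ^ a * (y ^ p) ^ b := by
      rw [← zpow_natCast, ← zpow_natCast, ← zpow_mul, ← zpow_mul, ← zpow_add, mul_comm (j : ℤ), mul_comm (p : ℤ), hab, zpow_one]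
    rw [e]
    exact T.mul_mem (T.zpow_mem hj _) (T.zpow_mem hypT _)
  have hpowT : ∀ j : ℕ, p ∣ j → y ^ j ∈ T := by
    rintro _ ⟨k, rfl⟩
    rw [pow_mul]
    exact T.pow_mem hypT k
  have hchoose : ∃ a₀ ∈ A, ∃ (m : ℕ) (t₀ : G), t₀ ∈ T ∧ a₀ * y * a₀⁻¹ = y ^ m * t₀ ∧ (m : ZMod p) ≠ 1 := by
    by_contra hcon
    push Not at hcon
    apply hyT
    have hall : ∀ a ∈ A, ∃ τ ∈ T, a * y * a⁻¹ = y * τ := by
      intro a ha
      have h1 : a * y * a⁻¹ ∈ R := bg4_conj_mem (h.hA ha) hyR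
      obtain ⟨i, t, ht, e⟩ := hgen _ h1
      have h2 := hcon a ha i t ht e
      have hp1 := hp.out.one_lt
      have hi : p ∣ (i + (p - 1)) := by
        have h4 : (((i + (p - 1) : ℕ)) : ZMod p) = 0 := by
          push_cast
          rw [h2, Nat.cast_sub hp1.le]
          simp
        exact (ZMod.natCast_eq_zero_iff _ _).1 h4
      refine ⟨y⁻¹ * (y ^ i * t), ?_, by rw [e, mul_inv_cancel_left]⟩
      have e1 : y ^ (i + (p - 1)) * (y ^ p)⁻¹ = y⁻¹ * y ^ i := by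
        rw [← zpow_natCast y (i + (p - 1)), ← zpow_natCast y p, ← zpow_neg, ← zpow_add, ← zpow_natCast y i,
          ← zpow_neg_one, ← zpow_add]
        congr 1
        push_cast [Nat.cast_sub hp1.le]
        ring
      have h5 : y⁻¹ * (y ^ i * t) = y ^ (i + (p - 1)) * (y ^ p)⁻¹ * t := by
        rw [e1, mul_assoc]
      rw [h5]
      exact T.mul_mem (T.mul_mem (hpowT _ hi) (T.inv_mem hypT)) ht
    have hle : ⁅R, A⁆ ≤ T := by
      rw [Subgroup.commutator_le]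
      intro r hr a ha
      obtain ⟨j, t, ht, rfl⟩ := hgen r hr
      obtain ⟨τ, hτ, eτ⟩ := hall a ha
      obtain ⟨τ', hτ', e'⟩ := h.pow_mod_T hyR 1 hτ j
      rw [pow_one, one_mul] at e'
      have h2 : a * (y ^ j * t) * a⁻¹ = (y * τ) ^ j * (a * t * a⁻¹) := by
        rw [← eτ, conj_pow]
        group
      have h3 : (y ^ j * t) * a * (y ^ j * t)⁻¹ * a⁻¹ = y ^ j * (t * (a * t * a⁻¹)⁻¹ * τ'⁻¹) * (y ^ j)⁻¹ := by
        have h4 : (y ^ j * t) * a * (y ^ j * t)⁻¹ * a⁻¹ = (y ^ j * t) * (a * (y ^ j * t) * a⁻¹)⁻¹ := by group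
        rw [h4, h2, e']
        group
      rw [commutatorElement_def, h3]
      have hc : a * t * a⁻¹ ∈ T := bg4_conj_mem (h.T_norm_A ha) ht
      exact bg4_conj_mem (h.T_norm_R (R.pow_mem hyR j)) (T.mul_mem (T.mul_mem ht (T.inv_mem hc)) (T.inv_mem hτ'))
    rw [h.hRA] at hle
    exact hle hyR
  obtain ⟨a₀, ha₀, m, t₀, ht₀, e₀, hm1⟩ := hchoose
  have hm0 : (m : ZMod p) ≠ 0 := by
    intro hm
    have h1 : p ∣ m := (ZMod.natCast_eq_zero_iff _ _).1 hm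
    have h2 : a₀ * y * a₀⁻¹ ∈ T := by
      rw [e₀]
      exact T.mul_mem (hpowT m h1) ht₀
    have h3 : a₀⁻¹ * (a₀ * y * a₀⁻¹) * a₀⁻¹⁻¹ ∈ T := bg4_conj_mem (h.T_norm_A (A.inv_mem ha₀)) h2
    apply hyT
    simpa [mul_assoc] using h3
  refine ⟨a₀, ha₀, m, t₀, ht₀, e₀, hm0, hm1, ?_⟩
  intro hm2
  apply hm1
  have hiter : ∀ k : ℕ, ∃ t ∈ T, a₀ ^ k * y * (a₀ ^ k)⁻¹ = y ^ (m ^ k) * t := by
    intro k
    induction k with
    | zero => exact ⟨1, T.one_mem, by simp⟩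
    | succ k ih =>
      obtain ⟨t, ht, e⟩ := ih
      obtain ⟨τ', hτ', e'⟩ := h.pow_mod_T hyR m ht₀ (m ^ k)
      have hc : a₀ * t * a₀⁻¹ ∈ T := bg4_conj_mem (h.T_norm_A ha₀) ht
      refine ⟨τ' * (a₀ * t * a₀⁻¹), T.mul_mem hτ' hc, ?_⟩
      have h1 : a₀ ^ (k + 1) * y * (a₀ ^ (k + 1))⁻¹ = a₀ * (a₀ ^ k * y * (a₀ ^ k)⁻¹) * a₀⁻¹ := by
        rw [pow_succ']
        group
      rw [h1, e]
      have h2 : a₀ * (y ^ m ^ k * t) * a₀⁻¹ = (a₀ * y * a₀⁻¹) ^ (m ^ k) * (a₀ * t * a₀⁻¹) := by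
        rw [conj_pow]
        group
      rw [h2, e₀, e', ← pow_succ', mul_assoc]
  obtain ⟨t, ht, e⟩ := hiter (orderOf a₀)
  rw [pow_orderOf_eq_one] at e
  have hm_pos : 0 < m ^ orderOf a₀ := by
    apply Nat.pos_of_ne_zero
    intro h0
    have : ((m ^ orderOf a₀ : ℕ) : ZMod p) = 0 := by rw [h0]; simp
    push_cast at this
    exact pow_ne_zero _ hm0 this
  have h5 : y ^ (m ^ orderOf a₀ - 1) = t⁻¹ := by
    have h6 : y ^ (m ^ orderOf a₀) = y * y ^ (m ^ orderOf a₀ - 1) := by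
      rw [← pow_succ', Nat.sub_add_cancel hm_pos]
    simp only [one_mul, inv_one, mul_one] at e
    rw [h6] at e
    have h7 : y ^ (m ^ orderOf a₀ - 1) * t = 1 := by
      have h8 : y * 1 = y * (y ^ (m ^ orderOf a₀ - 1) * t) := by
        rw [mul_one, ← mul_assoc]
        exact e
      exact (mul_left_cancel h8).symm
    exact eq_inv_of_mul_eq_one_left h7
  have h9 : p ∣ m ^ orderOf a₀ - 1 := hdiv _ (by rw [h5]; exact T.inv_mem ht)
  have h10 : (m : ZMod p) ^ orderOf a₀ = 1 := by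
    have h11 : ((m ^ orderOf a₀ - 1 : ℕ) : ZMod p) = 0 := (ZMod.natCast_eq_zero_iff _ _).2 h9
    rw [Nat.cast_sub hm_pos] at h11
    push_cast at h11
    exact sub_eq_zero.1 h11
  have hodd' : Odd (orderOf a₀) := by
    have h1 : orderOf a₀ = orderOf (⟨a₀, ha₀⟩ : A) := (Subgroup.orderOf_mk a₀ ha₀).symm
    rw [h1]
    exact Odd.of_dvd_nat h.hAodd (orderOf_dvd_natCard _)
  obtain ⟨k, hk⟩ := hodd'
  rw [hk, pow_succ, pow_mul, hm2, one_pow, one_mul] at h10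
  exact h10

/-- A basis of `W`. -/
theorem W_gen {u₁ u₂ : G} (hu₁ : u₁ ∈ W) (hu₂ : u₂ ∈ W) (hu₁1 : u₁ ≠ 1) (hne : u₂ ∉ zpowers u₁) :
    ∀ t ∈ W, ∃ i k : ℕ, t = u₁ ^ i * u₂ ^ k := by
  classical
  have hp1 := hp.out.one_lt
  have hcomm : ∀ a b : ↥W, a * b = b * a := fun a b => Subtype.ext (h.hWc _ a.2 _ b.2)
  set E : Subgroup ↥W := zpowers ⟨u₁, hu₁⟩ with hE
  haveI hEn : E.Normal := by
    constructor
    intro e he r
    rw [hcomm r e, mul_inv_cancel_right]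
    exact he
  have hcardE : Nat.card E = p := by
    rw [hE, Nat.card_zpowers]
    apply orderOf_eq_prime (Subtype.ext (h.hWe _ hu₁))
    intro hc
    exact hu₁1 (congrArg Subtype.val hc)
  have hne' : (⟨u₂, hu₂⟩ : ↥W) ∉ E := by
    intro hc
    apply hne
    obtain ⟨i, hi⟩ := hc
    exact ⟨i, by simpa using congrArg Subtype.val hi⟩
  have hcard := card_sup_zpowers p E hne' (Subtype.ext (h.hWe _ hu₂))
  rw [hcardE] at hcard
  have htop : E ⊔ zpowers (⟨u₂, hu₂⟩ : ↥W) = ⊤ := by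
    apply Subgroup.eq_top_of_card_eq
    rw [hcard, h.hW2]
    ring
  intro t ht
  have h1 : (⟨t, ht⟩ : ↥W) ∈ E ⊔ zpowers (⟨u₂, hu₂⟩ : ↥W) := by
    rw [htop]
    exact mem_top _
  rw [Subgroup.mem_sup_of_normal_left] at h1
  obtain ⟨a, ha, b, hb, e⟩ := h1
  have hfin1 : IsOfFinOrder (⟨u₁, hu₁⟩ : ↥W) := isOfFinOrder_of_finite _
  have hfin2 : IsOfFinOrder (⟨u₂, hu₂⟩ : ↥W) := isOfFinOrder_of_finite _
  rw [hE, ← hfin1.mem_powers_iff_mem_zpowers] at ha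
  rw [← hfin2.mem_powers_iff_mem_zpowers] at hb
  obtain ⟨i, rfl⟩ := ha
  obtain ⟨k, rfl⟩ := hb
  refine ⟨i, k, ?_⟩
  have := congrArg Subtype.val e
  simpa using this.symm

/-- The central elements of `W` are the powers of a single one. -/
theorem Z_unique (hnot : ¬ ∀ w ∈ W, ∀ r ∈ R, w * r = r * w) {z z' : G} (hz : z ∈ W) (hz1 : z ≠ 1)
    (hzc : ∀ r ∈ R, z * r = r * z) (hz' : z' ∈ W) (hz'c : ∀ r ∈ R, z' * r = r * z') : z' ∈ zpowers z := by
  by_contra hne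
  apply hnot
  intro t ht r hr
  obtain ⟨i, k, rfl⟩ := h.W_gen hz hz' hz1 hne t ht
  have h1 : Commute z r := hzc r hr
  have h2 : Commute z' r := hz'c r hr
  exact ((h1.pow_left i).mul_left (h2.pow_left k)).eq

/-- A central element in `W`. -/
theorem exists_Z : ∃ z ∈ W, z ≠ 1 ∧ ∀ r ∈ R, z * r = r * z := by
  classical
  have hp1 := hp.out.one_lt
  set E : Subgroup ↥R := W.subgroupOf R with hE
  haveI hEn : E.Normal := by
    constructor
    intro e he r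
    rw [hE, Subgroup.mem_subgroupOf] at he ⊢
    exact bg4_conj_mem (h.hWn r.2) he
  haveI : Group.IsNilpotent ↥R := h.hR.isNilpotent
  have hne : E ≠ ⊥ := by
    intro hb
    have h1 : Nat.card E = p ^ 2 := by
      rw [hE, Nat.card_congr (Subgroup.subgroupOfEquivOfLe h.hWR).toEquiv]
      exact h.hW2
    rw [hb, Subgroup.card_bot] at h1
    have := Nat.one_lt_pow (n := 2) (by norm_num) hp1
    omega
  obtain ⟨⟨z, hzm⟩, hz1⟩ := Subgroup.ne_bot_iff_exists_ne_one.mp (normal_inf_center_ne_bot E hne)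
  obtain ⟨hzE, hzZ⟩ := Subgroup.mem_inf.1 hzm
  refine ⟨z, hzE, fun hc => hz1 (Subtype.ext (Subtype.ext hc)), fun r hr => ?_⟩
  have := Subgroup.mem_center_iff.1 hzZ ⟨r, hr⟩
  exact (congrArg Subtype.val this).symm

end Gap4

end Cfsg.Agent.Lib.FT
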