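import Cfsg.Agent.Lib.FT.BG4b

/-!
Rank two `p`-groups under an odd coprime action: the centralizer of `W` abelian.
-/

set_option autoImplicit false
set_option linter.unusedSectionVars false
set_option linter.style.haveILetI false

namespace Cfsg.Agent.Lib.FT

open Subgroup Cfsg Cfsg.Agent.Lib.Basic Cfsg.Agent.Lib.OddLocal Cfsg.Agent.Lib.Coprime

open scoped commutatorElement

universe u

section Phi

variable {Q : Type*} [CommGroup Q] (α : Q →* Q) (ν ζ : ℕ)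

theorem phi_of_eigen {x : Q} (hx : α x = x ^ ζ) : α (α x) * x ^ (ν * ζ) = (α x) ^ (ν + ζ) := by
  rw [hx, map_pow, hx, ← pow_mul, ← pow_mul, ← pow_add]
  congr 1
  ring

theorem phi_of_eigen' {x : Q} (hx : α x = x ^ ν) : α (α x) * x ^ (ν * ζ) = (α x) ^ (ν + ζ) := by
  rw [hx, map_pow, hx, ← pow_mul, ← pow_mul, ← pow_add]
  congr 1
  ring

theorem phi_of_triang {x y : Q} (hx : α x = y * x ^ ν) (hy : α y = y ^ ζ) :
    α (α x) * x ^ (ν * ζ) = (α x) ^ (ν + ζ) := by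
  rw [hx, map_mul, map_pow, hx, hy, mul_pow, mul_pow, ← pow_mul, ← pow_mul, pow_add, mul_add, pow_add]
  simp only [mul_assoc, mul_comm, mul_left_comm]

theorem phi_mul {x y : Q} (hx : α (α x) * x ^ (ν * ζ) = (α x) ^ (ν + ζ)) (hy : α (α y) * y ^ (ν * ζ) = (α y) ^ (ν + ζ)) :
    α (α (x * y)) * (x * y) ^ (ν * ζ) = (α (x * y)) ^ (ν + ζ) := by
  rw [map_mul, map_mul, mul_pow, mul_pow, ← hx, ← hy]
  simp only [mul_assoc, mul_comm, mul_left_comm]

theorem phi_pow {x : Q} (hx : α (α x) * x ^ (ν * ζ) = (α x) ^ (ν + ζ)) (k : ℕ) :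
    α (α (x ^ k)) * (x ^ k) ^ (ν * ζ) = (α (x ^ k)) ^ (ν + ζ) := by
  induction k with
  | zero => simp
  | succ k ih =>
    rw [pow_succ]
    exact phi_mul α ν ζ ih hx

end Phi

variable {G : Type u} [Group G] [Finite G]

namespace Gap4

variable {p : ℕ} [hp : Fact p.Prime] {R A W : Subgroup G} (h : Gap4 p R A W)

include h

theorem conj_central {a z : G} (ha : a ∈ A) (hz : ∀ r ∈ R, z * r = r * z) : ∀ r ∈ R, (a * z * a⁻¹) * r = r * (a * z * a⁻¹) := by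
  intro r hr
  have h1 : a⁻¹ * r * a⁻¹⁻¹ ∈ R := bg4_conj_mem (h.hA (A.inv_mem ha)) hr
  have h2 := hz _ h1
  simp only [inv_inv] at h2
  calc (a * z * a⁻¹) * r = a * (z * (a⁻¹ * r * a)) * a⁻¹ := by group
    _ = a * ((a⁻¹ * r * a) * z) * a⁻¹ := by rw [h2]
    _ = _ := by group

/-- Central elements of `W`: the eigenvalue data. -/
theorem exists_eigen (hnot : ¬ ∀ w ∈ W, ∀ r ∈ R, w * r = r * w) {a₀ : G} (ha₀ : a₀ ∈ A) :
    ∃ z ∈ W, z ≠ 1 ∧ (∀ r ∈ R, z * r = r * z) ∧ ∃ w ∈ W, w ∉ zpowers z ∧ ∃ ν ζ j : ℕ, a₀ * z * a₀⁻¹ = z ^ ζ ∧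
      a₀ * w * a₀⁻¹ = z ^ j * w ^ ν ∧ (ν : ZMod p) ≠ 0 ∧ (ζ : ZMod p) ≠ 0 := by
  obtain ⟨z, hzW, hz1, hzc⟩ := h.exists_Z
  have hnot' := hnot
  push Not at hnot'
  obtain ⟨w, hwW, r₀, hr₀, hwr₀⟩ := hnot'
  have hzpow : ∀ i : ℤ, ∀ r ∈ R, z ^ i * r = r * z ^ i := fun i r hr =>
    ((Commute.zpow_left (hzc r hr)) i).eq
  have hwz : w ∉ zpowers z := by
    rintro ⟨i, rfl⟩
    exact hwr₀ (hzpow i r₀ hr₀)
  have hzp : z ^ p = 1 := h.hWe z hzW
  have hfin : IsOfFinOrder z := isOfFinOrder_of_finite _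
  have hz' : a₀ * z * a₀⁻¹ ∈ zpowers z :=
    h.Z_unique hnot hzW hz1 hzc (bg4_conj_mem (h.hWA ha₀) hzW) (h.conj_central ha₀ hzc)
  rw [← hfin.mem_powers_iff_mem_zpowers] at hz'
  obtain ⟨ζ, hζ⟩ := hz'
  have hζ' : a₀ * z * a₀⁻¹ = z ^ ζ := hζ.symm
  obtain ⟨j, ν, hjν⟩ := h.W_gen hzW hwW hz1 hwz _ (bg4_conj_mem (h.hWA ha₀) hwW)
  refine ⟨z, hzW, hz1, hzc, w, hwW, hwz, ν, ζ, j, hζ', hjν, ?_, ?_⟩
  · intro hν
    obtain ⟨k, rfl⟩ := (ZMod.natCast_eq_zero_iff _ _).1 hν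
    rw [pow_mul, h.hWe w hwW, one_pow, mul_one] at hjν
    apply hwz
    have hcen : ∀ r ∈ R, (a₀⁻¹ * (z ^ j) * a₀⁻¹⁻¹) * r = r * (a₀⁻¹ * (z ^ j) * a₀⁻¹⁻¹) :=
      h.conj_central (A.inv_mem ha₀) (fun r hr => ((Commute.pow_left (hzc r hr)) j).eq)
    have e : a₀⁻¹ * (z ^ j) * a₀⁻¹⁻¹ = w := by
      rw [← hjν]
      group
    rw [e] at hcen
    exact absurd (hcen r₀ hr₀) hwr₀
  · intro hζ0
    obtain ⟨k, rfl⟩ := (ZMod.natCast_eq_zero_iff _ _).1 hζ0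
    rw [pow_mul, hzp, one_pow] at hζ'
    apply hz1
    have : a₀⁻¹ * (a₀ * z * a₀⁻¹) * a₀ = z := by group
    rw [← this, hζ']
    group

/-- Class two is impossible. -/
theorem class2_contra (hnot : ¬ ∀ w ∈ W, ∀ r ∈ R, w * r = r * w)
    (hcomm : ∀ x ∈ R, ∀ x' ∈ R, x * x' * x⁻¹ * x'⁻¹ ∈ W ∧ ∀ s ∈ R, (x * x' * x⁻¹ * x'⁻¹) * s = s * (x * x' * x⁻¹ * x'⁻¹)) :
    False := by
  classical
  have hp2 : 2 < p := lt_of_le_of_ne hp.out.two_le (Ne.symm h.hodd)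
  have hdvd : p ∣ p.choose 2 := hp.out.dvd_choose_self (by norm_num) hp2
  have hf : ∀ x x' : ↥R, x ^ p = x' ^ p → x⁻¹ * x' ∈ W.subgroupOf R := by
    intro x x' hxx
    have hxp : (x : G) ^ p = (x' : G) ^ p := by
      have := congrArg Subtype.val hxx
      simpa using this
    obtain ⟨h1, h2⟩ := hcomm x' x'.2 (x : G)⁻¹ (R.inv_mem x.2)
    simp only [inv_inv] at h1 h2
    set c : G := (x' : G) * (x : G)⁻¹ * (x' : G)⁻¹ * (x : G) with hc
    have hc1 : (x' : G) * (x : G)⁻¹ = c * (x : G)⁻¹ * (x' : G) := by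
      rw [hc]
      group
    have hc2 : c * (x' : G) = (x' : G) * c := h2 _ x'.2
    have hc3 : c * (x : G)⁻¹ = (x : G)⁻¹ * c := h2 _ (R.inv_mem x.2)
    have h3 := mul_pow_of_central_commutator (x' : G) (x : G)⁻¹ c hc1 hc2 hc3 p
    obtain ⟨k, hk⟩ := hdvd
    rw [hk, pow_mul, h.hWe c h1, one_pow, mul_one, inv_pow, hxp, inv_mul_cancel] at h3
    rw [Subgroup.mem_subgroupOf]
    have hu : ((x⁻¹ * x' : ↥R) : G) = (x : G)⁻¹ * (x' : G) := by simp
    rw [hu]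
    apply h.hΩ _ (R.mul_mem (R.inv_mem x.2) x'.2) h3
    intro r hr s hs
    exact (hcomm _ (R.mul_mem (R.inv_mem x.2) x'.2) r hr).2 s hs
  have hidx := index_powSub_le_of_fiber p (W.subgroupOf R) hf
  have hcard : Nat.card (W.subgroupOf R) = p ^ 2 := by
    rw [Nat.card_congr (Subgroup.subgroupOfEquivOfLe h.hWR).toEquiv]
    exact h.hW2
  rw [hcard] at hidx
  have hab := comm_of_commutator_eq p h.hodd R A h.hR h.hA h.hcop h.hRA hidx
  apply hnot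
  intro w hw r hr
  have := hab.is_comm.comm (⟨w, h.hWR hw⟩ : ↥R) ⟨r, hr⟩
  exact congrArg Subtype.val this

/-- The case of an abelian centralizer of `W`. -/
theorem branchA (hnot : ¬ ∀ w ∈ W, ∀ r ∈ R, w * r = r * w) {y a₀ t₀ : G} {m : ℕ} (hyR : y ∈ R)
    (hypT : y ^ p ∈ R ⊓ centralizer (W : Set G))
    (hgen : ∀ r ∈ R, ∃ (i : ℕ) (t : G), t ∈ R ⊓ centralizer (W : Set G) ∧ r = y ^ i * t)
    (ha₀ : a₀ ∈ A) (ht₀ : t₀ ∈ R ⊓ centralizer (W : Set G)) (e₀ : a₀ * y * a₀⁻¹ = y ^ m * t₀)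
    (hm0 : (m : ZMod p) ≠ 0) (hm1 : (m : ZMod p) ≠ 1) (hm2 : (m : ZMod p) ^ 2 ≠ 1)
    (hTab : ∀ s ∈ R ⊓ centralizer (W : Set G), ∀ t ∈ R ⊓ centralizer (W : Set G), s * t = t * s) : False := by
  classical
  have hTeq : ∀ {t : G}, t ∈ R ⊓ centralizer (W : Set G) ↔ t ∈ R ∧ ∀ w ∈ W, w * t = t * w := h.mem_T
  generalize hTdef : R ⊓ centralizer (W : Set G) = T at *
  have hTp : IsPGroup p T := h.hR.to_le (by rw [← hTdef]; exact inf_le_left)
  have hTR : T ≤ R := by rw [← hTdef]; exact inf_le_left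
  have hyN : y ∈ normalizer (T : Set G) := by
    rw [← hTdef]
    exact h.T_norm_R hyR
  have haN : a₀ ∈ normalizer (T : Set G) := by
    rw [← hTdef]
    exact h.T_norm_A ha₀
  have hWT : W ≤ T := by
    intro w hw
    rw [hTeq]
    exact ⟨h.hWR hw, fun w' hw' => h.hWc _ hw' _ hw⟩
  obtain ⟨z, hzW, hz1, hzc, w, hwW, hwz, ν, ζ, j, hζ', hjν, hν, hζ⟩ := h.exists_eigen hnot ha₀
  have hcb : commutator ↥T = ⊥ := by
    rw [commutator_def, commutator_eq_bot_iff_le_centralizer]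
    intro a _
    rw [mem_centralizer_iff]
    intro b _
    exact Subtype.ext (hTab _ b.2 _ a.2)
  have hinj : ∀ a b : ↥T, (Abelianization.of a : Abelianization ↥T) = Abelianization.of b → a = b := by
    intro a b hab
    rw [ab_of_eq_iff, hcb, Subgroup.mem_bot, mul_inv_eq_one] at hab
    exact hab
  set z' : ↥T := ⟨z, hWT hzW⟩ with hz'
  set w' : ↥T := ⟨w, hWT hwW⟩ with hw'
  set α := abHomOf T ⟨a₀, haN⟩ with hα
  set θ := abHomOf T ⟨y, hyN⟩ with hθ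
  have hαz : α (Abelianization.of z') = (Abelianization.of z') ^ ζ := by
    rw [hα, abHomOf_of, ← map_pow]
    congr 1
    apply Subtype.ext
    simpa [conjHomOf_coe] using hζ'
  have hαw : α (Abelianization.of w') = (Abelianization.of z') ^ j * (Abelianization.of w') ^ ν := by
    rw [hα, abHomOf_of, ← map_pow, ← map_pow, ← map_mul]
    congr 1
    apply Subtype.ext
    simpa [conjHomOf_coe] using hjν
  have hφ : ∀ x, x ^ p = 1 → α (α x) * x ^ (ν * ζ) = (α x) ^ (ν + ζ) := by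
    intro x hx
    obtain ⟨t, rfl⟩ := ab_of_surj _ x
    rw [← map_pow, ← map_one (Abelianization.of : ↥T →* Abelianization ↥T)] at hx
    have h1 := hinj _ _ hx
    have h2 : (t : G) ^ p = 1 := by
      have := congrArg Subtype.val h1
      simpa using this
    have h3 : (t : G) ∈ W := by
      apply h.T_omega _ h2
      rw [hTdef]
      exact t.2
    obtain ⟨i, k, e⟩ := h.W_gen hzW hwW hz1 hwz _ h3
    have e2 : t = z' ^ i * w' ^ k := by
      apply Subtype.ext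
      simpa using e
    have hPz := phi_of_eigen α ν ζ hαz
    have hPy : α ((Abelianization.of z') ^ j) = ((Abelianization.of z') ^ j) ^ ζ := by
      rw [map_pow, hαz, ← pow_mul, ← pow_mul, mul_comm]
    have hPw := phi_of_triang α ν ζ hαw hPy
    rw [e2, map_mul, map_pow, map_pow]
    exact phi_mul α ν ζ (phi_pow α ν ζ hPz i) (phi_pow α ν ζ hPw k)
  obtain ⟨hc1, hc2, -⟩ := chain_setup h.hodd T hTp hyN haN hypT ht₀ e₀ hm0 hm1 hm2 ν ζ hν hζ hφ
  -- the commutators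
  have hκ : ∀ t ∈ T, y * t * y⁻¹ * t⁻¹ ∈ W ∧ y * (y * t * y⁻¹ * t⁻¹) = (y * t * y⁻¹ * t⁻¹) * y := by
    intro t ht
    set s₁ : ↥T := conjHomOf T (normalizer (T : Set G)) le_rfl ⟨y, hyN⟩ ⟨t, ht⟩ with hs₁
    set s₂ : ↥T := conjHomOf T (normalizer (T : Set G)) le_rfl ⟨y, hyN⟩ s₁ with hs₂
    have hs₁c : (s₁ : G) = y * t * y⁻¹ := rfl
    have hs₂c : (s₂ : G) = y * (s₁ : G) * y⁻¹ := rfl
    have e1 : s₂ * ⟨t, ht⟩ = s₁ ^ 2 := by
      apply hinj
      have := hc1 (Abelianization.of ⟨t, ht⟩)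
      rw [abHomOf_of, abHomOf_of, ← map_mul, ← map_pow] at this
      exact this
    have e2 : s₁ ^ p = ⟨t, ht⟩ ^ p := by
      apply hinj
      have := hc2 (Abelianization.of ⟨t, ht⟩)
      rw [abHomOf_of] at this
      rw [map_pow, map_pow]
      exact this
    have e1' : (s₂ : G) * t = (s₁ : G) ^ 2 := by
      have := congrArg Subtype.val e1
      simpa using this
    have e2' : (s₁ : G) ^ p = t ^ p := by
      have := congrArg Subtype.val e2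
      simpa using this
    have hcomm1 : Commute (s₁ : G) t⁻¹ := hTab _ s₁.2 _ (T.inv_mem ht)
    have hv : (s₁ : G) * t⁻¹ ∈ W := by
      apply h.T_omega
      · rw [hTdef]
        exact T.mul_mem s₁.2 (T.inv_mem ht)
      · rw [hcomm1.mul_pow, e2', inv_pow, mul_inv_cancel]
    refine ⟨hv, ?_⟩
    rw [← hs₁c]
    have hcomm2 : Commute (s₂ : G) (t : G)⁻¹ := hTab _ s₂.2 _ (T.inv_mem ht)
    have e3 : (s₂ : G) = (s₁ : G) ^ 2 * t⁻¹ := eq_mul_inv_of_mul_eq e1'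
    have e4 : y * ((s₁ : G) * t⁻¹) * y⁻¹ = (s₂ : G) * (s₁ : G)⁻¹ := by
      have : y * (t : G)⁻¹ * y⁻¹ = (s₁ : G)⁻¹ := by
        rw [hs₁c]
        group
      calc y * ((s₁ : G) * t⁻¹) * y⁻¹ = (y * (s₁ : G) * y⁻¹) * (y * (t : G)⁻¹ * y⁻¹) := by group
        _ = _ := by rw [this, ← hs₂c]
    have e5 : (s₂ : G) * (s₁ : G)⁻¹ = (s₁ : G) * t⁻¹ := by
      rw [e3, pow_two, mul_assoc, mul_assoc, ← hcomm1.inv_left.eq]
      group
    rw [e5] at e4
    exact (mul_inv_eq_iff_eq_mul.1 e4)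
  have hcen : ∀ c ∈ W, y * c = c * y → ∀ r ∈ R, c * r = r * c := by
    intro c hc hyc r hr
    obtain ⟨i, t, ht, rfl⟩ := hgen r hr
    have h1 : Commute c y := hyc.symm
    have h2 : Commute c t := (hTeq.1 (hTdef ▸ ht)).2 c hc
    exact ((h1.pow_right i).mul_right h2).eq
  set Sb : Subgroup ↥R := W.subgroupOf R ⊓ center ↥R with hSb
  have hmem : ∀ r : ↥R, r ∈ Sb ↔ (r : G) ∈ W ∧ ∀ s ∈ R, (r : G) * s = s * r := by
    intro r
    rw [hSb, Subgroup.mem_inf, Subgroup.mem_subgroupOf, Subgroup.mem_center_iff]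
    constructor
    · rintro ⟨h1, h2⟩
      refine ⟨h1, fun s hs => ?_⟩
      exact (congrArg Subtype.val (h2 ⟨s, hs⟩)).symm
    · rintro ⟨h1, h2⟩
      refine ⟨h1, fun s => Subtype.ext (h2 s s.2).symm⟩
  haveI hSn : Sb.Normal := by
    constructor
    intro n hn g
    have h1 := (hmem n).1 hn
    have h2 : g * n * g⁻¹ = n := by
      apply Subtype.ext
      simp only [Subgroup.coe_mul, InvMemClass.coe_inv]
      rw [← h1.2 g g.2]
      group
    rw [h2]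
    exact hn
  let π := QuotientGroup.mk' Sb
  set Y : ↥R := ⟨y, hyR⟩ with hY
  have hπ : ∀ x x' : ↥R, ⁅x, x'⁆ ∈ Sb → Commute (π x) (π x') := by
    intro x x' hxx
    rw [← commutatorElement_eq_one_iff_commute, ← map_commutatorElement]
    exact (QuotientGroup.eq_one_iff _).2 hxx
  have hYτ : ∀ τ : ↥R, (τ : G) ∈ T → Commute (π Y) (π τ) := by
    intro τ hτ
    apply hπ
    rw [hmem]
    obtain ⟨h1, h2⟩ := hκ τ hτ
    have e : ((⁅Y, τ⁆ : ↥R) : G) = y * τ * y⁻¹ * (τ : G)⁻¹ := by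
      simp [commutatorElement_def, hY]
    rw [e]
    exact ⟨h1, hcen _ h1 h2⟩
  have hττ : ∀ τ τ' : ↥R, (τ : G) ∈ T → (τ' : G) ∈ T → Commute (π τ) (π τ') := by
    intro τ τ' h1 h2
    have : τ * τ' = τ' * τ := Subtype.ext (hTab _ h1 _ h2)
    show π τ * π τ' = π τ' * π τ
    rw [← map_mul, this, map_mul]
  have hdec : ∀ r : ↥R, ∃ (i : ℕ) (τ : ↥R), (τ : G) ∈ T ∧ r = Y ^ i * τ := by
    intro r
    obtain ⟨i, t, ht, e⟩ := hgen r r.2
    refine ⟨i, ⟨t, hTR ht⟩, ht, Subtype.ext ?_⟩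
    simpa [hY] using e
  have hall : ∀ r₁ r₂ : ↥R, Commute (π r₁) (π r₂) := by
    intro r₁ r₂
    obtain ⟨i, τ₁, h1, rfl⟩ := hdec r₁
    obtain ⟨j, τ₂, h2, rfl⟩ := hdec r₂
    rw [map_mul, map_mul, map_pow, map_pow]
    apply Commute.mul_left
    · apply Commute.pow_left
      apply Commute.mul_right
      · exact (Commute.refl _).pow_right _
      · exact hYτ _ h2
    · apply Commute.mul_right
      · exact (hYτ _ h1).symm.pow_right _
      · exact hττ _ _ h1 h2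
  apply h.class2_contra hnot
  intro x hx x' hx'
  have h1 := hall ⟨x, hx⟩ ⟨x', hx'⟩
  rw [← commutatorElement_eq_one_iff_commute, ← map_commutatorElement] at h1
  have h2 := (hmem _).1 ((QuotientGroup.eq_one_iff _).1 h1)
  simpa [commutatorElement_def] using h2

end Gap4

end Cfsg.Agent.Lib.FT
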