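import Cfsg.Agent.Lib.FT.BG4c

/-!
Rank two `p`-groups under an odd coprime action: the centralizer of `W` non-abelian.
-/

set_option autoImplicit false
set_option linter.unusedSectionVars false
set_option linter.style.haveILetI false

namespace Cfsg.Agent.Lib.FT

open Subgroup Cfsg Cfsg.Agent.Lib.Basic Cfsg.Agent.Lib.OddLocal Cfsg.Agent.Lib.Coprime

open scoped commutatorElement

universe u

theorem uniqueP_of_zpowers {Q : Type*} [Group Q] [Finite Q] {p : ℕ} [hp : Fact p.Prime] (w₀ : Q) (hw : w₀ ^ p = 1) (hw1 : w₀ ≠ 1)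
    (hall : ∀ u : Q, u ^ p = 1 → u ∈ zpowers w₀) : UniqueP p Q := by
  have hc : Nat.card (zpowers w₀) = p := by
    rw [Nat.card_zpowers]
    exact orderOf_eq_prime hw hw1
  have key : ∀ H : Subgroup Q, Nat.card H = p → H = zpowers w₀ := by
    intro H hH
    apply Subgroup.eq_of_le_of_card_ge
    · intro u hu
      apply hall
      have h1 : (⟨u, hu⟩ : ↥H) ^ Nat.card H = 1 := pow_card_eq_one'
      rw [hH] at h1
      have := congrArg Subtype.val h1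
      simpa using this
    · rw [hH, hc]
  intro H K hH hK
  rw [key H hH, key K hK]

variable {G : Type u} [Group G] [Finite G]

namespace Gap4

variable {p : ℕ} [hp : Fact p.Prime] {R A W : Subgroup G} (h : Gap4 p R A W)

include h

theorem hact : CoprimeAction A R := by
  refine ⟨h.hA, ?_, Or.inr ?_⟩
  · obtain ⟨n, hn⟩ := IsPGroup.iff_card.1 h.hR
    rw [hn]
    exact Nat.Coprime.pow_right _ h.hcop
  · haveI : Group.IsNilpotent R := h.hR.isNilpotent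
    infer_instance

/-- The commutators `[w, y]` are `a₀`-eigenvectors. -/
theorem comm_eigen {y a₀ t₀ w : G} {m : ℕ} (hyR : y ∈ R) (ht₀ : t₀ ∈ R ⊓ centralizer (W : Set G))
    (e₀ : a₀ * y * a₀⁻¹ = y ^ m * t₀) (hw : w ∈ W) (hfix : a₀ * w * a₀⁻¹ = w) :
    a₀ * (w * y * w⁻¹ * y⁻¹) * a₀⁻¹ = (w * y * w⁻¹ * y⁻¹) ^ m := by
  set z := w * y * w⁻¹ * y⁻¹ with hz
  have hzc : ∀ s ∈ R, z * s = s * z := h.hWZ w hw y hyR
  have hwy : w * y * w⁻¹ = z * y := by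
    rw [hz]
    group
  have hpow : ∀ k : ℕ, w * y ^ k * w⁻¹ = z ^ k * y ^ k := by
    intro k
    rw [← conj_pow, hwy]
    exact (show Commute z y from hzc y hyR).mul_pow k
  have ht₀w : w * t₀ = t₀ * w := (h.mem_T.1 ht₀).2 w hw
  calc a₀ * z * a₀⁻¹ = (a₀ * w * a₀⁻¹) * (a₀ * y * a₀⁻¹) * (a₀ * w * a₀⁻¹)⁻¹ * (a₀ * y * a₀⁻¹)⁻¹ := by
        rw [hz]
        group
    _ = w * (y ^ m * t₀) * w⁻¹ * (y ^ m * t₀)⁻¹ := by rw [hfix, e₀]
    _ = (w * y ^ m * w⁻¹) * (w * t₀ * w⁻¹) * (y ^ m * t₀)⁻¹ := by group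
    _ = (z ^ m * y ^ m) * t₀ * (y ^ m * t₀)⁻¹ := by
        rw [hpow, ht₀w, mul_inv_cancel_right]
    _ = z ^ m := by group

/-- An element of order `p` generating a subgroup normalized by `R` is central. -/
theorem central_of_norm {x : G} (hxR : x ∈ R) (hx1 : x ≠ 1) (hxp : x ^ p = 1)
    (hn : ∀ r ∈ R, r * x * r⁻¹ ∈ zpowers x) : ∀ r ∈ R, x * r = r * x := by
  classical
  haveI : Group.IsNilpotent ↥R := h.hR.isNilpotent
  set E : Subgroup ↥R := (zpowers x).subgroupOf R with hE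
  have hmemE : ∀ a : ↥R, a ∈ E ↔ (a : G) ∈ zpowers x := fun a => Subgroup.mem_subgroupOf
  haveI hEn : E.Normal := by
    constructor
    intro e he r
    rw [hmemE] at he ⊢
    obtain ⟨i, hi⟩ := he
    have h1 := hn r r.2
    simp only [Subgroup.coe_mul, InvMemClass.coe_inv]
    rw [← hi, ← conj_zpow]
    exact Subgroup.zpow_mem _ h1 _
  have hne : E ≠ ⊥ := by
    intro hb
    have h1 : (⟨x, hxR⟩ : ↥R) ∈ E := (hmemE _).2 (mem_zpowers x)
    rw [hb, Subgroup.mem_bot] at h1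
    exact hx1 (congrArg Subtype.val h1)
  obtain ⟨⟨z, hzm⟩, hz1⟩ := Subgroup.ne_bot_iff_exists_ne_one.mp (normal_inf_center_ne_bot E hne)
  obtain ⟨hzE, hzZ⟩ := Subgroup.mem_inf.1 hzm
  have hz1' : (z : G) ≠ 1 := fun hc => hz1 (Subtype.ext (Subtype.ext hc))
  have hzx : (z : G) ∈ zpowers x := (hmemE _).1 hzE
  have hcard : Nat.card (zpowers x) = p := by
    rw [Nat.card_zpowers]
    exact orderOf_eq_prime hxp hx1
  have hx_z : x ∈ zpowers (z : G) := by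
    have h2 : (⟨(z : G), hzx⟩ : ↥(zpowers x)) ≠ 1 := fun hc => hz1' (congrArg Subtype.val hc)
    have h3 := mem_zpowers_of_prime_card hcard h2 (g' := ⟨x, mem_zpowers x⟩)
    obtain ⟨i, hi⟩ := h3
    exact ⟨i, by simpa using congrArg Subtype.val hi⟩
  obtain ⟨i, hi⟩ := hx_z
  intro r hr
  have h4 : (z : G) * r = r * z := (congrArg Subtype.val (Subgroup.mem_center_iff.1 hzZ ⟨r, hr⟩)).symm
  rw [← hi]
  exact ((Commute.zpow_left (show Commute (z : G) r from h4)) i).eq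

/-- `[T, A]` is abelian. -/
theorem T0_comm : IsMulCommutative ↥(⁅R ⊓ centralizer (W : Set G), A⁆ : Subgroup G) := by
  classical
  have hTR : R ⊓ centralizer (W : Set G) ≤ R := inf_le_left
  have hactT := h.hact.mono hTR h.T_norm_A
  have hT₀T := hactT.commutator_le_self
  have hT₀A := hactT.le_normalizer_commutator
  have hT₀eq := hactT.commutator_commutator_eq
  set T := R ⊓ centralizer (W : Set G) with hT
  set T₀ : Subgroup G := ⁅T, A⁆ with hT₀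
  have hTp : IsPGroup p T := h.hR.to_le hTR
  have hfib := fiber_of_central_omega (G := G) p h.hodd _ T rfl hTp (by
    intro u hu hup g hg
    have h1 := h.T_omega hu hup
    exact ((h.mem_T.1 hg).2 u h1).symm)
  have hf : ∀ x y : ↥T₀, x ^ p = y ^ p → x⁻¹ * y ∈ W.subgroupOf T₀ := by
    intro x y hxy
    rw [Subgroup.mem_subgroupOf]
    have h1 : (x : G) ^ p = (y : G) ^ p := by
      have := congrArg Subtype.val hxy
      simpa using this
    have h2 := hfib x (hT₀T x.2) y (hT₀T y.2) h1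
    have hu : ((x⁻¹ * y : ↥T₀) : G) = (x : G)⁻¹ * (y : G) := by simp
    rw [hu]
    exact h.T_omega (T.mul_mem (T.inv_mem (hT₀T x.2)) (hT₀T y.2)) h2
  have hidx := index_powSub_le_of_fiber p (W.subgroupOf T₀) hf
  have hcard : Nat.card (W.subgroupOf T₀) ≤ p ^ 2 := by
    rw [← h.hW2]
    have hinj : Function.Injective (fun x : ↥(W.subgroupOf T₀) => (⟨((x : ↥T₀) : G), Subgroup.mem_subgroupOf.1 x.2⟩ : ↥W)) := by
      intro a b hab
      apply Subtype.ext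
      apply Subtype.ext
      exact congrArg (fun z : ↥W => (z : G)) hab
    exact Nat.card_le_card_of_injective _ hinj
  exact comm_of_commutator_eq p h.hodd T₀ A (hTp.to_le hT₀T) hT₀A h.hcop hT₀eq (hidx.trans hcard)

/-- If `[T, A]` is normal in `R` then `C_T(A) ≤ [T, A]`. -/
theorem final_C_le {y : G} (hyR : y ∈ R)
    (hgen : ∀ r ∈ R, ∃ (i : ℕ) (t : G), t ∈ R ⊓ centralizer (W : Set G) ∧ r = y ^ i * t)
    (hn : R ≤ normalizer ((⁅R ⊓ centralizer (W : Set G), A⁆ : Subgroup G) : Set G)) :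
    (R ⊓ centralizer (W : Set G)) ⊓ centralizer (A : Set G) ≤ ⁅R ⊓ centralizer (W : Set G), A⁆ := by
  classical
  have hTR : R ⊓ centralizer (W : Set G) ≤ R := inf_le_left
  have hactT := h.hact.mono hTR h.T_norm_A
  have hT₀T := hactT.commutator_le_self
  have hT₀A := hactT.le_normalizer_commutator
  have hT₀R := hT₀T.trans hTR
  have hdec := fun {x} (hx : x ∈ R ⊓ centralizer (W : Set G)) => hactT.exists_commutator_mul_centralizer hx
  have hTnorm := h.T_norm_R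
  have hTnormA := h.T_norm_A
  have hRA := h.hRA
  have hact := h.hact
  generalize hTdef : R ⊓ centralizer (W : Set G) = T at *
  generalize hT₀def : (⁅T, A⁆ : Subgroup G) = T₀ at *
  set N₀ : Subgroup ↥R := T₀.subgroupOf R with hN₀
  have hmemN₀ : ∀ a : ↥R, a ∈ N₀ ↔ (a : G) ∈ T₀ := fun a => Subgroup.mem_subgroupOf
  haveI hN₀n : N₀.Normal := by
    constructor
    intro e he r
    rw [hmemN₀] at he ⊢
    exact bg4_conj_mem (hn r.2) he
  let π := QuotientGroup.mk' N₀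
  have hπeq : ∀ a b : ↥R, (a : G) * (b : G)⁻¹ ∈ T₀ → π a = π b := by
    intro a b hab
    have h1 : a * b⁻¹ ∈ N₀ := (hmemN₀ _).2 (by simpa using hab)
    have h2 : π (a * b⁻¹) = 1 := (QuotientGroup.eq_one_iff _).2 h1
    rw [map_mul, map_inv, mul_inv_eq_one] at h2
    exact h2
  -- the centrality of `C_T(A)`
  have hcent : ∀ c ∈ T, (∀ a ∈ A, a * c * a⁻¹ = c) → ∀ (hc' : c ∈ R) (r : ↥R), Commute (π r) (π ⟨c, hc'⟩) := by
    intro c hcT hcA hc'
    set c' : ↥R := ⟨c, hc'⟩ with hc''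
    set D : Subgroup ↥R := (centralizer ({π c'} : Set (↥R ⧸ N₀))).comap π with hD
    have hmemD : ∀ r : ↥R, r ∈ D ↔ Commute (π r) (π c') := by
      intro r
      rw [hD, Subgroup.mem_comap, mem_centralizer_singleton_iff]
      rfl
    have hle : ⁅R, A⁆ ≤ D.map R.subtype := by
      rw [Subgroup.commutator_le]
      intro r hr a ha
      have hr₁ : a * r⁻¹ * a⁻¹ ∈ R := bg4_conj_mem (h.hA ha) (R.inv_mem hr)
      refine ⟨⟨r, hr⟩ * ⟨a * r⁻¹ * a⁻¹, hr₁⟩, ?_, ?_⟩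
      · refine (hmemD _).2 ?_
        have hsT : r⁻¹ * c * r⁻¹⁻¹ ∈ T := bg4_conj_mem (hTnorm (R.inv_mem hr)) hcT
        obtain ⟨n, hnT, c₂, hc₂, e⟩ := hdec hsT
        have hc₂A : a * c₂ * a⁻¹ = c₂ := by
          have := (mem_centralizer_iff.1 (Subgroup.mem_inf.1 hc₂).2) a ha
          rw [this]
          group
        have hnT' : a * n * a⁻¹ * n⁻¹ ∈ T₀ :=
          T₀.mul_mem (bg4_conj_mem (hT₀A ha) hnT) (T₀.inv_mem hnT)
        set R' : ↥R := ⟨r, hr⟩ with hR'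
        set r₁ : ↥R := ⟨a * r⁻¹ * a⁻¹, hr₁⟩ with hr₁'
        have hE : π (r₁ * c' * r₁⁻¹) = π (R'⁻¹ * c' * R') := by
          apply hπeq
          have e1 : ((r₁ * c' * r₁⁻¹ : ↥R) : G) = a * (r⁻¹ * c * r⁻¹⁻¹) * a⁻¹ := by
            simp only [hr₁', hc'', Subgroup.coe_mul, InvMemClass.coe_inv]
            have := hcA a ha
            calc a * r⁻¹ * a⁻¹ * c * (a * r⁻¹ * a⁻¹)⁻¹ = a * r⁻¹ * a⁻¹ * (a * c * a⁻¹) * (a * r⁻¹ * a⁻¹)⁻¹ := by rw [this]
              _ = _ := by group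
          have e2 : ((R'⁻¹ * c' * R' : ↥R) : G) = r⁻¹ * c * r⁻¹⁻¹ := by
            simp [hR', hc'']
          rw [e1, e2, e]
          have e3 : a * (n * c₂) * a⁻¹ * (n * c₂)⁻¹ = a * n * a⁻¹ * n⁻¹ := by
            calc a * (n * c₂) * a⁻¹ * (n * c₂)⁻¹ = a * n * a⁻¹ * (a * c₂ * a⁻¹) * c₂⁻¹ * n⁻¹ := by group
              _ = _ := by rw [hc₂A]; group
          rw [e3]
          exact hnT'
        rw [map_mul, map_mul, map_inv, map_mul, map_mul, map_inv] at hE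
        rw [map_mul]
        show π R' * π r₁ * π c' = π c' * (π R' * π r₁)
        calc π R' * π r₁ * π c' = π R' * (π r₁ * π c' * (π r₁)⁻¹) * π r₁ := by group
          _ = π R' * ((π R')⁻¹ * π c' * π R') * π r₁ := by rw [hE]
          _ = _ := by group
      · simp only [Subgroup.subtype_apply, Subgroup.coe_mul]
        rw [commutatorElement_def]
        group
    intro r
    have h1 : (r : G) ∈ ⁅R, A⁆ := by
      rw [hRA]
      exact r.2
    obtain ⟨r', hr', e⟩ := hle h1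
    have : r' = r := Subtype.ext e
    rw [← this]
    exact (hmemD r').1 hr'
  have hcentT : ∀ t ∈ T, ∀ (ht' : t ∈ R) (r : ↥R), Commute (π r) (π ⟨t, ht'⟩) := by
    intro t ht ht' r
    obtain ⟨n, hnT, c₂, hc₂, e⟩ := hdec ht
    obtain ⟨hc₂T, hc₂A⟩ := Subgroup.mem_inf.1 hc₂
    have hπ : π ⟨t, ht'⟩ = π ⟨c₂, hTR hc₂T⟩ := by
      apply hπeq
      show t * c₂⁻¹ ∈ T₀
      rw [e, mul_inv_cancel_right]
      exact hnT
    rw [hπ]
    apply hcent c₂ hc₂T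
    intro a ha
    have := (mem_centralizer_iff.1 hc₂A) a ha
    rw [this]
    group
  set Y : ↥R := ⟨y, hyR⟩ with hY
  have hdec₂ : ∀ r : ↥R, ∃ (i : ℕ) (τ : G) (hτ : τ ∈ T) (hτ' : τ ∈ R), r = Y ^ i * ⟨τ, hτ'⟩ := by
    intro r
    obtain ⟨i, t, ht, e⟩ := hgen r r.2
    refine ⟨i, t, ht, hTR ht, Subtype.ext ?_⟩
    simpa [hY] using e
  have hall : ∀ r₁ r₂ : ↥R, Commute (π r₁) (π r₂) := by
    intro r₁ r₂
    obtain ⟨i, τ₁, h1, h1', e₁⟩ := hdec₂ r₁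
    obtain ⟨j, τ₂, h2, h2', e₂⟩ := hdec₂ r₂
    have hYr : Commute (π Y) (π r₂) := by
      rw [e₂, map_mul, map_pow]
      exact ((Commute.refl _).pow_right _).mul_right (hcentT τ₂ h2 h2' Y)
    rw [e₁, map_mul, map_pow]
    exact (hYr.pow_left i).mul_left (hcentT τ₁ h1 h1' r₂).symm
  have hab : ⁅R, R⁆ ≤ T₀ := by
    rw [Subgroup.commutator_le]
    intro x hx x' hx'
    have h1 := hall ⟨x, hx⟩ ⟨x', hx'⟩
    rw [← commutatorElement_eq_one_iff_commute, ← map_commutatorElement] at h1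
    have h2 := (hmemN₀ _).1 ((QuotientGroup.eq_one_iff _).1 h1)
    simpa [commutatorElement_def] using h2
  have hfinal := hact.centralizer_le_of_commutator_eq hT₀R hT₀A hn hab hRA
  intro x hx
  obtain ⟨hxT, hxA⟩ := Subgroup.mem_inf.1 hx
  exact hfinal (Subgroup.mem_inf.2 ⟨hTR hxT, hxA⟩)

theorem pow_eq_pow_zmod {z : G} {a b : ℕ} (hz : z ^ p = 1) (hz1 : z ≠ 1) (hab : z ^ a = z ^ b) : (a : ZMod p) = b := by
  have hord : orderOf z = p := orderOf_eq_prime hz hz1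
  have h1 := (pow_eq_pow_iff_modEq).1 hab
  rw [hord] at h1
  exact (ZMod.natCast_eq_natCast_iff _ _ _).2 h1

/-- The case of a non-abelian centralizer of `W`. -/
theorem branchB (hnot : ¬ ∀ w ∈ W, ∀ r ∈ R, w * r = r * w) {y a₀ t₀ : G} {m : ℕ} (hyR : y ∈ R)
    (hypT : y ^ p ∈ R ⊓ centralizer (W : Set G))
    (hgen : ∀ r ∈ R, ∃ (i : ℕ) (t : G), t ∈ R ⊓ centralizer (W : Set G) ∧ r = y ^ i * t)
    (ha₀ : a₀ ∈ A) (ht₀ : t₀ ∈ R ⊓ centralizer (W : Set G)) (e₀ : a₀ * y * a₀⁻¹ = y ^ m * t₀)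
    (hm0 : (m : ZMod p) ≠ 0) (hm1 : (m : ZMod p) ≠ 1) (hm2 : (m : ZMod p) ^ 2 ≠ 1)
    (hTnab : ¬ ∀ s ∈ R ⊓ centralizer (W : Set G), ∀ t ∈ R ⊓ centralizer (W : Set G), s * t = t * s) : False := by
  classical
  have hTR : R ⊓ centralizer (W : Set G) ≤ R := inf_le_left
  have hactT := h.hact.mono hTR h.T_norm_A
  have hT₀T := hactT.commutator_le_self
  have hT₀A := hactT.le_normalizer_commutator
  have hT₀N := hactT.le_normalizer_commutator'
  have hT₀eq := hactT.commutator_commutator_eq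
  have hab := h.T0_comm
  have hact₀ := hactT.mono hT₀T hT₀A
  have hbot := hact₀.centralizer_eq_bot_of_commutator_eq hab hT₀eq
  have hdec := fun {x} (hx : x ∈ R ⊓ centralizer (W : Set G)) => hactT.exists_commutator_mul_centralizer hx
  have hTeq : ∀ {t : G}, t ∈ R ⊓ centralizer (W : Set G) ↔ t ∈ R ∧ ∀ w ∈ W, w * t = t * w := h.mem_T
  have hTomega : ∀ {u : G}, u ∈ R ⊓ centralizer (W : Set G) → u ^ p = 1 → u ∈ W := h.T_omega
  have hTN := h.T_norm_R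
  have hTNA := h.T_norm_A
  have hfinal := h.final_C_le hyR hgen
  have hE : ∀ {w : G}, w ∈ W → a₀ * w * a₀⁻¹ = w →
      a₀ * (w * y * w⁻¹ * y⁻¹) * a₀⁻¹ = (w * y * w⁻¹ * y⁻¹) ^ m := fun hw hfix => h.comm_eigen hyR ht₀ e₀ hw hfix
  generalize hTdef : R ⊓ centralizer (W : Set G) = T at *
  generalize hT₀def : (⁅T, A⁆ : Subgroup G) = T₀ at *
  have hTp : IsPGroup p T := h.hR.to_le hTR
  have hT₀p : IsPGroup p T₀ := hTp.to_le hT₀T
  set C : Subgroup G := T ⊓ centralizer (A : Set G) with hC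
  have hCT : C ≤ T := inf_le_left
  have hCp : IsPGroup p C := hTp.to_le hCT
  have hCA : ∀ x ∈ C, ∀ a ∈ A, a * x * a⁻¹ = x := by
    intro x hx a ha
    have := (mem_centralizer_iff.1 (Subgroup.mem_inf.1 hx).2) a ha
    rw [this]
    group
  have hT₀C : ∀ x, x ∈ T₀ → x ∈ C → x = 1 := by
    intro x h1 h2
    have : x ∈ T₀ ⊓ centralizer (A : Set G) := Subgroup.mem_inf.2 ⟨h1, (Subgroup.mem_inf.1 h2).2⟩
    rw [hbot] at this
    exact this
  have hWT : W ≤ T := by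
    intro w hw
    rw [hTeq]
    exact ⟨h.hWR hw, fun w' hw' => h.hWc _ hw' _ hw⟩
  have hWcomT : ∀ w ∈ W, ∀ t ∈ T, w * t = t * w := fun w hw t ht => (hTeq.1 ht).2 w hw
  have hCne : C ≠ ⊥ := by
    intro hb
    apply hTnab
    have hTT₀ : T ≤ T₀ := by
      intro t ht
      obtain ⟨n, hn, c, hc, e⟩ := hdec ht
      rw [hb, Subgroup.mem_bot] at hc
      rw [e, hc, mul_one]
      exact hn
    intro s hs t ht
    have := hab.is_comm.comm (⟨s, hTT₀ hs⟩ : ↥T₀) ⟨t, hTT₀ ht⟩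
    exact congrArg Subtype.val this
  obtain ⟨w₁, hw₁C, hw₁1, hw₁p⟩ := exists_order_p_of_ne_bot p hCp hCne
  have hw₁W : w₁ ∈ W := hTomega (hCT hw₁C) hw₁p
  have hcent_of_y : ∀ w ∈ W, w * y * w⁻¹ * y⁻¹ = 1 → ∀ r ∈ R, w * r = r * w := by
    intro w hw hwy r hr
    obtain ⟨i, t, ht, rfl⟩ := hgen r hr
    have h1 : Commute w y := by
      show w * y = y * w
      have : w * y * w⁻¹ * y⁻¹ * (y * w) = y * w := by rw [hwy, one_mul]
      rw [← this]
      group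
    exact ((h1.pow_right i).mul_right (hWcomT w hw t ht)).eq
  have hT₀ne : T₀ ≠ ⊥ := by
    intro hb
    apply hnot
    intro w hw r hr
    have hWA : a₀ * w * a₀⁻¹ = w := by
      obtain ⟨n, hn, c, hc, e⟩ := hdec (hWT hw)
      rw [hb, Subgroup.mem_bot] at hn
      rw [hn, one_mul] at e
      rw [e]
      exact hCA c hc a₀ ha₀
    apply hcent_of_y w hw _ r hr
    by_contra hz1
    have hzW : w * y * w⁻¹ * y⁻¹ ∈ W := by
      have : w * y * w⁻¹ * y⁻¹ = w * (y * w⁻¹ * y⁻¹) := by group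
      rw [this]
      exact W.mul_mem hw (bg4_conj_mem (h.hWn hyR) (W.inv_mem hw))
    have h3 := hE hw hWA
    have hWA' : a₀ * (w * y * w⁻¹ * y⁻¹) * a₀⁻¹ = w * y * w⁻¹ * y⁻¹ := by
      obtain ⟨n, hn, c, hc, e⟩ := hdec (hWT hzW)
      rw [hb, Subgroup.mem_bot] at hn
      rw [hn, one_mul] at e
      rw [e]
      exact hCA c hc a₀ ha₀
    rw [hWA'] at h3
    have h4 := pow_eq_pow_zmod h (h.hWe _ hzW) hz1 (a := 1) (b := m) (by rw [pow_one]; exact h3)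
    apply hm1
    rw [← h4]
    simp
  obtain ⟨w₀, hw₀T, hw₀1, hw₀p⟩ := exists_order_p_of_ne_bot p hT₀p hT₀ne
  have hw₀W : w₀ ∈ W := hTomega (hT₀T hw₀T) hw₀p
  have hw₁w₀ : w₁ ∉ zpowers w₀ := by
    intro hc
    have : w₁ ∈ T₀ := (Subgroup.zpowers_le.2 hw₀T) hc
    exact hw₁1 (hT₀C _ this hw₁C)
  have hgenW := h.W_gen hw₀W hw₁W hw₀1 hw₁w₀
  have hT₀u : ∀ u ∈ T₀, u ^ p = 1 → u ∈ zpowers w₀ := by
    intro u hu hup
    obtain ⟨i, k, e⟩ := hgenW u (hTomega (hT₀T hu) hup)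
    have h1 : w₁ ^ k ∈ T₀ := by
      have : w₁ ^ k = (w₀ ^ i)⁻¹ * u := by rw [e]; group
      rw [this]
      exact T₀.mul_mem (T₀.inv_mem (T₀.pow_mem hw₀T i)) hu
    have h2 := hT₀C _ h1 (C.pow_mem hw₁C k)
    rw [e, h2, mul_one]
    exact Subgroup.pow_mem _ (mem_zpowers w₀) i
  have hCu : ∀ u ∈ C, u ^ p = 1 → u ∈ zpowers w₁ := by
    intro u hu hup
    obtain ⟨i, k, e⟩ := hgenW u (hTomega (hCT hu) hup)
    have h1 : w₀ ^ i ∈ C := by
      have : w₀ ^ i = u * (w₁ ^ k)⁻¹ := by rw [e]; group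
      rw [this]
      exact C.mul_mem hu (C.inv_mem (C.pow_mem hw₁C k))
    have h2 := hT₀C _ (T₀.pow_mem hw₀T i) h1
    rw [e, h2, one_mul]
    exact Subgroup.pow_mem _ (mem_zpowers w₁) k
  -- cyclicity
  have hcyc : ∀ (S : Subgroup G) (s : G), s ∈ S → s ≠ 1 → s ^ p = 1 → IsPGroup p S → (∀ u ∈ S, u ^ p = 1 → u ∈ zpowers s) →
      ∃ g ∈ S, ∀ x ∈ S, ∃ i : ℕ, x = g ^ i := by
    intro S s hsS hs1 hsp hSp hall
    have hU : UniqueP p ↥S := by
      apply uniqueP_of_zpowers (⟨s, hsS⟩ : ↥S) (Subtype.ext hsp) (fun hc => hs1 (congrArg Subtype.val hc))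
      intro u hup
      have h1 : (u : G) ^ p = 1 := by
        have := congrArg Subtype.val hup
        simpa using this
      obtain ⟨i, hi⟩ := hall u u.2 h1
      exact ⟨i, Subtype.ext (by simpa using hi)⟩
    obtain ⟨⟨g, hg⟩, hggen⟩ := isCyclic_of_uniqueP_odd h.hodd _ ↥S rfl hSp hU
    refine ⟨g, hg, fun x hx => ?_⟩
    have h1 : (⟨x, hx⟩ : ↥S) ∈ zpowers (⟨g, hg⟩ : ↥S) := hggen ⟨x, hx⟩
    have hfin : IsOfFinOrder (⟨g, hg⟩ : ↥S) := isOfFinOrder_of_finite _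
    rw [← hfin.mem_powers_iff_mem_zpowers] at h1
    obtain ⟨i, hi⟩ := h1
    exact ⟨i, by simpa using (congrArg Subtype.val hi).symm⟩
  obtain ⟨g, hgT₀, hgpow⟩ := hcyc T₀ w₀ hw₀T hw₀1 hw₀p hT₀p hT₀u
  obtain ⟨c, hcC, hcpow⟩ := hcyc C w₁ hw₁C hw₁1 hw₁p hCp hCu
  -- the exponent `μ`
  obtain ⟨μ, hμg⟩ := hgpow _ (bg4_conj_mem (hT₀A ha₀) hgT₀)
  have hμ : ∀ x ∈ T₀, a₀ * x * a₀⁻¹ = x ^ μ := by
    intro x hx
    obtain ⟨i, rfl⟩ := hgpow x hx
    rw [← conj_pow, hμg, ← pow_mul, ← pow_mul, mul_comm]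
  have hμ0 : (μ : ZMod p) ≠ 0 := by
    intro hc
    obtain ⟨k, rfl⟩ := (ZMod.natCast_eq_zero_iff _ _).1 hc
    have h1 := hμ w₀ hw₀T
    rw [pow_mul, hw₀p, one_pow] at h1
    apply hw₀1
    have : a₀⁻¹ * (a₀ * w₀ * a₀⁻¹) * a₀ = w₀ := by group
    rw [← this, h1]
    group
  -- `T' ≤ T₀`
  have hCcomm : ∀ x ∈ C, ∀ x' ∈ C, x * x' = x' * x := by
    intro x hx x' hx'
    obtain ⟨i, rfl⟩ := hcpow x hx
    obtain ⟨j, rfl⟩ := hcpow x' hx'
    exact ((Commute.refl c).pow_pow i j).eq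
  have hTT : ⁅T, T⁆ ≤ T₀ := by
    rw [Subgroup.commutator_le]
    intro s hs t ht
    obtain ⟨n₁, hn₁, c₁, hc₁, e₁⟩ := hdec hs
    obtain ⟨n₂, hn₂, c₂, hc₂, e₂⟩ := hdec ht
    have hcc : c₁ * c₂ = c₂ * c₁ := hCcomm _ hc₁ _ hc₂
    have e : ⁅s, t⁆ = n₁ * (c₁ * n₂ * c₁⁻¹) * (c₂ * n₁⁻¹ * c₂⁻¹) * n₂⁻¹ := by
      rw [commutatorElement_def, e₁, e₂]
      have h1 : c₁ * c₂ * c₁⁻¹ = c₂ := by rw [hcc]; group
      calc n₁ * c₁ * (n₂ * c₂) * (n₁ * c₁)⁻¹ * (n₂ * c₂)⁻¹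
          = n₁ * (c₁ * n₂ * c₁⁻¹) * (c₁ * c₂ * c₁⁻¹) * n₁⁻¹ * c₂⁻¹ * n₂⁻¹ := by group
        _ = _ := by rw [h1]; group
    rw [e]
    have hc₁N := hT₀N (hCT hc₁)
    have hc₂N := hT₀N (hCT hc₂)
    exact T₀.mul_mem (T₀.mul_mem (T₀.mul_mem hn₁ (bg4_conj_mem hc₁N hn₂)) (bg4_conj_mem hc₂N (T₀.inv_mem hn₁))) (T₀.inv_mem hn₂)
  have hTTne : ⁅T, T⁆ ≠ ⊥ := by
    intro hb
    apply hTnab
    intro s hs t ht
    have h1 := Subgroup.commutator_mem_commutator hs ht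
    rw [hb, Subgroup.mem_bot] at h1
    exact commutatorElement_eq_one_iff_mul_comm.1 h1
  obtain ⟨u, huT, hu1, hup⟩ := exists_order_p_of_ne_bot p (hT₀p.to_le hTT) hTTne
  have hw₀T' : w₀ ∈ ⁅T, T⁆ := by
    have h1 : u ∈ zpowers w₀ := hT₀u u (hTT huT) hup
    have hc1 : Nat.card (zpowers w₀) = p := by
      rw [Nat.card_zpowers]
      exact orderOf_eq_prime hw₀p hw₀1
    have hc2 : Nat.card (zpowers u) = p := by
      rw [Nat.card_zpowers]
      exact orderOf_eq_prime hup hu1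
    have h2 : zpowers u = zpowers w₀ :=
      Subgroup.eq_of_le_of_card_ge (Subgroup.zpowers_le.2 h1) (by rw [hc1, hc2])
    have h3 : w₀ ∈ zpowers u := by
      rw [h2]
      exact mem_zpowers w₀
    exact (Subgroup.zpowers_le.2 huT) h3
  have hw₀c : ∀ r ∈ R, w₀ * r = r * w₀ := by
    apply h.central_of_norm (h.hWR hw₀W) hw₀1 hw₀p
    intro r hr
    have h1 : r ∈ normalizer ((⁅T, T⁆ : Subgroup G) : Set G) := mem_normalizer_commutator (hTN hr) (hTN hr)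
    have h2 : r * w₀ * r⁻¹ ∈ ⁅T, T⁆ := bg4_conj_mem h1 hw₀T'
    apply hT₀u _ (hTT h2)
    rw [conj_pow, hw₀p]
    group
  -- the eigenvalue of `y`
  set z₁ := w₁ * y * w₁⁻¹ * y⁻¹ with hz₁
  have hz₁W : z₁ ∈ W := by
    have : z₁ = w₁ * (y * w₁⁻¹ * y⁻¹) := by rw [hz₁]; group
    rw [this]
    exact W.mul_mem hw₁W (bg4_conj_mem (h.hWn hyR) (W.inv_mem hw₁W))
  have hz₁1 : z₁ ≠ 1 := by
    intro hc
    apply hnot
    have h1 := hcent_of_y w₁ hw₁W hc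
    intro t ht r hr
    obtain ⟨i, k, rfl⟩ := hgenW t ht
    exact (((show Commute w₀ r from hw₀c r hr).pow_left i).mul_left ((show Commute w₁ r from h1 r hr).pow_left k)).eq
  have hz₁c := h.hWZ w₁ hw₁W y hyR
  have hz₁z : z₁ ∈ zpowers w₀ := h.Z_unique hnot hw₀W hw₀1 hw₀c hz₁W hz₁c
  have hz₁T : z₁ ∈ T₀ := (Subgroup.zpowers_le.2 hw₀T) hz₁z
  have hμm : (μ : ZMod p) = m := by
    have h1 := hE hw₁W (hCA w₁ hw₁C a₀ ha₀)
    rw [hμ _ hz₁T] at h1
    exact pow_eq_pow_zmod h (h.hWe _ hz₁W) hz₁1 h1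
  -- the chain
  have hyN : y ∈ normalizer (T : Set G) := hTN hyR
  have haN : a₀ ∈ normalizer (T : Set G) := hTNA ha₀
  set g' : ↥T := ⟨g, hT₀T hgT₀⟩ with hg'
  set c' : ↥T := ⟨c, hCT hcC⟩ with hc'
  set α := abHomOf T ⟨a₀, haN⟩ with hα
  set θ := abHomOf T ⟨y, hyN⟩ with hθ
  have hαg : α (Abelianization.of g') = (Abelianization.of g') ^ μ := by
    rw [hα, abHomOf_of, ← map_pow]
    congr 1
    apply Subtype.ext
    simpa [conjHomOf_coe] using hμ g hgT₀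
  have hαc : α (Abelianization.of c') = (Abelianization.of c') ^ 1 := by
    rw [hα, abHomOf_of, ← map_pow]
    congr 1
    apply Subtype.ext
    simpa [conjHomOf_coe] using hCA c hcC a₀ ha₀
  have hφ : ∀ x, x ^ p = 1 → α (α x) * x ^ (μ * 1) = (α x) ^ (μ + 1) := by
    intro x _
    obtain ⟨t, rfl⟩ := ab_of_surj _ x
    obtain ⟨n, hn, c₂, hc₂, e⟩ := hdec t.2
    obtain ⟨i, hi⟩ := hgpow n hn
    obtain ⟨k, hk⟩ := hcpow c₂ hc₂
    have e2 : t = g' ^ i * c' ^ k := by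
      apply Subtype.ext
      simpa [hi, hk] using e
    rw [e2, map_mul, map_pow, map_pow]
    exact phi_mul α μ 1 (phi_pow α μ 1 (phi_of_eigen' α μ 1 hαg) i) (phi_pow α μ 1 (phi_of_eigen α μ 1 hαc) k)
  obtain ⟨-, -, hc3⟩ := chain_setup h.hodd T hTp hyN haN hypT ht₀ e₀ hm0 hm1 hm2 μ 1 hμ0 (by simp) hφ
  rcases hc3 (Abelianization.of g') μ hαg with h1 | h2
  · -- `T₀` is normal
    rw [abHomOf_of, ab_of_eq_iff] at h1
    have hmem : y * g * y⁻¹ * g⁻¹ ∈ ⁅T, T⁆ := by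
      have h3 := Subgroup.mem_map_of_mem T.subtype h1
      rw [Subgroup.map_subtype_commutator] at h3
      simpa [conjHomOf_coe] using h3
    have hyg : y * g * y⁻¹ ∈ T₀ := by
      have := T₀.mul_mem (hTT hmem) hgT₀
      simpa using this
    have hyT₀ : y ∈ normalizer (T₀ : Set G) := by
      apply bg4_mem_normalizer
      intro x hx
      obtain ⟨i, rfl⟩ := hgpow x hx
      rw [← conj_pow]
      exact T₀.pow_mem hyg i
    have hn : R ≤ normalizer (T₀ : Set G) := by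
      intro r hr
      obtain ⟨i, t, ht, rfl⟩ := hgen r hr
      exact Subgroup.mul_mem _ (Subgroup.pow_mem _ hyT₀ i) (hT₀N ht)
    exact hw₁1 (hT₀C _ (hfinal hn hw₁C) hw₁C)
  · rw [Nat.cast_mul, hμm] at h2
    rcases mul_eq_zero.1 h2 with h3 | h3
    · apply hm1
      have h4 : ((m : ZMod p) - 1) * m = 0 := by
        rw [sub_mul, one_mul]
        exact h3
      exact sub_eq_zero.1 ((mul_eq_zero.1 h4).resolve_right hm0)
    · apply hm2
      rw [pow_two]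
      push_cast at h3
      exact sub_eq_zero.1 h3

end Gap4

end Cfsg.Agent.Lib.FT
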