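import Cfsg.Agent.Lib.FT.BG4d

/-!
**S1448**: the structure of `[R, A] = R` for `R` of rank two, `A` odd.
-/

set_option autoImplicit false
set_option linter.unusedSectionVars false
set_option linter.style.haveILetI false

namespace Cfsg.Agent.Lib.FT

open Subgroup Cfsg Cfsg.Agent.Lib.Basic Cfsg.Agent.Lib.OddLocal Cfsg.Agent.Lib.Coprime

open scoped commutatorElement

universe u

variable {G : Type u} [Group G] [Finite G]

/-- `W` is central. -/
theorem Gap4.central {p : ℕ} [hp : Fact p.Prime] {R A W : Subgroup G} (h : Gap4 p R A W) : ∀ w ∈ W, ∀ r ∈ R, w * r = r * w := by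
  by_contra hnot
  obtain ⟨y, hyR, hyT, hypT, hgen⟩ := h.exists_y hnot
  obtain ⟨a₀, ha₀, m, t₀, ht₀, e₀, hm0, hm1, hm2⟩ := h.exists_a hyR hyT hypT hgen
  by_cases hTab : ∀ s ∈ R ⊓ centralizer (W : Set G), ∀ t ∈ R ⊓ centralizer (W : Set G), s * t = t * s
  · exact h.branchA hnot hyR hypT hgen ha₀ ht₀ e₀ hm0 hm1 hm2 hTab
  · exact h.branchB hnot hyR hypT hgen ha₀ ht₀ e₀ hm0 hm1 hm2 hTab

theorem bg4_eq_one_of_coprime {N : Type*} [Group N] [Finite N] (x : N) (n : ℕ) (hx : x ^ n = 1) (hn : n.Coprime (Nat.card N)) :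
    x = 1 := by
  have h1 : orderOf x ∣ n := orderOf_dvd_of_pow_eq_one hx
  have h2 : orderOf x ∣ Nat.card N := orderOf_dvd_natCard x
  exact orderOf_eq_one_iff.1 (Nat.Coprime.eq_one_of_dvd (Nat.Coprime.coprime_dvd_left h1 hn) h2)

section Main

variable (p : ℕ) [hp : Fact p.Prime] (hp2 : p ≠ 2) (R A : Subgroup G) (hR : IsPGroup p R) (hR1 : R ≠ ⊥) (hr : PRankLE p 2 R)
  (hA : A ≤ normalizer (R : Set G)) (hcop : (Nat.card A).Coprime p) (hAodd : Odd (Nat.card A)) (hRA : ⁅R, A⁆ = R)

include hp2 hR hR1 hr hA hcop hAodd hRA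

/-- `p > 3`. -/
theorem s1448_p : 3 < p := by
  classical
  by_contra hle
  have hp3 : p = 3 := by
    have h2 := hp.out.two_le
    have : p ≠ 2 := hp2
    omega
  subst hp3
  have hcop2 : (Nat.card A).Coprime 2 := (Nat.coprime_two_right).2 hAodd
  have hall : ∀ a : ↥A, (orderOf a).Coprime 3 ∧ (orderOf a).Coprime 2 := fun a =>
    ⟨Nat.Coprime.coprime_dvd_left (orderOf_dvd_natCard a) hcop, Nat.Coprime.coprime_dvd_left (orderOf_dvd_natCard a) hcop2⟩
  have hcp : ∀ (a : ↥A) (i j : ℕ), (orderOf a).Coprime (2 ^ i * 3 ^ j) := fun a i j =>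
    Nat.Coprime.mul_right (Nat.Coprime.pow_right _ (hall a).2) (Nat.Coprime.pow_right _ (hall a).1)
  have hfix : ∀ (a : ↥A) (x : ↥R), (a : G) * x * (a : G)⁻¹ = x := by
    intro a
    by_cases hcyc : IsCyclic ↥R
    · have h1 : conjHomOf R A hA a = 1 := by
        apply bg4_eq_one_of_coprime _ (orderOf a) (by rw [← map_pow, pow_orderOf_eq_one, map_one])
        rw [IsCyclic.card_mulAut]
        obtain ⟨n, hn⟩ := IsPGroup.iff_card.1 hR
        rw [hn]
        rcases Nat.eq_zero_or_pos n with rfl | hn0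
        · simpa using hcp a 0 0
        · rw [Nat.totient_prime_pow (by norm_num) hn0]
          have : (3 - 1 : ℕ) = 2 ^ 1 := by norm_num
          rw [this, mul_comm]
          exact hcp a 1 (n - 1)
      intro x
      have h3 := congrArg (fun τ : MulAut ↥R => ((τ x : ↥R) : G)) h1
      exact h3
    · obtain ⟨φ, hφ⟩ := exists_gl2_rep 3 (quot_omegaZ2_comm 3 hp2) (quot_omegaZ2_exp 3 hp2)
        (card_omegaZ2_quot 3 hp2 hR hr hcyc) (sectionHom 3 hp2 R A hA)
      have h1 : φ a = 1 := by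
        apply bg4_eq_one_of_coprime _ (orderOf a) (by rw [← map_pow, pow_orderOf_eq_one, map_one])
        have h5 : Nat.card (GL (Fin 2) (ZMod 3)) = 2 ^ 4 * 3 ^ 1 := by
          rw [Matrix.card_GL_field, Fin.prod_univ_two]
          simp [ZMod.card]
        rw [h5]
        exact hcp a 4 1
      have h2 : sectionHom 3 hp2 R A hA a = 1 := MulEquiv.ext (hφ a h1)
      exact section_key 3 hp2 R A hR hr hA hcyc a (hall a).1 h2
  apply hR1
  rw [eq_bot_iff, ← hRA, Subgroup.commutator_le]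
  intro r hr' a ha
  have h1 := hfix ⟨a, ha⟩ ⟨r, hr'⟩
  simp only at h1
  rw [Subgroup.mem_bot, commutatorElement_def]
  have h2 : r * a * r⁻¹ * a⁻¹ = r * (a * r * a⁻¹)⁻¹ := by group
  rw [h2, h1]
  group

omit hR1 in
/-- The structure. -/
theorem s1448_struct : IsMulCommutative R ∨ ∃ R₁ R₂ : Subgroup G, R₁ ⊔ R₂ = R ∧ (∀ a ∈ R₁, ∀ b ∈ R₂, a * b = b * a) ∧
        ¬ IsMulCommutative R₁ ∧ Nat.card R₁ = p ^ 3 ∧ Monoid.exponent R₁ = p ∧ IsCyclic R₂ ∧
        Subgroup.closure {x : G | x ∈ R₂ ∧ x ^ p = 1} = ⁅R₁, R₁⁆ := by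
  classical
  by_cases hcyc : IsCyclic ↥R
  · left
    exact ⟨⟨fun a b => IsCyclic.commutative.is_comm.comm a b⟩⟩
  set W := omegaZ2 ↥R p hp2 with hW
  haveI hWc : W.Characteristic := omegaZ2_char p hp2
  haveI hWn : W.Normal := Subgroup.normal_of_characteristic W
  set σ := conjHomOf R A hA with hσ
  have hσW : ∀ (a : ↥A) (w : ↥R), w ∈ W → σ a w ∈ W := fun a w hw =>
    (characteristic_iff_le_comap.1 hWc (σ a)) hw
  have hp1 := hp.out.one_lt
  set X := W.map R.subtype with hX
  have hXR : X ≤ R := Subgroup.map_subtype_le W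
  have hXmem : ∀ {x : G} (hx : x ∈ R), x ∈ X ↔ (⟨x, hx⟩ : ↥R) ∈ W := by
    intro x hx
    constructor
    · rintro ⟨w, hw, rfl⟩
      exact hw
    · intro h
      exact ⟨⟨x, hx⟩, h, rfl⟩
  have hWe : ∀ w ∈ W, w ^ p = 1 := fun w hw => hw.2
  have hZ2 : ∀ w ∈ W, ∀ r : ↥R, w * r * w⁻¹ * r⁻¹ ∈ center ↥R := fun w hw r => mem_Z2_iff.1 hw.1 r
  have hcardX : Nat.card X = Nat.card W := Nat.card_congr (W.equivMapOfInjective _ R.subtype_injective).symm.toEquiv
  rcases omegaZ2_card_cases p hp2 hR hr hcyc with ⟨hW2, hWcomm⟩ | hW3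
  · left
    have hWcm : ∀ a ∈ W, ∀ b ∈ W, a * b = b * a := by
      intro a ha b hb
      have h1 : ⁅(⟨a, ha⟩ : ↥W), (⟨b, hb⟩ : ↥W)⁆ ∈ commutator ↥W := by
        rw [_root_.commutator_def]
        exact Subgroup.commutator_mem_commutator (mem_top _) (mem_top _)
      rw [hWcomm, Subgroup.mem_bot, commutatorElement_eq_one_iff_mul_comm] at h1
      exact congrArg Subtype.val h1
    have hWea : IsElementaryAbelian p W := ⟨⟨⟨fun a b => Subtype.ext (hWcm _ a.2 _ b.2)⟩⟩, fun a ha => ha.2⟩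
    have hTidx := index_centralizer_elem_le p hR W hWea hW2
    have hgap : Gap4 p R A X := by
      refine ⟨hp2, hR, hr, hA, hcop, hAodd, hRA, hXR, ?_, ?_, ?_, ?_, ?_, ?_, ?_, ?_⟩
      · intro a ha
        apply bg4_mem_normalizer
        rintro _ ⟨w, hw, rfl⟩
        exact ⟨_, hσW ⟨a, ha⟩ w hw, rfl⟩
      · intro r hr'
        apply bg4_mem_normalizer
        rintro _ ⟨w, hw, rfl⟩
        exact ⟨_, hWn.conj_mem w hw ⟨r, hr'⟩, rfl⟩
      · rintro _ ⟨w, hw, rfl⟩
        exact congrArg Subtype.val (hWe w hw)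
      · rintro _ ⟨a, ha, rfl⟩ _ ⟨b, hb, rfl⟩
        exact congrArg Subtype.val (hWcm a ha b hb)
      · rw [hcardX, hW2]
      · rintro _ ⟨w, hw, rfl⟩ r hr' s hs
        have h1 := Subgroup.mem_center_iff.1 (hZ2 w hw ⟨r, hr'⟩) ⟨s, hs⟩
        exact (congrArg Subtype.val h1).symm
      · intro u hu hup hz
        rw [hXmem hu]
        refine mem_omegaZ2.2 ⟨?_, Subtype.ext hup⟩
        rw [mem_Z2_iff]
        intro r
        rw [Subgroup.mem_center_iff]
        intro s
        exact Subtype.ext (hz _ r.2 _ s.2).symm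
      · have : (R ⊓ centralizer (X : Set G)).subgroupOf R = centralizer (W : Set ↥R) := by
          ext r
          rw [Subgroup.mem_subgroupOf, Subgroup.mem_inf, mem_centralizer_iff, mem_centralizer_iff]
          constructor
          · rintro ⟨_, h2⟩ w hw
            exact Subtype.ext (h2 _ ⟨w, hw, rfl⟩)
          · intro h2
            refine ⟨r.2, ?_⟩
            rintro _ ⟨w, hw, rfl⟩
            exact congrArg Subtype.val (h2 w hw)
        rw [this]
        exact hTidx
    have hcentral := hgap.central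
    have hWcent : ∀ w ∈ W, ∀ g : ↥R, w * g = g * w := by
      intro w hw g
      exact Subtype.ext (hcentral _ ⟨w, hw, rfl⟩ _ g.2)
    have hΩ : ∀ u : ↥R, u ^ p = 1 → u ∈ W := by
      intro u hup
      by_contra huW
      have hEA := isElementaryAbelian_sup_zpowers hWea hup (fun e he => (hWcent e he u).symm)
      have h1 := hr _ hEA.1 hEA.2
      rw [card_sup_zpowers p W huW hup, hW2] at h1
      have h3 : p ^ 2 * p = p ^ 3 := by ring
      rw [h3] at h1
      have := (Nat.pow_le_pow_iff_right hp1).1 h1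
      omega
    have hfib := fiber_of_central_omega (G := ↥R) p hp2 _ ⊤ rfl (hR.to_subgroup ⊤) (by
      intro u _ hup g _
      exact (hWcent u (hΩ u hup) g).symm)
    have hidx : (Meta.powSub ↥R p).index ≤ p ^ 2 := by
      rw [← hW2]
      apply index_powSub_le_of_fiber
      intro x y hxy
      exact hΩ _ (hfib x (mem_top x) y (mem_top y) hxy)
    exact comm_of_commutator_eq p hp2 R A hR hA hcop hRA hidx
  · right
    obtain ⟨htop, hTc, hTu, hcardI, hnab⟩ := w3_structure p hp2 hR hr hcyc hW3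
    set T := centralizer ((W : Subgroup ↥R) : Set ↥R) with hT
    set Y := T.map R.subtype with hY
    have hYmem : ∀ {x : G} (hx : x ∈ R), x ∈ Y ↔ (⟨x, hx⟩ : ↥R) ∈ T := by
      intro x hx
      constructor
      · rintro ⟨w, hw, rfl⟩
        exact hw
      · intro h
        exact ⟨⟨x, hx⟩, h, rfl⟩
    have hYR : Y ≤ R := Subgroup.map_subtype_le T
    have hcX : ∀ a ∈ X, ∀ b ∈ Y, a * b = b * a := by
      rintro _ ⟨a, ha, rfl⟩ _ ⟨b, hb, rfl⟩
      exact congrArg Subtype.val (mem_centralizer_iff.1 hb a ha)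
    refine ⟨X, Y, ?_, hcX, ?_, ?_, ?_, ?_, ?_⟩
    · rw [hX, hY, ← Subgroup.map_sup, htop, ← MonoidHom.range_eq_map, Subgroup.range_subtype]
    · intro hab
      apply hnab
      intro a b
      apply Subtype.ext
      apply Subtype.ext
      have := hab.is_comm.comm ⟨_, ⟨a, a.2, rfl⟩⟩ ⟨_, ⟨b, b.2, rfl⟩⟩
      exact congrArg (fun z : ↥X => (z : G)) this
    · rw [hcardX, hW3]
    · have hne : Nontrivial ↥X := by
        rw [Subgroup.nontrivial_iff_ne_bot]
        intro hb
        have := hcardX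
        rw [hb, Subgroup.card_bot, hW3] at this
        have h2 := Nat.one_lt_pow (n := 3) (by norm_num) hp1
        omega
      rw [Monoid.exponent_eq_prime_iff hp.out]
      rintro ⟨_, w, hw, rfl⟩ h1
      apply orderOf_eq_prime
      · apply Subtype.ext
        have := congrArg Subtype.val (hWe w hw)
        simpa using this
      · exact h1
    · exact isCyclic_of_surjective (T.equivMapOfInjective _ R.subtype_injective).toMonoidHom
        (T.equivMapOfInjective _ R.subtype_injective).surjective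
    · -- the intersection
      set I := (W ⊓ T).map R.subtype with hI
      have hcardI' : Nat.card I = p := by
        rw [← hcardI]
        exact Nat.card_congr ((W ⊓ T).equivMapOfInjective _ R.subtype_injective).symm.toEquiv
      have h1 : closure {x : G | x ∈ Y ∧ x ^ p = 1} = I := by
        apply le_antisymm
        · rw [closure_le]
          rintro _ ⟨⟨t, ht, rfl⟩, htp⟩
          exact ⟨t, Subgroup.mem_inf.2 ⟨hTu t ht (Subtype.ext htp), ht⟩, rfl⟩
        · rintro _ ⟨t, ht, rfl⟩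
          obtain ⟨ht1, ht2⟩ := Subgroup.mem_inf.1 ht
          exact subset_closure ⟨⟨t, ht2, rfl⟩, congrArg Subtype.val (hWe t ht1)⟩
      rw [h1]
      have h2 : ⁅X, X⁆ ≤ I := by
        rw [Subgroup.commutator_le]
        rintro _ ⟨a, ha, rfl⟩ _ ⟨b, hb, rfl⟩
        refine ⟨a * b * a⁻¹ * b⁻¹, Subgroup.mem_inf.2 ⟨W.mul_mem (W.mul_mem (W.mul_mem ha hb) (W.inv_mem ha)) (W.inv_mem hb), ?_⟩, ?_⟩
        · rw [mem_centralizer_iff]
          intro w _
          exact (Subgroup.mem_center_iff.1 (hZ2 a ha b) w)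
        · simp [commutatorElement_def]
      obtain ⟨a, b, hab⟩ : ∃ a b : ↥W, a * b ≠ b * a := by
        by_contra hc
        push Not at hc
        exact hnab hc
      set e : G := ⁅((a : ↥R) : G), ((b : ↥R) : G)⁆ with he
      have he1 : e ≠ 1 := by
        intro hc
        rw [he, commutatorElement_eq_one_iff_mul_comm] at hc
        exact hab (Subtype.ext (Subtype.ext hc))
      have heL : e ∈ ⁅X, X⁆ := Subgroup.commutator_mem_commutator ⟨a, a.2, rfl⟩ ⟨b, b.2, rfl⟩
      have heI : e ∈ I := h2 heL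
      have hep : e ^ p = 1 := by
        obtain ⟨t, ht, hte⟩ := heI
        rw [← hte]
        exact congrArg Subtype.val (hWe t (Subgroup.mem_inf.1 ht).1)
      have hce : Nat.card (zpowers e) = p := by
        rw [Nat.card_zpowers]
        exact orderOf_eq_prime hep he1
      have h3 : zpowers e = I := Subgroup.eq_of_le_of_card_ge (Subgroup.zpowers_le.2 heI) (by rw [hcardI', hce])
      exact le_antisymm (by rw [← h3]; exact Subgroup.zpowers_le.2 heL) h2

end Main

end Cfsg.Agent.Lib.FT
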