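import Cfsg.Agent.Lib.FT.Grid
import Cfsg.Agent.Lib.OddChar.CyclicTI2
import Cfsg.Agent.Lib.OddChar.FrobSys
import Cfsg.Agent.S1505

/-! # The cyclic T.I. theorem: construction of the family `χ_ω`. -/

set_option autoImplicit false

namespace Cfsg.Agent.Lib.FT

open Cfsg Cfsg.Agent.Lib.Char Cfsg.Agent.Lib.OddChar
open scoped ComplexConjugate

variable {G : Type*} [Group G] {W₁ W₂ : Subgroup G}

theorem conj_hom_val {D : Type*} [Group D] [Finite D] (lam : D →* ℂˣ) (y : D) :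
    conj (lam y : ℂ) = ((lam y : ℂ))⁻¹ := by
  have h1 : ((lam y : ℂ)) ^ Nat.card D = 1 := by
    rw [← Units.val_pow_eq_pow_val, ← map_pow, pow_card_eq_one']
    simp
  have h2 : ‖(lam y : ℂ)‖ = 1 := Complex.norm_eq_one_of_pow_eq_one h1 Nat.card_pos.ne'
  exact (Complex.inv_eq_conj h2).symm

theorem W_comm' (hW : IsSelfNormalizingCyclic W₁ W₂) (a b : ↥(W₁ ⊔ W₂)) : a * b = b * a := by
  haveI := hW.2.2.2.2.1
  letI := IsCyclic.commGroup (α := ↥(W₁ ⊔ W₂))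
  exact mul_comm a b

variable [Finite G]

theorem card_W (hW : IsSelfNormalizingCyclic W₁ W₂) :
    Nat.card ↥(W₁ ⊔ W₂) = Nat.card W₁ * Nat.card W₂ := by
  refine OddLocal.card_sup_of_disjoint ?_ hW.2.2.1
  intro b hb
  rw [Subgroup.mem_normalizer_iff]
  intro a
  constructor
  · intro ha
    rw [← hW.2.2.2.1 a ha b hb]
    simpa using ha
  · intro ha
    have h1 : b⁻¹ * (b * a * b⁻¹) * b⁻¹⁻¹ ∈ W₁ := by
      have hb' := W₂.inv_mem hb
      rw [← hW.2.2.2.1 _ ha _ hb']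
      simpa using ha
    have e : b⁻¹ * (b * a * b⁻¹) * b⁻¹⁻¹ = a := by group
    rwa [e] at h1

theorem index_K₁ (hW : IsSelfNormalizingCyclic W₁ W₂) :
    (W₁.subgroupOf (W₁ ⊔ W₂)).index = Nat.card W₂ := by
  have h1 := (W₁.subgroupOf (W₁ ⊔ W₂)).index_mul_card
  have h2 : Nat.card (W₁.subgroupOf (W₁ ⊔ W₂)) = Nat.card W₁ :=
    Nat.card_congr (Subgroup.subgroupOfEquivOfLe le_sup_left).toEquiv
  rw [h2, card_W hW, mul_comm (Nat.card W₁)] at h1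
  exact Nat.eq_of_mul_eq_mul_right Nat.card_pos h1

theorem index_K₂ (hW : IsSelfNormalizingCyclic W₁ W₂) :
    (W₂.subgroupOf (W₁ ⊔ W₂)).index = Nat.card W₁ := by
  have h1 := (W₂.subgroupOf (W₁ ⊔ W₂)).index_mul_card
  have h2 : Nat.card (W₂.subgroupOf (W₁ ⊔ W₂)) = Nat.card W₂ :=
    Nat.card_congr (Subgroup.subgroupOfEquivOfLe le_sup_right).toEquiv
  rw [h2, card_W hW] at h1
  exact Nat.eq_of_mul_eq_mul_right Nat.card_pos h1

/-- The characters trivial on `W₂`. -/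
abbrev T₂ (W₁ W₂ : Subgroup G) := {φ : ↥(W₁ ⊔ W₂) →* ℂˣ // ∀ k ∈ W₂.subgroupOf (W₁ ⊔ W₂), φ k = 1}

/-- The characters trivial on `W₁`. -/
abbrev T₁ (W₁ W₂ : Subgroup G) := {φ : ↥(W₁ ⊔ W₂) →* ℂˣ // ∀ k ∈ W₁.subgroupOf (W₁ ⊔ W₂), φ k = 1}

theorem decomp_bijective (hW : IsSelfNormalizingCyclic W₁ W₂) :
    Function.Bijective (fun p : T₂ W₁ W₂ × T₁ W₁ W₂ => p.1.1 * p.2.1) := by
  classical
  have hAcomm := W_comm' hW
  haveI := finite_hom hAcomm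
  refine (Nat.bijective_iff_injective_and_card _).mpr ⟨?_, ?_⟩
  · rintro ⟨⟨φ, hφ⟩, ⟨ψ, hψ⟩⟩ ⟨⟨φ', hφ'⟩, ⟨ψ', hψ'⟩⟩ h
    have := hom_product_unique hW.2.2.2.1 (φ := φ) (ψ := ψ) (φ' := φ') (ψ' := ψ')
      (fun w hw => hφ w (Subgroup.mem_subgroupOf.mpr hw)) (fun w hw => hφ' w (Subgroup.mem_subgroupOf.mpr hw))
      (fun w hw => hψ w (Subgroup.mem_subgroupOf.mpr hw)) (fun w hw => hψ' w (Subgroup.mem_subgroupOf.mpr hw)) h
    exact Prod.ext (Subtype.ext this.1) (Subtype.ext this.2)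
  · rw [Nat.card_prod, card_triv hAcomm, card_triv hAcomm, card_hom hAcomm, index_K₁ hW, index_K₂ hW, card_W hW]

/-- The decomposition of characters of `W`. -/
theorem exists_decomp (hW : IsSelfNormalizingCyclic W₁ W₂) (ω : ↥(W₁ ⊔ W₂) →* ℂˣ) :
    ∃ φ ψ : ↥(W₁ ⊔ W₂) →* ℂˣ, (∀ w : ↥(W₁ ⊔ W₂), (w : G) ∈ W₂ → φ w = 1) ∧
      (∀ w : ↥(W₁ ⊔ W₂), (w : G) ∈ W₁ → ψ w = 1) ∧ ω = φ * ψ := by
  obtain ⟨⟨φ, ψ⟩, h⟩ := (decomp_bijective hW).2 ω
  exact ⟨φ.1, ψ.1, fun w hw => φ.2 w (Subgroup.mem_subgroupOf.mpr hw),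
    fun w hw => ψ.2 w (Subgroup.mem_subgroupOf.mpr hw), h.symm⟩

omit [Finite G] in
/-- The value of the induced function on the T.I. set. -/
theorem indFun_alpha_apply [Fintype G] (hW : IsSelfNormalizingCyclic W₁ W₂) {φ ψ : ↥(W₁ ⊔ W₂) →* ℂˣ}
    (hφ : ∀ w : ↥(W₁ ⊔ W₂), (w : G) ∈ W₂ → φ w = 1) (hψ : ∀ w : ↥(W₁ ⊔ W₂), (w : G) ∈ W₁ → ψ w = 1)
    (w : ↥(W₁ ⊔ W₂)) (hw₁ : (w : G) ∉ W₁) (hw₂ : (w : G) ∉ W₂) :
    indFun (W₁ ⊔ W₂) (fun w => 1 - (φ w : ℂ) - (ψ w : ℂ) + (φ w : ℂ) * (ψ w : ℂ)) w =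
      1 - (φ w : ℂ) - (ψ w : ℂ) + (φ w : ℂ) * (ψ w : ℂ) := by
  refine indFun_eq_of_TI (W₁ ⊔ W₂) (tiSet W₁ W₂) ?_ _ ?_ ?_ w (mem_tiSet.mpr ⟨w.2, hw₁, hw₂⟩) ?_
  · intro g hg t ht hgt
    exact absurd (mem_W_of_conj hW ht hgt) hg
  · intro x y
    have : y * x * y⁻¹ = x := by rw [W_comm' hW y x, mul_inv_cancel_right]
    simp only [this]
  · intro x hx
    refine alpha_eq_zero hφ hψ x ?_
    by_contra hcon
    push Not at hcon
    exact hx (mem_tiSet.mpr ⟨x.2, hcon.1, hcon.2⟩)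
  · intro h
    apply hw₁
    have : (w : G) = 1 := by simpa using congrArg Subtype.val h
    rw [this]
    exact W₁.one_mem

/-- The values of a cyclic T.I. family on the T.I. set. -/
theorem family_eq_on [Fintype G] (hW : IsSelfNormalizingCyclic W₁ W₂) (χ : (↥(W₁ ⊔ W₂) →* ℂˣ) → (G → ℂ))
    (hirr : ∀ ω, IsIrrCharacter G (χ ω) ∨ IsIrrCharacter G (-χ ω))
    (horth : ∀ ω ω', ω ≠ ω' → classInner (χ ω) (χ ω') = 0)
    (hone : χ 1 = fun _ => 1)
    (hind : ∀ φ ψ : ↥(W₁ ⊔ W₂) →* ℂˣ, φ ≠ 1 → ψ ≠ 1 →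
      (∀ w : ↥(W₁ ⊔ W₂), (w : G) ∈ W₂ → φ w = 1) → (∀ w : ↥(W₁ ⊔ W₂), (w : G) ∈ W₁ → ψ w = 1) →
      indFun (W₁ ⊔ W₂) (fun w => 1 - (φ w : ℂ) - (ψ w : ℂ) + (φ w : ℂ) * (ψ w : ℂ)) =
        fun g => 1 - χ φ g - χ ψ g + χ (φ * ψ) g)
    (w : ↥(W₁ ⊔ W₂)) (hw₁ : (w : G) ∉ W₁) (hw₂ : (w : G) ∉ W₂) (ω : ↥(W₁ ⊔ W₂) →* ℂˣ) :
    χ ω w = (ω w : ℂ) := by
  classical
  have hAcomm := W_comm' hW
  haveI := finite_hom hAcomm
  letI : Fintype (↥(W₁ ⊔ W₂) →* ℂˣ) := Fintype.ofFinite _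
  letI : Fintype ↥(W₁ ⊔ W₂) := Fintype.ofFinite _
  letI : Fintype (T₁ W₁ W₂) := Fintype.ofFinite _
  letI : Fintype (T₂ W₁ W₂) := Fintype.ofFinite _
  set d : (↥(W₁ ⊔ W₂) →* ℂˣ) → ℂ := fun ω => χ ω w - (ω w : ℂ) with hd
  have hd1 : d 1 = 0 := by
    simp only [hd, hone]
    simp
  have hdmul : ∀ φ : T₂ W₁ W₂, ∀ ψ : T₁ W₁ W₂, d (φ.1 * ψ.1) = d φ.1 + d ψ.1 := by
    intro φ ψ
    by_cases hφ1 : φ.1 = 1
    · have e : φ.1 * ψ.1 = ψ.1 := by
        rw [hφ1]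
        ext x
        simp
      rw [e, hφ1, hd1, zero_add]
    by_cases hψ1 : ψ.1 = 1
    · have e : φ.1 * ψ.1 = φ.1 := by
        rw [hψ1]
        ext x
        simp
      rw [e, hψ1, hd1, add_zero]
    have hφ : ∀ w : ↥(W₁ ⊔ W₂), (w : G) ∈ W₂ → φ.1 w = 1 := fun w hw => φ.2 w (Subgroup.mem_subgroupOf.mpr hw)
    have hψ : ∀ w : ↥(W₁ ⊔ W₂), (w : G) ∈ W₁ → ψ.1 w = 1 := fun w hw => ψ.2 w (Subgroup.mem_subgroupOf.mpr hw)
    have h1 := congrFun (hind φ.1 ψ.1 hφ1 hψ1 hφ hψ) (w : G)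
    rw [indFun_alpha_apply hW hφ hψ w hw₁ hw₂] at h1
    simp only [hd, MonoidHom.mul_apply, Units.val_mul]
    linear_combination -h1
  -- the sum over the characters of `W`
  have hsplit : ∀ F : (↥(W₁ ⊔ W₂) →* ℂˣ) → ℂ, ∑ ω, F ω = ∑ φ : T₂ W₁ W₂, ∑ ψ : T₁ W₁ W₂, F (φ.1 * ψ.1) := by
    intro F
    rw [← Fintype.sum_prod_type']
    exact (Fintype.sum_bijective _ (decomp_bijective hW) _ _ (fun p => rfl)).symm
  have hs₁ : ∑ ψ : T₁ W₁ W₂, conj ((ψ.1 w : ℂˣ) : ℂ) = 0 := by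
    rw [← map_sum, sum_triv hAcomm, if_neg (fun h => hw₁ (Subgroup.mem_subgroupOf.mp h))]
    simp
  have hs₂ : ∑ φ : T₂ W₁ W₂, conj ((φ.1 w : ℂˣ) : ℂ) = 0 := by
    rw [← map_sum, sum_triv hAcomm, if_neg (fun h => hw₂ (Subgroup.mem_subgroupOf.mp h))]
    simp
  have hcross : ∑ ω : ↥(W₁ ⊔ W₂) →* ℂˣ, conj ((ω w : ℂˣ) : ℂ) * d ω = 0 := by
    rw [hsplit]
    have : ∀ (φ : T₂ W₁ W₂) (ψ : T₁ W₁ W₂), conj (((φ.1 * ψ.1) w : ℂˣ) : ℂ) * d (φ.1 * ψ.1) =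
        (conj ((φ.1 w : ℂˣ) : ℂ) * d φ.1) * conj ((ψ.1 w : ℂˣ) : ℂ) +
        conj ((φ.1 w : ℂˣ) : ℂ) * (conj ((ψ.1 w : ℂˣ) : ℂ) * d ψ.1) := by
      intro φ ψ
      rw [hdmul]
      simp only [MonoidHom.mul_apply, Units.val_mul, map_mul]
      ring
    simp only [this, Finset.sum_add_distrib, ← Finset.mul_sum, hs₁, mul_zero, zero_add]
    rw [← Finset.sum_mul, hs₂, zero_mul]
  have hval1 : ∀ ω : ↥(W₁ ⊔ W₂) →* ℂˣ, ((ω w : ℂˣ) : ℂ) * conj ((ω w : ℂˣ) : ℂ) = 1 := by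
    intro ω
    rw [conj_hom_val]
    exact mul_inv_cancel₀ (Units.ne_zero _)
  -- the expansion of the norm
  have hexp : ∑ ω : ↥(W₁ ⊔ W₂) →* ℂˣ, (Complex.normSq (χ ω w) : ℂ) =
      (Nat.card ↥(W₁ ⊔ W₂) : ℂ) + ∑ ω : ↥(W₁ ⊔ W₂) →* ℂˣ, (Complex.normSq (d ω) : ℂ) := by
    have h1 : ∀ ω : ↥(W₁ ⊔ W₂) →* ℂˣ, (Complex.normSq (χ ω w) : ℂ) =
        1 + conj ((ω w : ℂˣ) : ℂ) * d ω + conj (conj ((ω w : ℂˣ) : ℂ) * d ω) + (Complex.normSq (d ω) : ℂ) := by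
      intro ω
      rw [← Complex.mul_conj, ← Complex.mul_conj]
      have e : χ ω w = d ω + (ω w : ℂ) := by simp [hd]
      rw [e, map_add, map_mul, Complex.conj_conj]
      linear_combination (hval1 ω)
    simp only [h1, Finset.sum_add_distrib]
    rw [hcross, ← map_sum, hcross]
    simp only [Finset.sum_const, Finset.card_univ, nsmul_eq_mul, mul_one, map_zero, add_zero]
    rw [← Nat.card_eq_fintype_card, card_hom hAcomm]
  -- the bound
  have hbound : ∑ ω : ↥(W₁ ⊔ W₂) →* ℂˣ, Complex.normSq (χ ω w) ≤ (Nat.card ↥(W₁ ⊔ W₂) : ℝ) := by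
    let ι : (↥(W₁ ⊔ W₂) →* ℂˣ) → IrrCharacter G := fun ω =>
      if h : IsIrrCharacter G (χ ω) then ⟨χ ω, h⟩ else ⟨-χ ω, (hirr ω).resolve_left h⟩
    have hι : ∀ ω, (ι ω : G → ℂ) = χ ω ∨ (ι ω : G → ℂ) = -χ ω := by
      intro ω
      by_cases h : IsIrrCharacter G (χ ω)
      · left
        simp [ι, h]
      · right
        simp [ι, h]
    have hinj : Function.Injective ι := by
      intro ω ω' h
      by_contra hne
      have h0 := horth ω ω' hne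
      have h1 : classInner (ι ω : G → ℂ) (ι ω' : G → ℂ) = 0 := by
        rcases hι ω with e1 | e1 <;> rcases hι ω' with e2 | e2 <;>
          simp [e1, e2, classInner_neg_left, classInner_neg_right, h0]
      rw [← h, classInner_irr_self (ι ω).2] at h1
      norm_num at h1
    have hnorm : ∀ ω, Complex.normSq (χ ω w) = Complex.normSq ((ι ω : G → ℂ) w) := by
      intro ω
      rcases hι ω with e | e
      · rw [e]
      · rw [e]
        simp
    simp only [hnorm]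
    have h2 : ∑ ω : ↥(W₁ ⊔ W₂) →* ℂˣ, Complex.normSq ((ι ω : G → ℂ) w) ≤
        ∑ ξ : IrrCharacter G, Complex.normSq ((ξ : G → ℂ) w) := by
      rw [← Finset.sum_image (f := fun ξ : IrrCharacter G => Complex.normSq ((ξ : G → ℂ) w)) (s := Finset.univ) (g := ι)
        (fun a _ b _ h => hinj h)]
      exact Finset.sum_le_univ_sum_of_nonneg fun ξ => Complex.normSq_nonneg _
    refine h2.trans (le_of_eq ?_)
    have h3 := sum_irr_mul_conj_of_isConj (G := G) (IsConj.refl (w : G))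
    have h4 : Subgroup.centralizer ({(w : G)} : Set G) = W₁ ⊔ W₂ := by
      refine Eq.trans ?_ (hW.2.2.2.2.2 {(w : G)} (Set.singleton_subset_iff.mpr (mem_tiSet.mpr ⟨w.2, hw₁, hw₂⟩)) (Set.singleton_nonempty _))
      ext x
      rw [mem_normalizer_singleton, Subgroup.mem_centralizer_singleton_iff]
    rw [h4] at h3
    simp only [Complex.mul_conj] at h3
    exact_mod_cast h3
  -- conclusion
  have hfin : ∑ ω : ↥(W₁ ⊔ W₂) →* ℂˣ, Complex.normSq (d ω) ≤ 0 := by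
    have h1 : ((∑ ω : ↥(W₁ ⊔ W₂) →* ℂˣ, Complex.normSq (χ ω w) : ℝ) : ℂ) =
        (((Nat.card ↥(W₁ ⊔ W₂) : ℝ) + ∑ ω : ↥(W₁ ⊔ W₂) →* ℂˣ, Complex.normSq (d ω) : ℝ) : ℂ) := by
      push_cast
      exact hexp
    have h2 := Complex.ofReal_injective h1
    linarith
  have hz : ∀ ω, Complex.normSq (d ω) = 0 :=
    fun ω => (Finset.sum_eq_zero_iff_of_nonneg (fun ω _ => Complex.normSq_nonneg _)).mp
      (le_antisymm hfin (Finset.sum_nonneg fun ω _ => Complex.normSq_nonneg _)) ω (Finset.mem_univ _)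
  have := Complex.normSq_eq_zero.mp (hz ω)
  exact sub_eq_zero.mp this

section Counting

/-- Sizes: even cardinality at least two. -/
theorem exists_ne_of_two_le {I : Type*} [Finite I] (h : 2 ≤ Nat.card I) (i : I) : ∃ k, i ≠ k := by
  classical
  haveI : Nontrivial I := (Finite.one_lt_card_iff_nontrivial).mp h
  obtain ⟨k, hk⟩ := exists_ne i
  exact ⟨k, hk.symm⟩

theorem exists_fourth {I : Type*} [Finite I] (h2 : 2 ≤ Nat.card I) (he : Even (Nat.card I)) (a b c : I)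
    (hab : a ≠ b) (hca : c ≠ a) (hcb : c ≠ b) : ∃ d, d ≠ a ∧ d ≠ b ∧ d ≠ c := by
  classical
  letI := Fintype.ofFinite I
  rw [Nat.card_eq_fintype_card] at h2 he
  have h3 : 3 ≤ Fintype.card I := by
    have : ({a, b, c} : Finset I).card ≤ Fintype.card I := Finset.card_le_univ _
    have h : ({a, b, c} : Finset I).card = 3 := by
      rw [Finset.card_eq_three]
      exact ⟨a, b, c, hab, hca.symm, hcb.symm, rfl⟩
    omega
  have h4 : ({a, b, c} : Finset I).card < Fintype.card I := by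
    have h : ({a, b, c} : Finset I).card = 3 := by
      rw [Finset.card_eq_three]
      exact ⟨a, b, c, hab, hca.symm, hcb.symm, rfl⟩
    obtain ⟨r, hr⟩ := he
    omega
  obtain ⟨d, hd⟩ : ∃ d, d ∉ ({a, b, c} : Finset I) := by
    by_contra hcon
    push Not at hcon
    have : ({a, b, c} : Finset I) = Finset.univ := Finset.eq_univ_iff_forall.mpr hcon
    rw [this, Finset.card_univ] at h4
    exact lt_irrefl _ h4
  simp only [Finset.mem_insert, Finset.mem_singleton, not_or] at hd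
  exact ⟨d, hd.1, hd.2.1, hd.2.2⟩

theorem exists_three_others {I : Type*} [Finite I] (h4 : 4 ≤ Nat.card I) (j : I) :
    ∃ l₁ l₂ l₃ : I, l₁ ≠ j ∧ l₂ ≠ j ∧ l₃ ≠ j ∧ l₁ ≠ l₂ ∧ l₁ ≠ l₃ ∧ l₂ ≠ l₃ := by
  classical
  letI := Fintype.ofFinite I
  rw [Nat.card_eq_fintype_card] at h4
  have h : 2 < (Finset.univ.erase j : Finset I).card := by
    rw [Finset.card_erase_of_mem (Finset.mem_univ _), Finset.card_univ]
    omega
  obtain ⟨a, ha, b, hb, c, hc, hab, hac, hbc⟩ := Finset.two_lt_card.mp h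
  exact ⟨a, b, c, Finset.ne_of_mem_erase ha, Finset.ne_of_mem_erase hb, Finset.ne_of_mem_erase hc, hab, hac, hbc⟩

end Counting

section Main

variable [Fintype G]

/-- The trivial character, as an element of `T₂`. -/
def one₂ (W₁ W₂ : Subgroup G) : T₂ W₁ W₂ := ⟨1, fun _ _ => rfl⟩

/-- The trivial character, as an element of `T₁`. -/
def one₁ (W₁ W₂ : Subgroup G) : T₁ W₁ W₂ := ⟨1, fun _ _ => rfl⟩

/-- The rows of the grid. -/
abbrev IdxI (W₁ W₂ : Subgroup G) := {φ : T₂ W₁ W₂ // φ ≠ one₂ W₁ W₂}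

/-- The columns of the grid. -/
abbrev IdxJ (W₁ W₂ : Subgroup G) := {ψ : T₁ W₁ W₂ // ψ ≠ one₁ W₁ W₂}

open Classical in
/-- The parametrisation of the characters of `W`. -/
noncomputable def homParam (hW : IsSelfNormalizingCyclic W₁ W₂) :
    Option (IdxI W₁ W₂) × Option (IdxJ W₁ W₂) ≃ (↥(W₁ ⊔ W₂) →* ℂˣ) :=
  (Equiv.prodCongr (Equiv.optionSubtypeNe _) (Equiv.optionSubtypeNe _)).trans
    (Equiv.ofBijective _ (decomp_bijective hW))

open Classical in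
theorem homParam_apply (hW : IsSelfNormalizingCyclic W₁ W₂) (a : Option (IdxI W₁ W₂)) (b : Option (IdxJ W₁ W₂)) :
    homParam hW (a, b) = (Equiv.optionSubtypeNe (one₂ W₁ W₂) a).1 * (Equiv.optionSubtypeNe (one₁ W₁ W₂) b).1 := rfl

theorem homParam_none_none (hW : IsSelfNormalizingCyclic W₁ W₂) : homParam hW (none, none) = 1 := by
  classical
  rw [homParam_apply, Equiv.optionSubtypeNe_none, Equiv.optionSubtypeNe_none]
  ext x
  simp [one₂, one₁]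

theorem homParam_some_none (hW : IsSelfNormalizingCyclic W₁ W₂) (i : IdxI W₁ W₂) :
    homParam hW (some i, none) = i.1.1 := by
  classical
  rw [homParam_apply, Equiv.optionSubtypeNe_none]
  have : Equiv.optionSubtypeNe (one₂ W₁ W₂) (some i) = i.1 := rfl
  rw [this]
  ext x
  simp [one₁]

theorem homParam_none_some (hW : IsSelfNormalizingCyclic W₁ W₂) (j : IdxJ W₁ W₂) :
    homParam hW (none, some j) = j.1.1 := by
  classical
  rw [homParam_apply, Equiv.optionSubtypeNe_none]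
  have : Equiv.optionSubtypeNe (one₁ W₁ W₂) (some j) = j.1 := rfl
  rw [this]
  ext x
  simp [one₂]

theorem homParam_some_some (hW : IsSelfNormalizingCyclic W₁ W₂) (i : IdxI W₁ W₂) (j : IdxJ W₁ W₂) :
    homParam hW (some i, some j) = i.1.1 * j.1.1 := by
  classical
  rw [homParam_apply]
  have h1 : Equiv.optionSubtypeNe (one₂ W₁ W₂) (some i) = i.1 := rfl
  have h2 : Equiv.optionSubtypeNe (one₁ W₁ W₂) (some j) = j.1 := rfl
  rw [h1, h2]

theorem card_IdxI (hW : IsSelfNormalizingCyclic W₁ W₂) : Nat.card (IdxI W₁ W₂) + 1 = Nat.card W₁ := by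
  classical
  have hAcomm := W_comm' hW
  haveI := finite_triv hAcomm (W₂.subgroupOf (W₁ ⊔ W₂))
  have h1 : Nat.card (T₂ W₁ W₂) = Nat.card W₁ := by
    rw [card_triv hAcomm, index_K₂ hW]
  rw [← h1, ← Nat.card_congr (Equiv.optionSubtypeNe (one₂ W₁ W₂)), Finite.card_option]

theorem card_IdxJ (hW : IsSelfNormalizingCyclic W₁ W₂) : Nat.card (IdxJ W₁ W₂) + 1 = Nat.card W₂ := by
  classical
  have hAcomm := W_comm' hW
  haveI := finite_triv hAcomm (W₁.subgroupOf (W₁ ⊔ W₂))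
  have h1 : Nat.card (T₁ W₁ W₂) = Nat.card W₂ := by
    rw [card_triv hAcomm, index_K₁ hW]
  rw [← h1, ← Nat.card_congr (Equiv.optionSubtypeNe (one₁ W₁ W₂)), Finite.card_option]

/-- The function `(1 - φ)(1 - ψ)` is a virtual character of `W`. -/
theorem isGen_alpha (φ ψ : ↥(W₁ ⊔ W₂) →* ℂˣ) :
    IsGeneralizedCharacter ↥(W₁ ⊔ W₂) (fun w => 1 - (φ w : ℂ) - (ψ w : ℂ) + (φ w : ℂ) * (ψ w : ℂ)) := by
  letI : Fintype ↥(W₁ ⊔ W₂) := Fintype.ofFinite _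
  have h : ∀ lam : ↥(W₁ ⊔ W₂) →* ℂˣ, IsGeneralizedCharacter ↥(W₁ ⊔ W₂) (fun w => (lam w : ℂ)) :=
    fun lam => isGeneralizedCharacter_of_isCharacter (IsIrrCharacter.isCharacter (isIrrCharacter_of_monoidHom lam))
  have h0 := h 1
  have h3 := IsGeneralizedCharacter.sub (IsGeneralizedCharacter.sub h0 (h φ)) (h ψ)
  have h4 := IsGeneralizedCharacter.add h3 (h (φ * ψ))
  convert h4 using 1
  funext w
  simp

/-- The virtual characters `Ind (1 - φ)(1 - ψ) - 1`. -/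
noncomputable def Gam (W₁ W₂ : Subgroup G) (φ ψ : ↥(W₁ ⊔ W₂) →* ℂˣ) : G → ℂ :=
  indFun (W₁ ⊔ W₂) (fun w => 1 - (φ w : ℂ) - (ψ w : ℂ) + (φ w : ℂ) * (ψ w : ℂ)) - fun _ => 1

theorem isGen_Gam (φ ψ : ↥(W₁ ⊔ W₂) →* ℂˣ) : IsGeneralizedCharacter G (Gam W₁ W₂ φ ψ) :=
  IsGeneralizedCharacter.sub (isGeneralizedCharacter_indFun (W₁ ⊔ W₂) (isGen_alpha φ ψ))
    (isGeneralizedCharacter_of_isCharacter (IsIrrCharacter.isCharacter isIrrCharacter_one))

open Classical in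
/-- The Gram matrix of the virtual characters `Ind (1 - φ)(1 - ψ) - 1`. -/
theorem classInner_Gam (hW : IsSelfNormalizingCyclic W₁ W₂)
    {φ φ' ψ ψ' : ↥(W₁ ⊔ W₂) →* ℂˣ} (hφ : φ ≠ 1)
    (hφ' : φ' ≠ 1) (hψ : ψ ≠ 1) (hψ' : ψ' ≠ 1) (hφ₂ : ∀ w : ↥(W₁ ⊔ W₂), (w : G) ∈ W₂ → φ w = 1 ∧ φ' w = 1)
    (hψ₁ : ∀ w : ↥(W₁ ⊔ W₂), (w : G) ∈ W₁ → ψ w = 1 ∧ ψ' w = 1) :
    classInner (Gam W₁ W₂ φ ψ) (Gam W₁ W₂ φ' ψ') =
      (if φ = φ' then 1 else 0) + (if ψ = ψ' then 1 else 0) + (if φ = φ' ∧ ψ = ψ' then 1 else 0) := by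
  obtain ⟨h1, h2⟩ := Cfsg.Agent.S1505.result W₁ W₂ hW φ φ' ψ ψ' hφ hφ' hψ hψ' hφ₂ hψ₁
  obtain ⟨h3, -⟩ := Cfsg.Agent.S1505.result W₁ W₂ hW φ' φ' ψ' ψ' hφ' hφ' hψ' hψ'
    (fun w hw => ⟨(hφ₂ w hw).2, (hφ₂ w hw).2⟩) (fun w hw => ⟨(hψ₁ w hw).2, (hψ₁ w hw).2⟩)
  have h4 := classInner_irr_self (isIrrCharacter_one (G := G))
  have h3' := classInner_conj_symm (fun _ : G => (1 : ℂ)) (indFun (W₁ ⊔ W₂) fun w => 1 - (φ' w : ℂ) - (ψ' w : ℂ) + (φ' w : ℂ) * (ψ' w : ℂ))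
  rw [h3, map_one] at h3'
  rw [Gam, Gam, classInner_sub_left, classInner_sub_right, classInner_sub_right, h1, h2, h3', h4]
  by_cases a : φ = φ' <;> by_cases b : ψ = ψ' <;> simp [a, b] <;> norm_num

/-- `Ind (1 - φ)(1 - ψ) - 1` is orthogonal to the principal character. -/
theorem classInner_Gam_one (hW : IsSelfNormalizingCyclic W₁ W₂) {φ ψ : ↥(W₁ ⊔ W₂) →* ℂˣ} (hφ : φ ≠ 1)
    (hψ : ψ ≠ 1) (hφ₂ : ∀ w : ↥(W₁ ⊔ W₂), (w : G) ∈ W₂ → φ w = 1)
    (hψ₁ : ∀ w : ↥(W₁ ⊔ W₂), (w : G) ∈ W₁ → ψ w = 1) :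
    classInner (Gam W₁ W₂ φ ψ) (fun _ => 1) = 0 := by
  obtain ⟨h3, -⟩ := Cfsg.Agent.S1505.result W₁ W₂ hW φ φ ψ ψ hφ hφ hψ hψ
    (fun w hw => ⟨hφ₂ w hw, hφ₂ w hw⟩) (fun w hw => ⟨hψ₁ w hw, hψ₁ w hw⟩)
  have h4 := classInner_irr_self (isIrrCharacter_one (G := G))
  rw [Gam, classInner_sub_left, h3, h4, sub_self]

/-- Inner products of virtual characters in terms of coefficients. -/
theorem classInner_eq_dp {θ θ' : G → ℂ} (h : IsGeneralizedCharacter G θ) (h' : IsGeneralizedCharacter G θ')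
    {c c' : IrrCharacter G → ℤ} (hc : ∀ ψ : IrrCharacter G, classInner θ (ψ : G → ℂ) = c ψ)
    (hc' : ∀ ψ : IrrCharacter G, classInner θ' (ψ : G → ℂ) = c' ψ) :
    classInner θ θ' = (dp c c' : ℂ) := by
  classical
  rw [classInner_eq_sum_coeffs θ θ' (IsGeneralizedCharacter.isClassFunction h) (IsGeneralizedCharacter.isClassFunction h'), dp]
  push_cast
  refine Finset.sum_congr rfl fun ψ _ => ?_
  rw [hc, hc', map_intCast]

/-- Selection on pairs of options. -/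
def optSel {I J X : Type*} (a : X) (ξ : I → X) (η : J → X) (ζ : I → J → X) : Option I × Option J → X
  | (none, none) => a
  | (some i, none) => ξ i
  | (none, some j) => η j
  | (some i, some j) => ζ i j

/-- **The cyclic T.I. theorem.** -/
theorem exists_family (hW : IsSelfNormalizingCyclic W₁ W₂) (hodd : Odd (Nat.card ↥(W₁ ⊔ W₂))) :
    ∃ χ : (↥(W₁ ⊔ W₂) →* ℂˣ) → (G → ℂ), IsCyclicTIFamily W₁ W₂ χ := by
  classical
  -- sizes
  have hcard := card_W hW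
  rw [hcard] at hodd
  obtain ⟨⟨r₁, hr₁⟩, ⟨r₂, hr₂⟩⟩ := Nat.odd_mul.mp hodd
  have hne₁ : Nat.card W₁ ≠ 1 := fun h => hW.1 (Subgroup.eq_bot_of_card_eq _ h)
  have hne₂ : Nat.card W₂ ≠ 1 := fun h => hW.2.1 (Subgroup.eq_bot_of_card_eq _ h)
  have hI := card_IdxI hW
  have hJ := card_IdxJ hW
  have hI2 : 2 ≤ Nat.card (IdxI W₁ W₂) := by omega
  have hJ2 : 2 ≤ Nat.card (IdxJ W₁ W₂) := by omega
  have hIe : Even (Nat.card (IdxI W₁ W₂)) := ⟨r₁, by omega⟩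
  have hJe : Even (Nat.card (IdxJ W₁ W₂)) := ⟨r₂, by omega⟩
  have hnot3 : Nat.card W₁ ≠ 3 ∨ Nat.card W₂ ≠ 3 := by
    by_contra hcon
    push Not at hcon
    have h := OddLocal.eq_of_card_eq_of_le_isCyclic hW.2.2.2.2.1 le_sup_left le_sup_right (hcon.1.trans hcon.2.symm)
    apply hW.1
    have h2 := hW.2.2.1
    rw [← h, inf_idem] at h2
    exact h2
  haveI hfinT₂ : Finite (T₂ W₁ W₂) := finite_triv (W_comm' hW) _
  haveI hfinT₁ : Finite (T₁ W₁ W₂) := finite_triv (W_comm' hW) _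
  haveI : Nonempty (IdxI W₁ W₂) := by
    apply (Nat.card_pos_iff.mp (by omega)).1
  haveI : Nonempty (IdxJ W₁ W₂) := by
    apply (Nat.card_pos_iff.mp (by omega)).1
  -- the coefficient vectors
  have hcoef : ∀ (i : IdxI W₁ W₂) (j : IdxJ W₁ W₂), ∃ c : IrrCharacter G → ℤ,
      (∀ ψ : IrrCharacter G, classInner (Gam W₁ W₂ i.1.1 j.1.1) (ψ : G → ℂ) = c ψ) ∧
        Gam W₁ W₂ i.1.1 j.1.1 = ∑ ψ : IrrCharacter G, (c ψ : ℂ) • (ψ : G → ℂ) :=
    fun i j => IsGeneralizedCharacter.exists_int_coeffs (isGen_Gam _ _)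
  choose v hv hvs using hcoef
  have hIφ : ∀ (i : IdxI W₁ W₂), i.1.1 ≠ 1 := fun i h => i.2 (Subtype.ext h)
  have hJψ : ∀ (j : IdxJ W₁ W₂), j.1.1 ≠ 1 := fun j h => j.2 (Subtype.ext h)
  have hItr : ∀ (i : IdxI W₁ W₂) (w : ↥(W₁ ⊔ W₂)), (w : G) ∈ W₂ → i.1.1 w = 1 :=
    fun i w hw => i.1.2 w (Subgroup.mem_subgroupOf.mpr hw)
  have hJtr : ∀ (j : IdxJ W₁ W₂) (w : ↥(W₁ ⊔ W₂)), (w : G) ∈ W₁ → j.1.1 w = 1 :=
    fun j w hw => j.1.2 w (Subgroup.mem_subgroupOf.mpr hw)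
  have hgrid : IsGrid v := by
    intro i j k l
    have h1 := classInner_eq_dp (isGen_Gam (W₁ := W₁) (W₂ := W₂) i.1.1 j.1.1) (isGen_Gam k.1.1 l.1.1) (hv i j) (hv k l)
    rw [classInner_Gam hW (hIφ i) (hIφ k) (hJψ j) (hJψ l) (fun w hw => ⟨hItr i w hw, hItr k w hw⟩)
      (fun w hw => ⟨hJtr j w hw, hJtr l w hw⟩)] at h1
    have e1 : (i.1.1 = k.1.1) ↔ i = k := ⟨fun h => Subtype.ext (Subtype.ext h), fun h => by rw [h]⟩
    have e2 : (j.1.1 = l.1.1) ↔ j = l := ⟨fun h => Subtype.ext (Subtype.ext h), fun h => by rw [h]⟩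
    simp only [e1, e2] at h1
    have h2 : ((dp (v i j) (v k l) : ℤ) : ℂ) = (((if i = k then 1 else 0) + (if j = l then 1 else 0) + (if i = k ∧ j = l then 1 else 0) : ℤ) : ℂ) := by
      rw [← h1]
      by_cases a : i = k <;> by_cases b : j = l <;> simp [a, b] <;> norm_num
    exact_mod_cast h2
  have hv1 : ∀ i j, v i j ⟨fun _ => 1, isIrrCharacter_one⟩ = 0 := by
    intro i j
    have h1 := hv i j ⟨fun _ => 1, isIrrCharacter_one⟩
    rw [classInner_Gam_one hW (hIφ i) (hJψ j) (hItr i) (hJtr j)] at h1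
    exact_mod_cast h1.symm
  obtain ⟨ξ, η, ζ, s, t, w, hs, ht, hw, hξ, hη, hξη, hζξ, hζη, hζ, hvv⟩ := grid_structure hgrid
    (exists_ne_of_two_le hI2) (exists_ne_of_two_le hJ2)
    (exists_fourth hI2 hIe) (exists_fourth hJ2 hJe)
    (by
      rcases hnot3 with h | h
      · right
        exact exists_three_others (by omega)
      · left
        exact exists_three_others (by omega))
  -- the trivial character differs from the members of the grid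
  let triv : IrrCharacter G := ⟨fun _ => 1, isIrrCharacter_one⟩
  obtain ⟨i₀⟩ := ‹Nonempty (IdxI W₁ W₂)›
  obtain ⟨j₀⟩ := ‹Nonempty (IdxJ W₁ W₂)›
  have hs0 : ∀ i, s i ≠ 0 := fun i h => by
    have := hs i
    rw [h] at this
    norm_num at this
  have ht0 : ∀ j, t j ≠ 0 := fun j h => by
    have := ht j
    rw [h] at this
    norm_num at this
  have hw0 : ∀ i j, w i j ≠ 0 := fun i j h => by
    have := hw i j
    rw [h] at this
    norm_num at this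
  have h1ξ : ∀ i, triv ≠ ξ i := by
    intro i h
    have h1 := hv1 i j₀
    have h2 := hvv i j₀ triv
    rw [h1, if_pos h, if_neg (by rw [h]; exact hξη i j₀), if_neg (by rw [h]; exact (hζξ i j₀ i).symm)] at h2
    exact hs0 i (by omega)
  have h1η : ∀ j, triv ≠ η j := by
    intro j h
    have h1 := hv1 i₀ j
    have h2 := hvv i₀ j triv
    rw [h1, if_neg (by rw [h]; exact (hξη i₀ j).symm), if_pos h, if_neg (by rw [h]; exact (hζη i₀ j j).symm)] at h2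
    exact ht0 j (by omega)
  have h1ζ : ∀ i j, triv ≠ ζ i j := by
    intro i j h
    have h1 := hv1 i j
    have h2 := hvv i j triv
    rw [h1, if_neg (by rw [h]; exact hζξ i j i), if_neg (by rw [h]; exact hζη i j j), if_pos h] at h2
    exact hw0 i j (by omega)
  -- the family
  let ι : Option (IdxI W₁ W₂) × Option (IdxJ W₁ W₂) → IrrCharacter G := optSel triv ξ η ζ
  let ε : Option (IdxI W₁ W₂) × Option (IdxJ W₁ W₂) → ℤ := optSel 1 (fun i => - s i) (fun j => - t j) w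
  let F : Option (IdxI W₁ W₂) × Option (IdxJ W₁ W₂) → G → ℂ := fun p => (ε p : ℂ) • ((ι p : IrrCharacter G) : G → ℂ)
  have hεε : ∀ p, ε p * ε p = 1 := by
    rintro ⟨_ | i, _ | j⟩
    · rfl
    · change (- t j) * (- t j) = 1
      rw [neg_mul_neg]
      exact ht j
    · change (- s i) * (- s i) = 1
      rw [neg_mul_neg]
      exact hs i
    · exact hw i j
  have hιinj : Function.Injective ι := by
    rintro ⟨_ | i, _ | j⟩ ⟨_ | k, _ | l⟩ h <;> change optSel _ _ _ _ _ = optSel _ _ _ _ _ at h <;> simp only [optSel] at h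
    · rfl
    · exact absurd h (h1η l)
    · exact absurd h (h1ξ k)
    · exact absurd h (h1ζ k l)
    · exact absurd h.symm (h1η j)
    · rw [hη h]
    · exact absurd h.symm (hξη k j)
    · exact absurd h.symm (hζη k l j)
    · exact absurd h.symm (h1ξ i)
    · exact absurd h (hξη i l)
    · rw [hξ h]
    · exact absurd h.symm (hζξ k l i)
    · exact absurd h.symm (h1ζ i j)
    · exact absurd h (hζη i j l)
    · exact absurd h (hζξ i j k)
    · have := @hζ (i, j) (k, l) h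
      rw [Prod.mk.injEq] at this
      rw [this.1, this.2]
  have hFirr : ∀ p, IsIrrCharacter G (F p) ∨ IsIrrCharacter G (- F p) := by
    intro p
    rcases Int.eq_one_or_neg_one_of_mul_eq_one (hεε p) with h | h
    · left
      have e : F p = ((ι p : IrrCharacter G) : G → ℂ) := by
        funext g
        simp [F, h]
      rw [e]
      exact (ι p).2
    · right
      have e : - F p = ((ι p : IrrCharacter G) : G → ℂ) := by
        funext g
        simp [F, h]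
      rw [e]
      exact (ι p).2
  have hForth : ∀ p p', classInner (F p) (F p') = if p = p' then 1 else 0 := by
    intro p p'
    simp only [F]
    rw [classInner_smul_left, classInner_smul_right, classInner_irr (ι p).2 (ι p').2, map_intCast]
    by_cases h : p = p'
    · rw [if_pos (by rw [h]), if_pos h, h]
      have := hεε p'
      have h2 : ((ε p' * ε p' : ℤ) : ℂ) = 1 := by
        rw [this]
        simp
      push_cast at h2
      linear_combination h2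
    · have : ¬ ((ι p : IrrCharacter G) : G → ℂ) = ((ι p' : IrrCharacter G) : G → ℂ) :=
        fun e => h (hιinj (Subtype.ext e))
      rw [if_neg this, if_neg h]
      simp
  let e := homParam hW
  let χ : (↥(W₁ ⊔ W₂) →* ℂˣ) → G → ℂ := fun ω => F (e.symm ω)
  have hχF : ∀ p, χ (e p) = F p := fun p => by
    simp only [χ, Equiv.symm_apply_apply]
  have hirr : ∀ ω, IsIrrCharacter G (χ ω) ∨ IsIrrCharacter G (-χ ω) := fun ω => hFirr _
  have horth : ∀ ω ω', classInner (χ ω) (χ ω') = if ω = ω' then 1 else 0 := by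
    intro ω ω'
    simp only [χ]
    rw [hForth]
    simp only [EmbeddingLike.apply_eq_iff_eq]
  have hone : χ 1 = fun _ => 1 := by
    have h1 : (1 : ↥(W₁ ⊔ W₂) →* ℂˣ) = e (none, none) := (homParam_none_none hW).symm
    rw [h1, hχF]
    funext g
    simp [F, ι, ε, optSel, triv]
  have hind : ∀ φ ψ : ↥(W₁ ⊔ W₂) →* ℂˣ, φ ≠ 1 → ψ ≠ 1 →
      (∀ w : ↥(W₁ ⊔ W₂), (w : G) ∈ W₂ → φ w = 1) → (∀ w : ↥(W₁ ⊔ W₂), (w : G) ∈ W₁ → ψ w = 1) →
      indFun (W₁ ⊔ W₂) (fun w => 1 - (φ w : ℂ) - (ψ w : ℂ) + (φ w : ℂ) * (ψ w : ℂ)) =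
        fun g => 1 - χ φ g - χ ψ g + χ (φ * ψ) g := by
    intro φ ψ hφ hψ hφ₂ hψ₁
    let φ' : T₂ W₁ W₂ := ⟨φ, fun k hk => hφ₂ k (Subgroup.mem_subgroupOf.mp hk)⟩
    let ψ' : T₁ W₁ W₂ := ⟨ψ, fun k hk => hψ₁ k (Subgroup.mem_subgroupOf.mp hk)⟩
    let i : IdxI W₁ W₂ := ⟨φ', fun h => hφ (congrArg Subtype.val h)⟩
    let j : IdxJ W₁ W₂ := ⟨ψ', fun h => hψ (congrArg Subtype.val h)⟩
    have e1 : φ = e (some i, none) := (homParam_some_none hW i).symm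
    have e2 : ψ = e (none, some j) := (homParam_none_some hW j).symm
    have e3 : φ * ψ = e (some i, some j) := (homParam_some_some hW i j).symm
    have h1 : χ φ = F (some i, none) := by rw [e1, hχF]
    have h2 : χ ψ = F (none, some j) := by rw [e2, hχF]
    have h3 : χ (φ * ψ) = F (some i, some j) := by rw [e3, hχF]
    funext g
    have h4 : Gam W₁ W₂ φ ψ g = indFun (W₁ ⊔ W₂) (fun w => 1 - (φ w : ℂ) - (ψ w : ℂ) + (φ w : ℂ) * (ψ w : ℂ)) g - 1 := rfl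
    have h5 : Gam W₁ W₂ φ ψ g = (s i : ℂ) * (ξ i : G → ℂ) g + (t j : ℂ) * (η j : G → ℂ) g + (w i j : ℂ) * (ζ i j : G → ℂ) g := by
      have h6 := congrFun (hvs i j) g
      change Gam W₁ W₂ φ ψ g = _ at h6
      rw [h6, Finset.sum_apply]
      simp only [Pi.smul_apply, smul_eq_mul, hvv i j]
      push_cast
      simp only [add_mul, ite_mul, zero_mul, Finset.sum_add_distrib, Finset.sum_ite_eq', Finset.mem_univ, if_true]
    have h7 : F (some i, none) g = - ((s i : ℂ) * (ξ i : G → ℂ) g) := by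
      simp [F, ι, ε, optSel]
    have h8 : F (none, some j) g = - ((t j : ℂ) * (η j : G → ℂ) g) := by
      simp [F, ι, ε, optSel]
    have h9 : F (some i, some j) g = (w i j : ℂ) * (ζ i j : G → ℂ) g := by
      simp [F, ι, ε, optSel]
    rw [h1, h2, h3, h7, h8, h9]
    rw [h5] at h4
    linear_combination -h4
  refine ⟨χ, hirr, fun ω ω' => by rw [horth]; congr, hone, ?_, hind⟩
  intro ω x hx₁ hx₂
  refine family_eq_on hW χ hirr (fun ω ω' hne => ?_) hone hind x hx₁ hx₂ ω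
  rw [horth, if_neg hne]

end Main

end Cfsg.Agent.Lib.FT
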