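import Mathlib

/-! # The combinatorial heart of the cyclic T.I. theorem.

An `I × J` grid of integer vectors of norm `3`, with inner product `1` along rows and columns and `0` otherwise,
has the form `x i + y j + z i j` for orthonormal `x i, y j, z i j`, provided `|J| ≥ 4`, `|I| = 2` or `|I| ≥ 4`. -/

set_option autoImplicit false

namespace Cfsg.Agent.Lib.FT

section Enum

theorem sq_bound {a : ℤ} (h : a * a ≤ 3) : a = -1 ∨ a = 0 ∨ a = 1 := by
  have h1 : -2 < a := by nlinarith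
  have h2 : a < 2 := by nlinarith
  omega

theorem enumD (x a a' b b' c c' : ℤ) (h1 : x + a + a' = 0) (h2 : x + b + b' = 0) (h3 : x + c + c' = 0)
    (h4 : a + b + c = 1)
    (hn : x * x + a * a + a' * a' + b * b + b' * b' + c * c + c' * c' ≤ 3) :
    (a = 1 ∧ a' = -1 ∧ x = 0 ∧ b = 0 ∧ b' = 0 ∧ c = 0 ∧ c' = 0) ∨
    (b = 1 ∧ b' = -1 ∧ x = 0 ∧ a = 0 ∧ a' = 0 ∧ c = 0 ∧ c' = 0) ∨
    (c = 1 ∧ c' = -1 ∧ x = 0 ∧ a = 0 ∧ a' = 0 ∧ b = 0 ∧ b' = 0) := by
  have hx := sq_bound (a := x) (by nlinarith [mul_self_nonneg a, mul_self_nonneg a', mul_self_nonneg b, mul_self_nonneg b', mul_self_nonneg c, mul_self_nonneg c'])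
  have ha := sq_bound (a := a) (by nlinarith [mul_self_nonneg x, mul_self_nonneg a', mul_self_nonneg b, mul_self_nonneg b', mul_self_nonneg c, mul_self_nonneg c'])
  have hb := sq_bound (a := b) (by nlinarith [mul_self_nonneg a, mul_self_nonneg a', mul_self_nonneg x, mul_self_nonneg b', mul_self_nonneg c, mul_self_nonneg c'])
  obtain rfl : a' = -x - a := by omega
  obtain rfl : b' = -x - b := by omega
  obtain rfl : c = 1 - a - b := by omega
  obtain rfl : c' = -x - (1 - a - b) := by omega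
  rcases hx with rfl | rfl | rfl <;> rcases ha with rfl | rfl | rfl <;> rcases hb with rfl | rfl | rfl <;>
    first
    | (exfalso; norm_num at hn; done)
    | norm_num

theorem enumA (x a a' b b' c c' r : ℤ) (h1 : x + a + a' = 1) (h2 : x + b + b' = 0) (h3 : x + c + c' = 0)
    (h4 : a + b + c = 0) (h5 : a - a' + r = 1)
    (hn : x * x + a * a + a' * a' + b * b + b' * b' + c * c + c' * c' + r * r ≤ 3) :
    (a = 1 ∧ b = -1 ∧ b' = 1 ∧ x = 0 ∧ a' = 0 ∧ c = 0 ∧ c' = 0 ∧ r = 0) ∨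
    (a = 1 ∧ c = -1 ∧ c' = 1 ∧ x = 0 ∧ a' = 0 ∧ b = 0 ∧ b' = 0 ∧ r = 0) := by
  have hx := sq_bound (a := x) (by nlinarith [mul_self_nonneg a, mul_self_nonneg a', mul_self_nonneg b, mul_self_nonneg b', mul_self_nonneg c, mul_self_nonneg c', mul_self_nonneg r])
  have ha := sq_bound (a := a) (by nlinarith [mul_self_nonneg x, mul_self_nonneg a', mul_self_nonneg b, mul_self_nonneg b', mul_self_nonneg c, mul_self_nonneg c', mul_self_nonneg r])
  have hb := sq_bound (a := b) (by nlinarith [mul_self_nonneg a, mul_self_nonneg a', mul_self_nonneg x, mul_self_nonneg b', mul_self_nonneg c, mul_self_nonneg c', mul_self_nonneg r])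
  obtain rfl : a' = 1 - x - a := by omega
  obtain rfl : b' = -x - b := by omega
  obtain rfl : c = - a - b := by omega
  obtain rfl : c' = -x - (- a - b) := by omega
  obtain rfl : r = 1 - a + (1 - x - a) := by omega
  rcases hx with rfl | rfl | rfl <;> rcases ha with rfl | rfl | rfl <;> rcases hb with rfl | rfl | rfl <;>
    first
    | (exfalso; norm_num at hn; done)
    | norm_num

theorem enumB (x a a' b b' c c' r : ℤ) (h1 : x + a + a' = 0) (h2 : x + b + b' = 1) (h3 : x + c + c' = 0)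
    (h4 : a + b + c = 0) (h5 : a - a' + r = 1)
    (hn : x * x + a * a + a' * a' + b * b + b' * b' + c * c + c' * c' + r * r ≤ 3) :
    (x = 1 ∧ a' = -1 ∧ c' = -1 ∧ a = 0 ∧ b = 0 ∧ b' = 0 ∧ c = 0 ∧ r = 0) ∨
    (b' = 1 ∧ r = 1 ∧ x = 0 ∧ a = 0 ∧ a' = 0 ∧ b = 0 ∧ c = 0 ∧ c' = 0) := by
  have hx := sq_bound (a := x) (by nlinarith [mul_self_nonneg a, mul_self_nonneg a', mul_self_nonneg b, mul_self_nonneg b', mul_self_nonneg c, mul_self_nonneg c', mul_self_nonneg r])
  have ha := sq_bound (a := a) (by nlinarith [mul_self_nonneg x, mul_self_nonneg a', mul_self_nonneg b, mul_self_nonneg b', mul_self_nonneg c, mul_self_nonneg c', mul_self_nonneg r])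
  have hb := sq_bound (a := b) (by nlinarith [mul_self_nonneg a, mul_self_nonneg a', mul_self_nonneg x, mul_self_nonneg b', mul_self_nonneg c, mul_self_nonneg c', mul_self_nonneg r])
  obtain rfl : a' = - x - a := by omega
  obtain rfl : b' = 1 - x - b := by omega
  obtain rfl : c = - a - b := by omega
  obtain rfl : c' = -x - (- a - b) := by omega
  obtain rfl : r = 1 - a + (- x - a) := by omega
  rcases hx with rfl | rfl | rfl <;> rcases ha with rfl | rfl | rfl <;> rcases hb with rfl | rfl | rfl <;>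
    first
    | (exfalso; norm_num at hn; done)
    | norm_num

end Enum

section Vec

variable {X : Type*} [Fintype X] [DecidableEq X]

/-- Dot product of integer vectors. -/
def dp (f g : X → ℤ) : ℤ := ∑ x, f x * g x

/-- Support of a vector. -/
def supp3 (v : X → ℤ) : Finset X := Finset.univ.filter fun x => v x ≠ 0

@[simp] theorem mem_supp3 {v : X → ℤ} {x : X} : x ∈ supp3 v ↔ v x ≠ 0 := by simp [supp3]

theorem dp_comm (f g : X → ℤ) : dp f g = dp g f := by
  simp only [dp, mul_comm]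

theorem dp_eq_sum_supp (d v : X → ℤ) : dp d v = ∑ x ∈ supp3 v, d x * v x := by
  unfold dp
  symm
  apply Finset.sum_subset (Finset.subset_univ _)
  intro x _ hx
  have : v x = 0 := by simpa using hx
  rw [this, mul_zero]

theorem mul_self_le_dp (v : X → ℤ) (x : X) : v x * v x ≤ dp v v :=
  Finset.single_le_sum (f := fun x => v x * v x) (fun y _ => mul_self_nonneg (v y)) (Finset.mem_univ x)

theorem norm3_values {v : X → ℤ} (h : dp v v = 3) (x : X) : v x = -1 ∨ v x = 0 ∨ v x = 1 :=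
  sq_bound (by have := mul_self_le_dp v x; omega)

theorem norm3_sq {v : X → ℤ} (h : dp v v = 3) {x : X} (hx : v x ≠ 0) : v x * v x = 1 := by
  rcases norm3_values h x with h1 | h1 | h1
  · rw [h1]; norm_num
  · exact absurd h1 hx
  · rw [h1]; norm_num

theorem norm3_card {v : X → ℤ} (h : dp v v = 3) : (supp3 v).card = 3 := by
  have h1 := dp_eq_sum_supp v v
  rw [h] at h1
  have h2 : ∑ x ∈ supp3 v, v x * v x = ∑ x ∈ supp3 v, (1 : ℤ) :=
    Finset.sum_congr rfl fun x hx => norm3_sq h (by simpa using hx)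
  rw [h2] at h1
  simp only [Finset.sum_const, smul_eq_mul, mul_one, nsmul_eq_mul] at h1
  omega

theorem exists_third {S : Finset X} (hS : S.card = 3) {p q : X} (hp : p ∈ S) (hq : q ∈ S) (hpq : p ≠ q) :
    ∃ r, S = {p, q, r} ∧ r ≠ p ∧ r ≠ q := by
  have h1 : ({p, q} : Finset X) ⊆ S := by
    intro y hy
    simp only [Finset.mem_insert, Finset.mem_singleton] at hy
    rcases hy with rfl | rfl <;> assumption
  have h2 : (S \ {p, q}).card = 1 := by
    rw [Finset.card_sdiff_of_subset h1, hS, Finset.card_pair hpq]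
  obtain ⟨r, hr⟩ := Finset.card_eq_one.mp h2
  have hr1 : r ∈ S \ {p, q} := by rw [hr]; simp
  simp only [Finset.mem_sdiff, Finset.mem_insert, Finset.mem_singleton, not_or] at hr1
  refine ⟨r, ?_, hr1.2.1, hr1.2.2⟩
  have h3 : S = (S \ {p, q}) ∪ {p, q} := (Finset.sdiff_union_of_subset h1).symm
  rw [h3, hr]
  ext y
  simp only [Finset.mem_union, Finset.mem_singleton, Finset.mem_insert]
  tauto

/-- Two vectors of norm 3 with inner product 1 and an odd witness meet in exactly one point. -/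
theorem meet_core {v v' e : X → ℤ} (hv : dp v v = 3) (hv' : dp v' v' = 3) (h : dp v v' = 1)
    (he : Odd (dp e v - dp e v')) :
    ∃ ξ, supp3 v ∩ supp3 v' = {ξ} ∧ v ξ = v' ξ := by
  set T := supp3 v ∩ supp3 v' with hT
  have hsum : ∑ x ∈ T, v x * v' x = 1 := by
    rw [← h, dp_eq_sum_supp]
    refine Finset.sum_subset (by rw [hT]; exact Finset.inter_subset_right) ?_
    intro x hx hx2
    have h1 : v x = 0 := by
      by_contra h2
      exact hx2 (Finset.mem_inter.mpr ⟨by simpa using h2, hx⟩)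
    rw [h1, zero_mul]
  have hval : ∀ x ∈ T, v x * v' x = 1 ∨ v x * v' x = -1 := by
    intro x hx
    obtain ⟨h1, h2⟩ := Finset.mem_inter.mp hx
    have h3 : v x ≠ 0 := by simpa using h1
    have h4 : v' x ≠ 0 := by simpa using h2
    rcases norm3_values hv x with h5 | h5 | h5 <;> rcases norm3_values hv' x with h6 | h6 | h6 <;>
      simp_all
  have hle : T.card ≤ 3 := by
    calc T.card ≤ (supp3 v).card := Finset.card_le_card Finset.inter_subset_left
      _ = 3 := norm3_card hv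
  have hc : T.card = 0 ∨ T.card = 1 ∨ T.card = 2 ∨ T.card = 3 := by omega
  rcases hc with hc | hc | hc | hc
  · rw [Finset.card_eq_zero.mp hc] at hsum
    simp at hsum
  · obtain ⟨ξ, hξ⟩ := Finset.card_eq_one.mp hc
    refine ⟨ξ, hξ, ?_⟩
    rw [hξ, Finset.sum_singleton] at hsum
    have h1 := norm3_values hv ξ
    have h2 := norm3_values hv' ξ
    rcases h1 with h1 | h1 | h1 <;> rcases h2 with h2 | h2 | h2 <;> rw [h1, h2] at hsum <;> omega
  · obtain ⟨p, q, hpq, hT2⟩ := Finset.card_eq_two.mp hc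
    rw [hT2, Finset.sum_pair hpq] at hsum
    have h1 := hval p (by rw [hT2]; simp)
    have h2 := hval q (by rw [hT2]; simp)
    omega
  · exfalso
    have h1 : T = supp3 v := Finset.eq_of_subset_of_card_le Finset.inter_subset_left (by rw [norm3_card hv, hc])
    have h2 : T = supp3 v' := Finset.eq_of_subset_of_card_le Finset.inter_subset_right (by rw [norm3_card hv', hc])
    have h3 : (2 : ℤ) ∣ dp e v - dp e v' := by
      simp only [dp]
      rw [← Finset.sum_sub_distrib]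
      refine Finset.dvd_sum fun x _ => ?_
      rw [← mul_sub]
      apply Dvd.dvd.mul_left
      by_cases hx : x ∈ T
      · have h4 : v x ≠ 0 := by
          have := (h1 ▸ hx); simpa using this
        have h5 : v' x ≠ 0 := by
          have := (h2 ▸ hx); simpa using this
        rcases norm3_values hv x with h6 | h6 | h6 <;> rcases norm3_values hv' x with h7 | h7 | h7 <;>
          first
          | exact absurd h6 h4
          | exact absurd h7 h5
          | (rw [h6, h7]; norm_num)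
      · have h4 : v x = 0 := by
          by_contra h6
          exact hx (h1 ▸ (by simpa using h6))
        have h5 : v' x = 0 := by
          by_contra h6
          exact hx (h2 ▸ (by simpa using h6))
        rw [h4, h5]
        simp
    rw [← Int.not_even_iff_odd, even_iff_two_dvd] at he
    exact he h3

theorem three_supp {v : X → ℤ} (hv : dp v v = 3) {p q r : X} (hpq : p ≠ q) (hpr : p ≠ r) (hqr : q ≠ r)
    (hp : v p ≠ 0) (hq : v q ≠ 0) (hr : v r ≠ 0) (e : X → ℤ) :
    dp e v = e p * v p + e q * v q + e r * v r := by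
  have h1 : ({p, q, r} : Finset X) ⊆ supp3 v := by
    intro y hy
    simp only [Finset.mem_insert, Finset.mem_singleton] at hy
    rcases hy with rfl | rfl | rfl <;> simpa
  have h2 : ({p, q, r} : Finset X).card = 3 := Finset.card_eq_three.mpr ⟨p, q, r, hpq, hpr, hqr, rfl⟩
  have h3 := Finset.eq_of_subset_of_card_le h1 (by rw [norm3_card hv, h2])
  rw [dp_eq_sum_supp, ← h3, Finset.sum_insert (by simp [hpq, hpr]), Finset.sum_insert (by simp [hqr]),
    Finset.sum_singleton]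
  ring

/-- Bessel for coordinates. -/
theorem sum_sq_le (d : X → ℤ) (l : List X) (hl : l.Nodup) : (l.map fun p => d p * d p).sum ≤ dp d d := by
  classical
  have h1 : (l.map fun p => d p * d p).sum = ∑ p ∈ l.toFinset, d p * d p := by
    rw [List.sum_toFinset _ hl]
  rw [h1]
  exact Finset.sum_le_univ_sum_of_nonneg (fun y => mul_self_nonneg _)

theorem mul_sign_sq {d s : ℤ} (hs : s * s = 1) : (d * s) * (d * s) = d * d := by
  calc (d * s) * (d * s) = d * d * (s * s) := by ring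
    _ = d * d := by rw [hs, mul_one]

theorem eq_of_mul_sign {d s t : ℤ} (hs : s * s = 1) (h : d * s = t) : d = t * s := by
  rw [← h]
  calc d = d * (s * s) := by rw [hs, mul_one]
    _ = d * s * s := by ring

theorem no_R_core {dA dB dC : X → ℤ} {x a a' b b' c c' r : X} {sx sa sa' sb sb' sc sc' ρ : ℤ}
    (h1 : sx * sx = 1) (h2 : sa * sa = 1) (h3 : sa' * sa' = 1) (h4 : sb * sb = 1) (h5 : sb' * sb' = 1)
    (h6 : sc * sc = 1) (h7 : sc' * sc' = 1) (h8 : ρ * ρ = 1)
    (hnd : [x, a, a', b, b', c, c', r].Nodup)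
    (nA : dp dA dA = 3) (nB : dp dB dB = 3) (nC : dp dC dC = 3)
    (A1 : dA x * sx + dA a * sa + dA a' * sa' = 1) (A2 : dA x * sx + dA b * sb + dA b' * sb' = 0)
    (A3 : dA x * sx + dA c * sc + dA c' * sc' = 0) (A4 : dA a * sa + dA b * sb + dA c * sc = 0)
    (A5 : dA a * sa - dA a' * sa' + dA r * ρ = 1)
    (B1 : dB x * sx + dB a * sa + dB a' * sa' = 0) (B2 : dB x * sx + dB b * sb + dB b' * sb' = 1)
    (B3 : dB x * sx + dB c * sc + dB c' * sc' = 0) (B4 : dB a * sa + dB b * sb + dB c * sc = 0)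
    (B5 : dB a * sa - dB a' * sa' + dB r * ρ = 1)
    (C1 : dC x * sx + dC a * sa + dC a' * sa' = 0) (C2 : dC x * sx + dC b * sb + dC b' * sb' = 0)
    (C3 : dC x * sx + dC c * sc + dC c' * sc' = 1) (C4 : dC a * sa + dC b * sb + dC c * sc = 0)
    (C5 : dC a * sa - dC a' * sa' + dC r * ρ = 1)
    (AB : dp dB dA = 1) (AC : dp dC dA = 1) : False := by
  have hsq : ∀ d : X → ℤ, dp d d = 3 →
      (d x * sx) * (d x * sx) + (d a * sa) * (d a * sa) + (d a' * sa') * (d a' * sa') +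
      (d b * sb) * (d b * sb) + (d b' * sb') * (d b' * sb') + (d c * sc) * (d c * sc) +
      (d c' * sc') * (d c' * sc') + (d r * ρ) * (d r * ρ) ≤ 3 := by
    intro d hd
    have := sum_sq_le d _ hnd
    rw [hd] at this
    simp only [List.map_cons, List.map_nil, List.sum_cons, List.sum_nil, add_zero] at this
    rw [mul_sign_sq h1, mul_sign_sq h2, mul_sign_sq h3, mul_sign_sq h4, mul_sign_sq h5, mul_sign_sq h6,
      mul_sign_sq h7, mul_sign_sq h8]
    linarith
  have hnodup := List.nodup_cons.mp hnd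
  simp only [List.mem_cons, List.not_mem_nil, or_false, not_or] at hnodup
  have hnodup2 := List.nodup_cons.mp hnodup.2
  simp only [List.mem_cons, List.not_mem_nil, or_false, not_or] at hnodup2
  have hnodup3 := List.nodup_cons.mp hnodup2.2
  simp only [List.mem_cons, List.not_mem_nil, or_false, not_or] at hnodup3
  have hnodup4 := List.nodup_cons.mp hnodup3.2
  simp only [List.mem_cons, List.not_mem_nil, or_false, not_or] at hnodup4
  have hnodup5 := List.nodup_cons.mp hnodup4.2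
  simp only [List.mem_cons, List.not_mem_nil, or_false, not_or] at hnodup5
  have hnodup6 := List.nodup_cons.mp hnodup5.2
  simp only [List.mem_cons, List.not_mem_nil, or_false, not_or] at hnodup6
  rcases enumA _ _ _ _ _ _ _ _ A1 A2 A3 A4 A5 (hsq _ nA) with h | h
  · obtain ⟨e1, e2, e3, -, -, -, -, -⟩ := h
    have v1 := eq_of_mul_sign h2 e1
    have v2 := eq_of_mul_sign h4 e2
    have v3 := eq_of_mul_sign h5 e3
    have nz : ∀ {s : ℤ}, s * s = 1 → s ≠ 0 := fun hs h0 => by rw [h0] at hs; norm_num at hs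
    have key := three_supp nA (p := a) (q := b) (r := b') (e := dC) hnodup2.1.2.1 hnodup2.1.2.2.1 hnodup4.1.1
      (by rw [v1]; simpa using nz h2) (by rw [v2]; simpa using nz h4) (by rw [v3]; simpa using nz h5)
    rw [AC, v1, v2, v3] at key
    have key2 : dC a * sa - dC b * sb + dC b' * sb' = 1 := by linarith
    rcases enumB _ _ _ _ _ _ _ _ C1 C3 C2 (by linarith : dC a * sa + dC c * sc + dC b * sb = 0) C5 (by
      have := hsq _ nC
      linarith) with h | h
    · obtain ⟨-, -, e4, e5, -, -, e6, -⟩ := h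
      rw [e4, e5, e6] at key2
      norm_num at key2
    · obtain ⟨-, -, -, e4, -, -, e5, e6⟩ := h
      rw [e4, e5, e6] at key2
      norm_num at key2
  · obtain ⟨e1, e2, e3, -, -, -, -, -⟩ := h
    have v1 := eq_of_mul_sign h2 e1
    have v2 := eq_of_mul_sign h6 e2
    have v3 := eq_of_mul_sign h7 e3
    have nz : ∀ {s : ℤ}, s * s = 1 → s ≠ 0 := fun hs h0 => by rw [h0] at hs; norm_num at hs
    have key := three_supp nA (p := a) (q := c) (r := c') (e := dB) hnodup2.1.2.2.2.1 hnodup2.1.2.2.2.2.1 hnodup6.1.1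
      (by rw [v1]; simpa using nz h2) (by rw [v2]; simpa using nz h6) (by rw [v3]; simpa using nz h7)
    rw [AB, v1, v2, v3] at key
    have key2 : dB a * sa - dB c * sc + dB c' * sc' = 1 := by linarith
    rcases enumB _ _ _ _ _ _ _ _ B1 B2 B3 B4 B5 (hsq _ nB) with h | h
    · obtain ⟨-, -, e4, e5, -, -, e6, -⟩ := h
      rw [e4, e5, e6] at key2
      norm_num at key2
    · obtain ⟨-, -, -, e4, -, -, e5, e6⟩ := h
      rw [e4, e5, e6] at key2
      norm_num at key2

theorem no_R_main {dD : X → ℤ} (nD : dp dD dD = 3) {dA dB dC : X → ℤ} {x a a' b b' c c' : X} {sx sa sa' sb sb' sc sc' : ℤ}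
    (h1 : sx * sx = 1) (h2 : sa * sa = 1) (h3 : sa' * sa' = 1) (h4 : sb * sb = 1) (h5 : sb' * sb' = 1) (h6 : sc * sc = 1)
    (h7 : sc' * sc' = 1) (hnd : [x, a, a', b, b', c, c'].Nodup) (nA : dp dA dA = 3) (nB : dp dB dB = 3) (nC : dp dC dC = 3)
    (A1 : dA x * sx + dA a * sa + dA a' * sa' = 1) (A2 : dA x * sx + dA b * sb + dA b' * sb' = 0)
    (A3 : dA x * sx + dA c * sc + dA c' * sc' = 0) (A4 : dA a * sa + dA b * sb + dA c * sc = 0)
    (B1 : dB x * sx + dB a * sa + dB a' * sa' = 0) (B2 : dB x * sx + dB b * sb + dB b' * sb' = 1)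
    (B3 : dB x * sx + dB c * sc + dB c' * sc' = 0) (B4 : dB a * sa + dB b * sb + dB c * sc = 0)
    (C1 : dC x * sx + dC a * sa + dC a' * sa' = 0) (C2 : dC x * sx + dC b * sb + dC b' * sb' = 0)
    (C3 : dC x * sx + dC c * sc + dC c' * sc' = 1) (C4 : dC a * sa + dC b * sb + dC c * sc = 0)
    (AB : dp dB dA = 1) (AC : dp dC dA = 1) (AD : dp dA dD = 1) (BD : dp dB dD = 1) (CD : dp dC dD = 1)
    (e1 : dD a * sa = 1) (e2 : dD a' * sa' = -1) (e3 : dD x = 0) (e4 : dD b = 0) (e5 : dD b' = 0) (e6 : dD c = 0) (e7 : dD c' = 0) : False := by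
  have nz : ∀ {s : ℤ}, s * s = 1 → s ≠ 0 := fun hs h0 => by rw [h0] at hs; norm_num at hs
  have v1 := eq_of_mul_sign h2 e1
  have v2 := eq_of_mul_sign h3 e2
  have ha : dD a ≠ 0 := by rw [v1]; simpa using nz h2
  have ha' : dD a' ≠ 0 := by rw [v2]; simpa using nz h3
  have haa' : a ≠ a' := by
    intro h
    simp [h] at hnd
  obtain ⟨r, hr, hr1, hr2⟩ := exists_third (norm3_card nD) (p := a) (q := a') (by simpa using ha) (by simpa using ha') haa'
  have hrm : dD r ≠ 0 := by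
    have : r ∈ supp3 dD := by rw [hr]; simp
    simpa using this
  have hρ : dD r * dD r = 1 := norm3_sq nD hrm
  have hnd' : [x, a, a', b, b', c, c', r].Nodup := by
    have hr3 : r ≠ x := fun h => hrm (by rw [h]; exact e3)
    have hr4 : r ≠ b := fun h => hrm (by rw [h]; exact e4)
    have hr5 : r ≠ b' := fun h => hrm (by rw [h]; exact e5)
    have hr6 : r ≠ c := fun h => hrm (by rw [h]; exact e6)
    have hr7 : r ≠ c' := fun h => hrm (by rw [h]; exact e7)
    have : [x, a, a', b, b', c, c', r] = [x, a, a', b, b', c, c'] ++ [r] := rfl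
    rw [this, List.nodup_append]
    refine ⟨hnd, by simp, ?_⟩
    intro u hu v hv
    simp only [List.mem_singleton] at hv
    subst hv
    simp only [List.mem_cons, List.not_mem_nil, or_false] at hu
    rcases hu with rfl | rfl | rfl | rfl | rfl | rfl | rfl
    · exact hr3.symm
    · exact hr1.symm
    · exact hr2.symm
    · exact hr4.symm
    · exact hr5.symm
    · exact hr6.symm
    · exact hr7.symm
  have key := fun e : X → ℤ => three_supp nD (p := a) (q := a') (r := r) haa' hr1.symm hr2.symm ha ha' hrm e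
  have kA := key dA
  have kB := key dB
  have kC := key dC
  rw [AD, v1, v2] at kA
  rw [BD, v1, v2] at kB
  rw [CD, v1, v2] at kC
  refine no_R_core (ρ := dD r) (r := r) h1 h2 h3 h4 h5 h6 h7 hρ hnd' nA nB nC A1 A2 A3 A4 (by linear_combination -kA) B1 B2 B3 B4 (by linear_combination -kB)
    C1 C2 C3 C4 (by linear_combination -kC) AB AC

/-- Lines through `x` with a transversal cannot be completed by a second row. -/
theorem no_R {dA dB dC dD : X → ℤ} {x a a' b b' c c' : X} {sx sa sa' sb sb' sc sc' : ℤ}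
    (h1 : sx * sx = 1) (h2 : sa * sa = 1) (h3 : sa' * sa' = 1) (h4 : sb * sb = 1) (h5 : sb' * sb' = 1)
    (h6 : sc * sc = 1) (h7 : sc' * sc' = 1)
    (hnd : [x, a, a', b, b', c, c'].Nodup)
    (nA : dp dA dA = 3) (nB : dp dB dB = 3) (nC : dp dC dC = 3) (nD : dp dD dD = 3)
    (A1 : dA x * sx + dA a * sa + dA a' * sa' = 1) (A2 : dA x * sx + dA b * sb + dA b' * sb' = 0)
    (A3 : dA x * sx + dA c * sc + dA c' * sc' = 0) (A4 : dA a * sa + dA b * sb + dA c * sc = 0)
    (B1 : dB x * sx + dB a * sa + dB a' * sa' = 0) (B2 : dB x * sx + dB b * sb + dB b' * sb' = 1)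
    (B3 : dB x * sx + dB c * sc + dB c' * sc' = 0) (B4 : dB a * sa + dB b * sb + dB c * sc = 0)
    (C1 : dC x * sx + dC a * sa + dC a' * sa' = 0) (C2 : dC x * sx + dC b * sb + dC b' * sb' = 0)
    (C3 : dC x * sx + dC c * sc + dC c' * sc' = 1) (C4 : dC a * sa + dC b * sb + dC c * sc = 0)
    (D1 : dD x * sx + dD a * sa + dD a' * sa' = 0) (D2 : dD x * sx + dD b * sb + dD b' * sb' = 0)
    (D3 : dD x * sx + dD c * sc + dD c' * sc' = 0) (D4 : dD a * sa + dD b * sb + dD c * sc = 1)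
    (AB : dp dA dB = 1) (AC : dp dA dC = 1) (BC : dp dB dC = 1) (AD : dp dA dD = 1) (BD : dp dB dD = 1)
    (CD : dp dC dD = 1) : False := by
  have hsq : (dD x * sx) * (dD x * sx) + (dD a * sa) * (dD a * sa) + (dD a' * sa') * (dD a' * sa') +
      (dD b * sb) * (dD b * sb) + (dD b' * sb') * (dD b' * sb') + (dD c * sc) * (dD c * sc) +
      (dD c' * sc') * (dD c' * sc') ≤ 3 := by
    have := sum_sq_le dD _ hnd
    rw [nD] at this
    simp only [List.map_cons, List.map_nil, List.sum_cons, List.sum_nil, add_zero] at this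
    rw [mul_sign_sq h1, mul_sign_sq h2, mul_sign_sq h3, mul_sign_sq h4, mul_sign_sq h5, mul_sign_sq h6,
      mul_sign_sq h7]
    linarith
  have nz : ∀ {s : ℤ}, s * s = 1 → s ≠ 0 := fun hs h0 => by rw [h0] at hs; norm_num at hs
  rcases enumD _ _ _ _ _ _ _ D1 D2 D3 D4 hsq with h | h | h
  · obtain ⟨e1, e2, e3, e4, e5, e6, e7⟩ := h
    refine no_R_main nD h1 h2 h3 h4 h5 h6 h7 hnd nA nB nC A1 A2 A3 A4 B1 B2 B3 B4 C1 C2 C3 C4
      (by rw [dp_comm]; exact AB) (by rw [dp_comm]; exact AC) AD BD CD e1 e2 ?_ ?_ ?_ ?_ ?_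
    · exact (mul_eq_zero.mp e3).resolve_right (nz h1)
    · exact (mul_eq_zero.mp e4).resolve_right (nz h4)
    · exact (mul_eq_zero.mp e5).resolve_right (nz h5)
    · exact (mul_eq_zero.mp e6).resolve_right (nz h6)
    · exact (mul_eq_zero.mp e7).resolve_right (nz h7)
  · obtain ⟨e1, e2, e3, e4, e5, e6, e7⟩ := h
    have hnd2 : [x, b, b', a, a', c, c'].Nodup := by
      refine (List.Perm.nodup_iff ?_).mp hnd
      exact List.Perm.cons _ ((List.perm_append_comm (l₁ := [a, a']) (l₂ := [b, b'])).append_right [c, c'])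
    refine no_R_main nD (dA := dB) (dB := dA) (dC := dC) (a := b) (a' := b') (b := a) (b' := a') (c := c) (c' := c')
      h1 h4 h5 h2 h3 h6 h7 hnd2 nB nA nC B2 B1 B3 (by linear_combination B4) A2 A1 A3 (by linear_combination A4) C2 C1 C3 (by linear_combination C4)
      AB (by rw [dp_comm]; exact BC) BD AD CD e1 e2 ?_ ?_ ?_ ?_ ?_
    · exact (mul_eq_zero.mp e3).resolve_right (nz h1)
    · exact (mul_eq_zero.mp e4).resolve_right (nz h2)
    · exact (mul_eq_zero.mp e5).resolve_right (nz h3)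
    · exact (mul_eq_zero.mp e6).resolve_right (nz h6)
    · exact (mul_eq_zero.mp e7).resolve_right (nz h7)
  · obtain ⟨e1, e2, e3, e4, e5, e6, e7⟩ := h
    have hnd2 : [x, c, c', b, b', a, a'].Nodup := by
      refine (List.Perm.nodup_iff ?_).mp hnd
      exact List.Perm.cons _ ((List.perm_append_comm (l₁ := [c, c', b, b']) (l₂ := [a, a'])).trans
        (List.Perm.append_left [a, a'] (List.perm_append_comm (l₁ := [c, c']) (l₂ := [b, b'])))).symm
    refine no_R_main nD (dA := dC) (dB := dB) (dC := dA) (a := c) (a' := c') (b := b) (b' := b') (c := a) (c' := a')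
      h1 h6 h7 h4 h5 h2 h3 hnd2 nC nB nA C3 C2 C1 (by linear_combination C4) B3 B2 B1 (by linear_combination B4) A3 A2 A1 (by linear_combination A4)
      BC AC CD BD AD e1 e2 ?_ ?_ ?_ ?_ ?_
    · exact (mul_eq_zero.mp e3).resolve_right (nz h1)
    · exact (mul_eq_zero.mp e6).resolve_right (nz h4)
    · exact (mul_eq_zero.mp e7).resolve_right (nz h5)
    · exact (mul_eq_zero.mp e4).resolve_right (nz h2)
    · exact (mul_eq_zero.mp e5).resolve_right (nz h3)

end Vec

section Row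

variable {X : Type*} [Fintype X] [DecidableEq X] {J : Type*}

/-- Two rows of the grid. -/
structure RowPair (T d : J → X → ℤ) : Prop where
  tt : ∀ j, dp (T j) (T j) = 3
  tl : ∀ j l, j ≠ l → dp (T j) (T l) = 1
  dd : ∀ j, dp (d j) (d j) = 3
  dl : ∀ j l, j ≠ l → dp (d j) (d l) = 1
  td : ∀ j, dp (d j) (T j) = 1
  tn : ∀ j l, j ≠ l → dp (d j) (T l) = 0

variable {T d : J → X → ℤ}

theorem RowPair.meet (h : RowPair T d) {j l : J} (hjl : j ≠ l) :
    ∃ ξ, supp3 (T j) ∩ supp3 (T l) = {ξ} ∧ T j ξ = T l ξ := by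
  refine meet_core (e := d j) (h.tt j) (h.tt l) (h.tl j l hjl) ?_
  rw [h.td j, h.tn j l hjl]
  exact ⟨0, by norm_num⟩

theorem sign_of_ne {v : X → ℤ} (hv : dp v v = 3) {x : X} (hx : v x ≠ 0) : v x * v x = 1 := norm3_sq hv hx

theorem RowPair.no_R' (h : RowPair T d) {jA jB jC jD : J} (hAB : jA ≠ jB) (hAC : jA ≠ jC) (hAD : jA ≠ jD)
    (hBC : jB ≠ jC) (hBD : jB ≠ jD) (hCD : jC ≠ jD) {x a a' b b' c c' : X} {sx sa sa' sb sb' sc sc' : ℤ}
    (h1 : sx * sx = 1) (h2 : sa * sa = 1) (h3 : sa' * sa' = 1) (h4 : sb * sb = 1) (h5 : sb' * sb' = 1)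
    (h6 : sc * sc = 1) (h7 : sc' * sc' = 1)
    (hnd : [x, a, a', b, b', c, c'].Nodup)
    (lA : ∀ e : X → ℤ, dp e (T jA) = e x * sx + e a * sa + e a' * sa')
    (lB : ∀ e : X → ℤ, dp e (T jB) = e x * sx + e b * sb + e b' * sb')
    (lC : ∀ e : X → ℤ, dp e (T jC) = e x * sx + e c * sc + e c' * sc')
    (lD : ∀ e : X → ℤ, dp e (T jD) = e a * sa + e b * sb + e c * sc) : False := by
  refine no_R (dA := d jA) (dB := d jB) (dC := d jC) (dD := d jD) h1 h2 h3 h4 h5 h6 h7 hnd (h.dd _) (h.dd _) (h.dd _) (h.dd _)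
    ?_ ?_ ?_ ?_ ?_ ?_ ?_ ?_ ?_ ?_ ?_ ?_ ?_ ?_ ?_ ?_ (h.dl _ _ hAB) (h.dl _ _ hAC) (h.dl _ _ hBC) (h.dl _ _ hAD) (h.dl _ _ hBD)
    (h.dl _ _ hCD)
  · rw [← lA, h.td]
  · rw [← lB, h.tn _ _ hAB]
  · rw [← lC, h.tn _ _ hAC]
  · rw [← lD, h.tn _ _ hAD]
  · rw [← lA, h.tn _ _ hAB.symm]
  · rw [← lB, h.td]
  · rw [← lC, h.tn _ _ hBC]
  · rw [← lD, h.tn _ _ hBD]
  · rw [← lA, h.tn _ _ hAC.symm]
  · rw [← lB, h.tn _ _ hBC.symm]
  · rw [← lC, h.td]
  · rw [← lD, h.tn _ _ hCD]
  · rw [← lA, h.tn _ _ hAD.symm]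
  · rw [← lB, h.tn _ _ hBD.symm]
  · rw [← lC, h.tn _ _ hCD.symm]
  · rw [← lD, h.td]

/-- Any three lines of a row (when there are four lines) pass through a common point. -/
theorem RowPair.concurrent (h : RowPair T d) {j₁ j₂ j₃ j₄ : J} (h12 : j₁ ≠ j₂) (h13 : j₁ ≠ j₃) (h14 : j₁ ≠ j₄)
    (h23 : j₂ ≠ j₃) (h24 : j₂ ≠ j₄) (h34 : j₃ ≠ j₄) :
    ∃ p, T j₁ p ≠ 0 ∧ T j₂ p ≠ 0 ∧ T j₃ p ≠ 0 := by
  by_contra hno
  push Not at hno
  obtain ⟨u, hu, hu2⟩ := h.meet h12
  obtain ⟨v, hv, hv2⟩ := h.meet h13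
  obtain ⟨w, hw, hw2⟩ := h.meet h23
  have mem_inter : ∀ {j l : J} {p ξ : X}, supp3 (T j) ∩ supp3 (T l) = {ξ} → T j p ≠ 0 → T l p ≠ 0 → p = ξ := by
    intro j l p ξ hξ hp hq
    have : p ∈ supp3 (T j) ∩ supp3 (T l) := Finset.mem_inter.mpr ⟨by simpa using hp, by simpa using hq⟩
    rw [hξ] at this
    simpa using this
  have mem_left : ∀ {j l : J} {ξ : X}, supp3 (T j) ∩ supp3 (T l) = {ξ} → T j ξ ≠ 0 := by
    intro j l ξ hξ
    have : ξ ∈ supp3 (T j) ∩ supp3 (T l) := by rw [hξ]; simp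
    simpa using (Finset.mem_inter.mp this).1
  have mem_right : ∀ {j l : J} {ξ : X}, supp3 (T j) ∩ supp3 (T l) = {ξ} → T l ξ ≠ 0 := by
    intro j l ξ hξ
    have : ξ ∈ supp3 (T j) ∩ supp3 (T l) := by rw [hξ]; simp
    simpa using (Finset.mem_inter.mp this).2
  have u1 := mem_left hu
  have u2 := mem_right hu
  have v1 := mem_left hv
  have v3 := mem_right hv
  have w2 := mem_left hw
  have w3 := mem_right hw
  have huv : u ≠ v := by
    rintro rfl
    exact v3 (hno u u1 u2)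
  have huw : u ≠ w := by
    rintro rfl
    exact w3 (hno u u1 u2)
  have hvw : v ≠ w := by
    rintro rfl
    exact v3 (hno v v1 w2)
  obtain ⟨a, ha, ha1, ha2⟩ := exists_third (norm3_card (h.tt j₁)) (p := u) (q := v) (by simpa using u1) (by simpa using v1) huv
  obtain ⟨b, hb, hb1, hb2⟩ := exists_third (norm3_card (h.tt j₂)) (p := u) (q := w) (by simpa using u2) (by simpa using w2) huw
  obtain ⟨c, hc, hc1, hc2⟩ := exists_third (norm3_card (h.tt j₃)) (p := v) (q := w) (by simpa using v3) (by simpa using w3) hvw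
  have a1 : T j₁ a ≠ 0 := by
    have : a ∈ supp3 (T j₁) := by rw [ha]; simp
    simpa using this
  have b2 : T j₂ b ≠ 0 := by
    have : b ∈ supp3 (T j₂) := by rw [hb]; simp
    simpa using this
  have c3 : T j₃ c ≠ 0 := by
    have : c ∈ supp3 (T j₃) := by rw [hc]; simp
    simpa using this
  -- non-memberships
  have a2 : T j₂ a = 0 := by
    by_contra h0
    exact ha1 (mem_inter hu a1 h0)
  have a3 : T j₃ a = 0 := by
    by_contra h0
    exact ha2 (mem_inter hv a1 h0)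
  have b1 : T j₁ b = 0 := by
    by_contra h0
    exact hb1 (mem_inter hu h0 b2)
  have b3 : T j₃ b = 0 := by
    by_contra h0
    exact hb2 (mem_inter hw b2 h0)
  have c1 : T j₁ c = 0 := by
    by_contra h0
    exact hc1 (mem_inter hv h0 c3)
  have c2 : T j₂ c = 0 := by
    by_contra h0
    exact hc2 (mem_inter hw h0 c3)
  have hab : a ≠ b := by
    rintro rfl
    exact a1 b1
  have hac : a ≠ c := by
    rintro rfl
    exact a1 c1
  have hbc : b ≠ c := by
    rintro rfl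
    exact b2 c2
  have hua : u ≠ a := ha1.symm
  have hva : v ≠ a := ha2.symm
  have hub : u ≠ b := hb1.symm
  have hwb : w ≠ b := hb2.symm
  have hvc : v ≠ c := hc1.symm
  have hwc : w ≠ c := hc2.symm
  have hvb : v ≠ b := by
    rintro rfl
    exact v3 b3
  have hwa : w ≠ a := by
    rintro rfl
    exact w3 a3
  have huc : u ≠ c := by
    rintro rfl
    exact u2 c2
  -- expansions of the three lines
  have e1 := fun e : X → ℤ => three_supp (h.tt j₁) huv hua hva u1 v1 a1 e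
  have e2 := fun e : X → ℤ => three_supp (h.tt j₂) huw hub hwb u2 w2 b2 e
  have e3 := fun e : X → ℤ => three_supp (h.tt j₃) hvw hvc hwc v3 w3 c3 e
  rw [← hu2] at e2
  rw [← hv2] at e3
  rw [← hw2] at e3
  -- the signs
  have su : T j₁ u * T j₁ u = 1 := norm3_sq (h.tt j₁) u1
  have sv : T j₁ v * T j₁ v = 1 := norm3_sq (h.tt j₁) v1
  have sa : T j₁ a * T j₁ a = 1 := norm3_sq (h.tt j₁) a1
  have sw : T j₂ w * T j₂ w = 1 := norm3_sq (h.tt j₂) w2
  have sb : T j₂ b * T j₂ b = 1 := norm3_sq (h.tt j₂) b2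
  have sc : T j₃ c * T j₃ c = 1 := norm3_sq (h.tt j₃) c3
  -- the fourth line
  obtain ⟨p₁, hp₁, hs₁⟩ := h.meet h14
  obtain ⟨p₂, hp₂, hs₂⟩ := h.meet h24
  obtain ⟨p₃, hp₃, hs₃⟩ := h.meet h34
  have n₄ := norm3_card (h.tt j₄)
  have t1 := mem_right hp₁
  have t2 := mem_right hp₂
  have t3 := mem_right hp₃
  have q1 := mem_left hp₁
  have q2 := mem_left hp₂
  have q3 := mem_left hp₃
  have m1 : p₁ = u ∨ p₁ = v ∨ p₁ = a := by
    have : p₁ ∈ supp3 (T j₁) := by simpa using q1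
    rw [ha] at this
    simpa using this
  have m2 : p₂ = u ∨ p₂ = w ∨ p₂ = b := by
    have : p₂ ∈ supp3 (T j₂) := by simpa using q2
    rw [hb] at this
    simpa using this
  have m3 : p₃ = v ∨ p₃ = w ∨ p₃ = c := by
    have : p₃ ∈ supp3 (T j₃) := by simpa using q3
    rw [hc] at this
    simpa using this
  have third : ∀ {P Q : X}, T j₄ P ≠ 0 → T j₄ Q ≠ 0 → P ≠ Q → ∃ S, ∀ e : X → ℤ, T j₄ S ≠ 0 ∧ S ≠ P ∧ S ≠ Q ∧
      dp e (T j₄) = e P * T j₄ P + e Q * T j₄ Q + e S * T j₄ S := by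
    intro P Q hP hQ hPQ
    obtain ⟨S, hS, hS1, hS2⟩ := exists_third n₄ (p := P) (q := Q) (by simpa using hP) (by simpa using hQ) hPQ
    have hS3 : T j₄ S ≠ 0 := by
      have : S ∈ supp3 (T j₄) := by rw [hS]; simp
      simpa using this
    exact ⟨S, fun e => ⟨hS3, hS1, hS2, three_supp (h.tt j₄) hPQ hS1.symm hS2.symm hP hQ hS3 e⟩⟩
  have sS : ∀ {S : X}, T j₄ S ≠ 0 → T j₄ S * T j₄ S = 1 := fun hS => norm3_sq (h.tt j₄) hS
  have scv : ∀ {j : J} {p : X}, T j p ≠ 0 → T j p * T j p = 1 := fun hS => norm3_sq (h.tt _) hS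
  have nS : ∀ {j : J} {S : X} {P : X}, supp3 (T j) ∩ supp3 (T j₄) = {P} → T j₄ S ≠ 0 → S ≠ P → T j S = 0 := by
    intro j S P hP hS hne
    by_contra h0
    exact hne (mem_inter hP h0 hS)
  rcases m1 with m1 | m1 | m1
  · -- `T₄` through `u`
    rw [m1] at hp₁ hs₁ t1 q1
    have hp₂u : p₂ = u := (mem_inter hp₂ u2 t1).symm
    rw [hp₂u] at hp₂ hs₂ t2 q2
    have hp₃c : p₃ = c := by
      rcases m3 with m3 | m3 | m3
      · rw [m3] at t3
        exact absurd (mem_inter hp₁ v1 t3).symm huv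
      · rw [m3] at t3
        exact absurd (mem_inter hp₂ w2 t3).symm huw
      · exact m3
    rw [hp₃c] at hp₃ hs₃ t3 q3
    obtain ⟨S, hS⟩ := third t1 t3 huc
    obtain ⟨hS3, hS1, hS2, -⟩ := hS 0
    have S1 : T j₁ S = 0 := nS hp₁ hS3 hS1
    have S2 : T j₂ S = 0 := nS hp₂ hS3 hS1
    have hSv : v ≠ S := fun h' => v1 (h' ▸ S1)
    have hSa : a ≠ S := fun h' => a1 (h' ▸ S1)
    have hSw : w ≠ S := fun h' => w2 (h' ▸ S2)
    have hSb : b ≠ S := fun h' => b2 (h' ▸ S2)
    refine h.no_R' (jA := j₁) (jB := j₂) (jC := j₄) (jD := j₃) h12 h14 h13 h24 h23 h34.symm (x := u) (a := v) (a' := a) (b := w)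
      (b' := b) (c := c) (c' := S) su sv sa sw sb sc (sS hS3) ?_ e1 e2 ?_ e3
    · simp only [List.nodup_cons, List.mem_cons, List.not_mem_nil, or_false, not_or, List.nodup_nil, and_true, not_false_eq_true]
      exact ⟨⟨huv, hua, huw, hub, huc, hS1.symm⟩, ⟨hva, hvw, hvb, hvc, hSv⟩, ⟨hwa.symm, hab, hac, hSa⟩, ⟨hwb, hwc, hSw⟩, ⟨hbc, hSb⟩, hS2.symm⟩
    · intro e
      rw [(hS e).2.2.2, ← hs₁, ← hs₃]
  · -- `T₄` through `v`
    rw [m1] at hp₁ hs₁ t1 q1
    have hp₃v : p₃ = v := (mem_inter hp₃ v3 t1).symm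
    rw [hp₃v] at hp₃ hs₃ t3 q3
    have hp₂b : p₂ = b := by
      rcases m2 with m2 | m2 | m2
      · rw [m2] at t2
        exact absurd (mem_inter hp₁ u1 t2) huv
      · rw [m2] at t2
        exact absurd (mem_inter hp₃ w3 t2).symm hvw
      · exact m2
    rw [hp₂b] at hp₂ hs₂ t2 q2
    obtain ⟨S, hS⟩ := third t1 t2 hvb
    obtain ⟨hS3, hS1, hS2, -⟩ := hS 0
    have S1 : T j₁ S = 0 := nS hp₁ hS3 hS1
    have S3 : T j₃ S = 0 := nS hp₃ hS3 hS1
    have hSu : u ≠ S := fun h' => u1 (h' ▸ S1)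
    have hSa : a ≠ S := fun h' => a1 (h' ▸ S1)
    have hSw : w ≠ S := fun h' => w3 (h' ▸ S3)
    have hSc : c ≠ S := fun h' => c3 (h' ▸ S3)
    -- lines through `v`: T₁, T₃, T₄; transversal T₂ = {u, w, b}
    refine h.no_R' (jA := j₁) (jB := j₃) (jC := j₄) (jD := j₂) h13 h14 h12 h34 h23.symm h24.symm (x := v) (a := u) (a' := a) (b := w)
      (b' := c) (c := b) (c' := S) (sx := T j₁ v) (sa := T j₁ u) (sa' := T j₁ a) (sb := T j₂ w) (sb' := T j₃ c) (sc := T j₂ b) (sc' := T j₄ S)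
      sv su sa sw sc sb (sS hS3) ?_ ?_ e3 ?_ e2
    · simp only [List.nodup_cons, List.mem_cons, List.not_mem_nil, or_false, not_or, List.nodup_nil, and_true, not_false_eq_true]
      exact ⟨⟨huv.symm, hva, hvw, hvc, hvb, hS1.symm⟩, ⟨hua, huw, huc, hub, hSu⟩, ⟨hwa.symm, hac, hab, hSa⟩, ⟨hwc, hwb, hSw⟩, ⟨hbc.symm, hSc⟩, hS2.symm⟩
    · intro e
      rw [e1 e]
      ring
    · intro e
      rw [(hS e).2.2.2, ← hs₁, ← hs₂]
  · -- `T₄` through `a`
    rw [m1] at hp₁ hs₁ t1 q1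
    rcases m2 with m2 | m2 | m2
    · rw [m2] at t2
      exact absurd (mem_inter hp₁ u1 t2) hua
    · -- lines through `w`: T₂, T₃, T₄; transversal T₁ = {u, v, a}
      rw [m2] at hp₂ hs₂ t2 q2
      have hp₃w : p₃ = w := (mem_inter hp₃ w3 t2).symm
      rw [hp₃w] at hp₃ hs₃ t3 q3
      obtain ⟨S, hS⟩ := third t2 t1 hwa
      obtain ⟨hS3, hS1, hS2, -⟩ := hS 0
      have S2 : T j₂ S = 0 := nS hp₂ hS3 hS1
      have S3 : T j₃ S = 0 := nS hp₃ hS3 hS1
      have hSu : u ≠ S := fun h' => u2 (h' ▸ S2)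
      have hSb : b ≠ S := fun h' => b2 (h' ▸ S2)
      have hSv : v ≠ S := fun h' => v3 (h' ▸ S3)
      have hSc : c ≠ S := fun h' => c3 (h' ▸ S3)
      refine h.no_R' (jA := j₂) (jB := j₃) (jC := j₄) (jD := j₁) h23 h24 h12.symm h34 h13.symm h14.symm (x := w) (a := u) (a' := b) (b := v)
        (b' := c) (c := a) (c' := S) (sx := T j₂ w) (sa := T j₁ u) (sa' := T j₂ b) (sb := T j₁ v) (sb' := T j₃ c) (sc := T j₁ a) (sc' := T j₄ S)
        sw su sb sv sc sa (sS hS3) ?_ ?_ ?_ ?_ e1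
      · simp only [List.nodup_cons, List.mem_cons, List.not_mem_nil, or_false, not_or, List.nodup_nil, and_true, not_false_eq_true]
        exact ⟨⟨huw.symm, hwb, hvw.symm, hwc, hwa, hS1.symm⟩, ⟨hub, huv, huc, hua, hSu⟩, ⟨hvb.symm, hbc, hab.symm, hSb⟩, ⟨hvc, hva, hSv⟩, ⟨hac.symm, hSc⟩, hS2.symm⟩
      · intro e
        rw [e2 e]
        ring
      · intro e
        rw [e3 e]
        ring
      · intro e
        rw [(hS e).2.2.2, ← hs₁, ← hs₂]
    · -- the Pasch configuration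
      rw [m2] at hp₂ hs₂ t2 q2
      have hp₃c : p₃ = c := by
        rcases m3 with m3 | m3 | m3
        · rw [m3] at t3
          exact absurd (mem_inter hp₁ v1 t3) hva
        · rw [m3] at t3
          exact absurd (mem_inter hp₂ w2 t3) hwb
        · exact m3
      rw [hp₃c] at hp₃ hs₃ t3 q3
      have l4 := fun e : X → ℤ => three_supp (h.tt j₄) hab hac hbc t1 t2 t3 e
      have d1 := e1 (d j₁)
      have d2 := e2 (d j₁)
      have d3 := e3 (d j₁)
      have d4 := l4 (d j₁)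
      rw [h.td] at d1
      rw [h.tn _ _ h12] at d2
      rw [h.tn _ _ h13] at d3
      rw [h.tn _ _ h14] at d4
      rw [← hs₁, ← hs₂, ← hs₃] at d4
      generalize d j₁ u * T j₁ u = U at *
      generalize d j₁ v * T j₁ v = V at *
      generalize d j₁ w * T j₂ w = W at *
      generalize d j₁ a * T j₁ a = A at *
      generalize d j₁ b * T j₂ b = B at *
      generalize d j₁ c * T j₃ c = C at *
      omega

/-- The centre of a row. -/
theorem RowPair.center (h : RowPair T d) {j₁ j₂ : J} (h12 : j₁ ≠ j₂)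
    (h4 : ∀ j₃ : J, j₃ ≠ j₁ → j₃ ≠ j₂ → ∃ j₄, j₄ ≠ j₁ ∧ j₄ ≠ j₂ ∧ j₄ ≠ j₃) :
    ∃ ξ s, s * s = 1 ∧ (∀ j, T j ξ = s) := by
  classical
  obtain ⟨ξ, hξ, hs⟩ := h.meet h12
  have hmem : ξ ∈ supp3 (T j₁) ∩ supp3 (T j₂) := by rw [hξ]; simp
  obtain ⟨h1, h2⟩ := Finset.mem_inter.mp hmem
  have h1' : T j₁ ξ ≠ 0 := by simpa using h1
  have h2' : T j₂ ξ ≠ 0 := by simpa using h2
  have hall : ∀ j, T j ξ = T j₁ ξ := by
    intro j
    by_cases hj1 : j = j₁
    · rw [hj1]
    by_cases hj2 : j = j₂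
    · rw [hj2, hs]
    obtain ⟨j₄, h41, h42, h43⟩ := h4 j hj1 hj2
    obtain ⟨p, hp1, hp2, hp3⟩ := h.concurrent (j₁ := j₁) (j₂ := j₂) (j₃ := j) (j₄ := j₄) h12 (Ne.symm hj1) (Ne.symm h41) (Ne.symm hj2) (Ne.symm h42) (Ne.symm h43)
    have hp : p = ξ := by
      have : p ∈ supp3 (T j₁) ∩ supp3 (T j₂) := Finset.mem_inter.mpr ⟨by simpa using hp1, by simpa using hp2⟩
      rw [hξ] at this
      simpa using this
    subst hp
    obtain ⟨ξ', hξ', hs'⟩ := h.meet (j := j₁) (l := j) (Ne.symm hj1)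
    have : p ∈ supp3 (T j₁) ∩ supp3 (T j) := Finset.mem_inter.mpr ⟨by simpa using hp1, by simpa using hp3⟩
    rw [hξ'] at this
    have hp' : p = ξ' := by simpa using this
    rw [hp', hs']
  exact ⟨ξ, T j₁ ξ, norm3_sq (h.tt j₁) h1', hall⟩

end Row

section Final

variable {X : Type*} [Fintype X] [DecidableEq X] {I J : Type*} [DecidableEq I] [DecidableEq J]

/-- The Gram matrix of the grid. -/
def IsGrid (v : I → J → X → ℤ) : Prop :=
  ∀ i j k l, dp (v i j) (v k l) = (if i = k then 1 else 0) + (if j = l then 1 else 0) + (if i = k ∧ j = l then 1 else 0)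

theorem IsGrid.swap {v : I → J → X → ℤ} (h : IsGrid v) : IsGrid (fun j i => v i j) := by
  intro j i l k
  rw [h i j k l]
  simp only [and_comm]
  ring

theorem IsGrid.rowPair {v : I → J → X → ℤ} (h : IsGrid v) {i k : I} (hik : i ≠ k) : RowPair (v i) (v k) where
  tt j := by rw [h]; simp
  tl j l hjl := by rw [h]; simp [hjl]
  dd j := by rw [h]; simp
  dl j l hjl := by rw [h]; simp [hjl]
  td j := by rw [h]; simp [hik.symm]
  tn j l hjl := by rw [h]; simp [hik.symm, hjl]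

theorem IsGrid.row_unique {v : I → J → X → ℤ} (h : IsGrid v) {i k : I} (hik : i ≠ k) {j l : J} (hjl : j ≠ l) {p q : X}
    (h1 : v i j p ≠ 0) (h2 : v i l p ≠ 0) (h3 : v i j q ≠ 0) (h4 : v i l q ≠ 0) : p = q := by
  obtain ⟨ξ, hξ, -⟩ := (h.rowPair hik).meet hjl
  have hp : p ∈ supp3 (v i j) ∩ supp3 (v i l) := Finset.mem_inter.mpr ⟨by simpa using h1, by simpa using h2⟩
  have hq : q ∈ supp3 (v i j) ∩ supp3 (v i l) := Finset.mem_inter.mpr ⟨by simpa using h3, by simpa using h4⟩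
  rw [hξ] at hp hq
  rw [Finset.mem_singleton.mp hp, Finset.mem_singleton.mp hq]

/-- Row centre and column centre differ, when there are four columns. -/
theorem IsGrid.center_ne {v : I → J → X → ℤ} (h : IsGrid v) {i k : I} (hik : i ≠ k) {j : J} {u : X}
    (hJ : ∃ l₁ l₂ l₃ : J, l₁ ≠ j ∧ l₂ ≠ j ∧ l₃ ≠ j ∧ l₁ ≠ l₂ ∧ l₁ ≠ l₃ ∧ l₂ ≠ l₃)
    (hrow : ∀ l, v i l u ≠ 0) (hcol : v k j u ≠ 0) : False := by
  obtain ⟨l₁, l₂, l₃, h1, h2, h3, h12, h13, h23⟩ := hJ
  have hn : dp (v k j) (v k j) = 3 := by rw [h]; simp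
  have hcard := norm3_card hn
  have hu : u ∈ supp3 (v k j) := by simpa using hcol
  obtain ⟨p, q, hpq, hS⟩ : ∃ p q, p ≠ q ∧ supp3 (v k j) \ {u} = {p, q} := by
    apply Finset.card_eq_two.mp
    rw [Finset.card_sdiff_of_subset (by simpa using hu), hcard]
    simp
  have hS2 : supp3 (v k j) = {u, p, q} := by
    have h3 : supp3 (v k j) = (supp3 (v k j) \ {u}) ∪ {u} :=
      (Finset.sdiff_union_of_subset (by simpa using hu)).symm
    rw [h3, hS]
    ext y
    simp only [Finset.mem_union, Finset.mem_singleton, Finset.mem_insert]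
    tauto
  have hp' : p ∈ supp3 (v k j) \ {u} := by rw [hS]; simp
  have hq' : q ∈ supp3 (v k j) \ {u} := by rw [hS]; simp
  have hpu : p ≠ u := by simpa using (Finset.mem_sdiff.mp hp').2
  have hqu : q ≠ u := by simpa using (Finset.mem_sdiff.mp hq').2
  have hpne : v k j p ≠ 0 := by simpa using (Finset.mem_sdiff.mp hp').1
  have hqne : v k j q ≠ 0 := by simpa using (Finset.mem_sdiff.mp hq').1
  have key : ∀ l, l ≠ j → v i l p ≠ 0 ∨ v i l q ≠ 0 := by
    intro l hl
    by_contra hcon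
    push Not at hcon
    have h0 : dp (v i l) (v k j) = 0 := by
      rw [h]
      simp [hik, hl]
    rw [three_supp hn hpu.symm hqu.symm hpq hcol hpne hqne (v i l), hcon.1, hcon.2, zero_mul, zero_mul, add_zero, add_zero] at h0
    exact mul_ne_zero (hrow l) hcol h0
  have both : ∀ {l l' : J}, l ≠ l' → ∀ {w : X}, w ≠ u → v i l w ≠ 0 → v i l' w ≠ 0 → False := by
    intro l l' hll w hw h4 h5
    exact hw (h.row_unique hik hll h4 h5 (hrow l) (hrow l'))
  rcases key l₁ h1 with a | a <;> rcases key l₂ h2 with b | b <;> rcases key l₃ h3 with c | c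
  · exact both h12 hpu a b
  · exact both h12 hpu a b
  · exact both h13 hpu a c
  · exact both h23 hqu b c
  · exact both h23 hpu b c
  · exact both h13 hqu a c
  · exact both h12 hqu a b
  · exact both h12 hqu a b

/-- **The structure of a grid.** -/
theorem grid_structure [Nonempty I] [Nonempty J] {v : I → J → X → ℤ} (h : IsGrid v)
    (hI2 : ∀ i : I, ∃ k, i ≠ k) (hJ2 : ∀ j : J, ∃ l, j ≠ l)
    (hI4 : ∀ a b c : I, a ≠ b → c ≠ a → c ≠ b → ∃ d, d ≠ a ∧ d ≠ b ∧ d ≠ c)
    (hJ4 : ∀ a b c : J, a ≠ b → c ≠ a → c ≠ b → ∃ d, d ≠ a ∧ d ≠ b ∧ d ≠ c)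
    (hbig : (∀ j : J, ∃ l₁ l₂ l₃ : J, l₁ ≠ j ∧ l₂ ≠ j ∧ l₃ ≠ j ∧ l₁ ≠ l₂ ∧ l₁ ≠ l₃ ∧ l₂ ≠ l₃) ∨
      (∀ i : I, ∃ l₁ l₂ l₃ : I, l₁ ≠ i ∧ l₂ ≠ i ∧ l₃ ≠ i ∧ l₁ ≠ l₂ ∧ l₁ ≠ l₃ ∧ l₂ ≠ l₃)) :
    ∃ (ξ : I → X) (η : J → X) (ζ : I → J → X) (s : I → ℤ) (t : J → ℤ) (w : I → J → ℤ),
      (∀ i, s i * s i = 1) ∧ (∀ j, t j * t j = 1) ∧ (∀ i j, w i j * w i j = 1) ∧
      Function.Injective ξ ∧ Function.Injective η ∧ (∀ i j, ξ i ≠ η j) ∧ (∀ i j k, ζ i j ≠ ξ k) ∧
      (∀ i j l, ζ i j ≠ η l) ∧ Function.Injective (fun p : I × J => ζ p.1 p.2) ∧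
      ∀ i j x, v i j x = (if x = ξ i then s i else 0) + (if x = η j then t j else 0) +
        (if x = ζ i j then w i j else 0) := by
  classical
  have hrc : ∀ i : I, ∃ ξ s, s * s = 1 ∧ ∀ j, v i j ξ = s := by
    intro i
    obtain ⟨k, hk⟩ := hI2 i
    obtain ⟨j₁⟩ := ‹Nonempty J›
    obtain ⟨j₂, hj⟩ := hJ2 j₁
    exact (h.rowPair hk).center hj fun j₃ h1 h2 => hJ4 j₁ j₂ j₃ hj h1 h2
  have hcc : ∀ j : J, ∃ η t, t * t = 1 ∧ ∀ i, v i j η = t := by
    intro j
    obtain ⟨l, hl⟩ := hJ2 j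
    obtain ⟨i₁⟩ := ‹Nonempty I›
    obtain ⟨i₂, hi⟩ := hI2 i₁
    exact (h.swap.rowPair hl).center hi fun i₃ h1 h2 => hI4 i₁ i₂ i₃ hi h1 h2
  choose ξ s hs hξ using hrc
  choose η t ht hη using hcc
  have nz : ∀ {a : ℤ}, a * a = 1 → a ≠ 0 := fun hs h0 => by rw [h0] at hs; norm_num at hs
  have hn : ∀ i j, dp (v i j) (v i j) = 3 := fun i j => by rw [h]; simp
  have xne : ∀ i j, v i j (ξ i) ≠ 0 := fun i j => by rw [hξ]; exact nz (hs i)
  have yne : ∀ i j, v i j (η j) ≠ 0 := fun i j => by rw [hη]; exact nz (ht j)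
  have hxy : ∀ i j, ξ i ≠ η j := by
    intro i j heq
    rcases hbig with hb | hb
    · obtain ⟨k, hk⟩ := hI2 i
      refine h.center_ne (u := ξ i) hk (hb j) (fun l => xne i l) ?_
      rw [heq]
      exact yne k j
    · obtain ⟨l, hl⟩ := hJ2 j
      refine h.swap.center_ne (u := ξ i) hl (hb i) (fun k => ?_) (xne i l)
      show v k j (ξ i) ≠ 0
      rw [heq]
      exact yne k j
  have hthird : ∀ i j, ∃ ζ, supp3 (v i j) = {ξ i, η j, ζ} ∧ ζ ≠ ξ i ∧ ζ ≠ η j := by
    intro i j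
    exact exists_third (norm3_card (hn i j)) (by simpa using xne i j) (by simpa using yne i j) (hxy i j)
  choose ζ hζ hζ1 hζ2 using hthird
  have zne : ∀ i j, v i j (ζ i j) ≠ 0 := by
    intro i j
    have : ζ i j ∈ supp3 (v i j) := by rw [hζ]; simp
    simpa using this
  have hw : ∀ i j, v i j (ζ i j) * v i j (ζ i j) = 1 := fun i j => norm3_sq (hn i j) (zne i j)
  have hform : ∀ i j x, v i j x = (if x = ξ i then s i else 0) + (if x = η j then t j else 0) +
      (if x = ζ i j then v i j (ζ i j) else 0) := by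
    intro i j x
    by_cases h1 : x = ξ i
    · subst h1
      rw [if_pos rfl, if_neg (hxy i j), if_neg (hζ1 i j).symm, hξ]
      ring
    by_cases h2 : x = η j
    · subst h2
      rw [if_neg h1, if_pos rfl, if_neg (hζ2 i j).symm, hη]
      ring
    by_cases h3 : x = ζ i j
    · subst h3
      rw [if_neg h1, if_neg h2, if_pos rfl]
      ring
    rw [if_neg h1, if_neg h2, if_neg h3]
    by_contra h0
    have : x ∈ supp3 (v i j) := by simpa using (by simpa using h0 : v i j x ≠ 0)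
    rw [hζ] at this
    simp only [Finset.mem_insert, Finset.mem_singleton] at this
    tauto
  have hξi : Function.Injective ξ := by
    intro i k heq
    by_contra hik
    obtain ⟨j⟩ := ‹Nonempty J›
    obtain ⟨l, hl⟩ := hJ2 j
    apply hxy i j
    refine h.swap.row_unique (i := j) (k := l) hl hik (xne i j) ?_ (yne i j) (yne k j)
    show v k j (ξ i) ≠ 0
    rw [heq]
    exact xne k j
  have hηi : Function.Injective η := by
    intro j l heq
    by_contra hjl
    obtain ⟨i⟩ := ‹Nonempty I›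
    obtain ⟨k, hk⟩ := hI2 i
    apply hxy i j
    refine h.row_unique hk hjl (xne i j) (xne i l) (yne i j) ?_
    rw [heq]
    exact yne i l
  have hzx : ∀ i j k, ζ i j ≠ ξ k := by
    intro i j k heq
    by_cases hik : i = k
    · subst hik
      exact hζ1 i j heq
    · obtain ⟨l, hl⟩ := hJ2 j
      apply hζ2 i j
      refine h.swap.row_unique (i := j) (k := l) hl hik (zne i j) ?_ (yne i j) (yne k j)
      show v k j (ζ i j) ≠ 0
      rw [heq]
      exact xne k j
  have hzy : ∀ i j l, ζ i j ≠ η l := by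
    intro i j l heq
    by_cases hjl : j = l
    · subst hjl
      exact hζ2 i j heq
    · obtain ⟨k, hk⟩ := hI2 i
      apply hζ1 i j
      refine h.row_unique hk hjl (zne i j) ?_ (xne i j) (xne i l)
      rw [heq]
      exact yne i l
  have hzi : Function.Injective (fun p : I × J => ζ p.1 p.2) := by
    rintro ⟨i, j⟩ ⟨k, l⟩ heq
    simp only at heq
    by_contra hne
    by_cases hik : i = k
    · subst hik
      have hjl : j ≠ l := fun hjl => hne (by rw [hjl])
      obtain ⟨k, hk⟩ := hI2 i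
      apply hζ1 i j
      refine h.row_unique hk hjl (zne i j) ?_ (xne i j) (xne i l)
      rw [heq]
      exact zne i l
    · by_cases hjl : j = l
      · subst hjl
        obtain ⟨l, hl⟩ := hJ2 j
        apply hζ2 i j
        refine h.swap.row_unique (i := j) (k := l) hl hik (zne i j) ?_ (yne i j) (yne k j)
        show v k j (ζ i j) ≠ 0
        rw [heq]
        exact zne k j
      · have h0 : dp (v k l) (v i j) = 0 := by
          rw [h]
          simp [Ne.symm hik, Ne.symm hjl]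
        rw [three_supp (hn i j) (hxy i j) (hζ1 i j).symm (hζ2 i j).symm (xne i j) (yne i j) (zne i j)] at h0
        have e1 : v k l (ξ i) = 0 := by
          rw [hform k l, if_neg (fun h' => hik (hξi h')), if_neg (hxy i l), if_neg (hzx k l i).symm]
          ring
        have e2 : v k l (η j) = 0 := by
          rw [hform k l, if_neg (hxy k j).symm, if_neg (fun h' => hjl (hηi h')), if_neg (hzy k l j).symm]
          ring
        rw [e1, e2, zero_mul, zero_mul, zero_add, zero_add] at h0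
        rcases mul_eq_zero.mp h0 with h1 | h1
        · apply zne k l
          rw [← heq]
          exact h1
        · exact zne i j h1
  exact ⟨ξ, η, ζ, s, t, fun i j => v i j (ζ i j), hs, ht, hw, hξi, hηi, hxy, hzx, hzy, hzi, hform⟩

end Final

end Cfsg.Agent.Lib.FT
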