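import Cfsg.Agent.S3737
import Cfsg.Agent.Lib.Components.Signal
import Cfsg.Agent.Lib.OddLocal.Trans1
import Cfsg.Agent.Lib.OddLocal.PLength
import Cfsg.Agent.Lib.Coprime.Sylow

/-!
Thompson's transitivity theorem in its general form (S1480, S0522):
the `P × Q`-lemma with a normalizing `p`-group (odd `p`: S3737; class two: `class2_key` below),
invariant `p'`-subgroups of `p`-constrained groups (`le_core_of_constrained`), and the transitivity
argument over a rank three subgroup.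
-/

set_option autoImplicit false
set_option linter.unusedSectionVars false
set_option linter.style.haveILetI false

namespace Cfsg.Agent.Lib.FT.TT

open Subgroup Cfsg
open scoped commutatorElement
open Cfsg.Agent.Lib.Coprime

section classtwo

variable {X : Type*} [Group X]

theorem conj_formula (y e u d₁ d₂ : X) (h1 : e⁻¹ * u * e = d₁ * u)
    (h2 : e * (y⁻¹ * u * y) * e⁻¹ = d₂ * (y⁻¹ * u * y)) (hd1e : d₁ * e = e * d₁)
    (hd1y : d₁ * y = y * d₁) (hd2y : d₂ * y = y * d₂) :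
    (y * e * y⁻¹ * e⁻¹) * u * (y * e * y⁻¹ * e⁻¹)⁻¹ = d₁ * d₂ * u := by
  have e1 : (y * e * y⁻¹ * e⁻¹) * u * (y * e * y⁻¹ * e⁻¹)⁻¹
      = y * e * y⁻¹ * (e⁻¹ * u * e) * y * e⁻¹ * y⁻¹ := by group
  rw [e1, h1]
  have e2 : y * e * y⁻¹ * (d₁ * u) * y * e⁻¹ * y⁻¹
      = y * e * (y⁻¹ * d₁ * y) * (y⁻¹ * u * y) * e⁻¹ * y⁻¹ := by group
  rw [e2]
  have h3 : y⁻¹ * d₁ * y = d₁ := by rw [mul_assoc, hd1y]; group
  rw [h3]
  have e3 : y * e * d₁ * (y⁻¹ * u * y) * e⁻¹ * y⁻¹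
      = y * (e * d₁ * e⁻¹) * (e * (y⁻¹ * u * y) * e⁻¹) * y⁻¹ := by group
  rw [e3, h2]
  have h4 : e * d₁ * e⁻¹ = d₁ := by rw [← hd1e]; group
  rw [h4]
  have e4 : y * d₁ * (d₂ * (y⁻¹ * u * y)) * y⁻¹
      = (y * d₁ * y⁻¹) * (y * d₂ * y⁻¹) * u := by group
  rw [e4]
  have h5 : y * d₁ * y⁻¹ = d₁ := by rw [← hd1y]; group
  have h6 : y * d₂ * y⁻¹ = d₂ := by rw [← hd2y]; group
  rw [h5, h6]

theorem comm_mul_of_central (e u v : X) (h : ⁅e, v⁆ * u = u * ⁅e, v⁆) :
    ⁅e, u * v⁆ = ⁅e, u⁆ * ⁅e, v⁆ := by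
  have h1 : e * u * e⁻¹ = ⁅e, u⁆ * u := by rw [commutatorElement_def]; group
  have h2 : e * v * e⁻¹ = ⁅e, v⁆ * v := by rw [commutatorElement_def]; group
  have h3 : ⁅e, u * v⁆ = (e * u * e⁻¹) * (e * v * e⁻¹) * (u * v)⁻¹ := by
    rw [commutatorElement_def]; group
  rw [h3, h1, h2]
  calc ⁅e, u⁆ * u * (⁅e, v⁆ * v) * (u * v)⁻¹ = ⁅e, u⁆ * (u * ⁅e, v⁆) * (v * (u * v)⁻¹) := by group
    _ = ⁅e, u⁆ * (⁅e, v⁆ * u) * (v * (u * v)⁻¹) := by rw [h]
    _ = ⁅e, u⁆ * ⁅e, v⁆ := by group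

end classtwo

/-- The class two case of the `P × Q`-lemma with a normalizing `p`-group. -/
theorem class2_key {X : Type*} [Group X] [Finite X] {p : ℕ} [Fact p.Prime] (P Q G : Subgroup X)
    (hQ : (Nat.card Q).Coprime p) (hPQ : P ≤ normalizer (Q : Set X)) (hG : IsPGroup p G)
    (hPG : P ≤ normalizer (G : Set X)) (hQG : Q ≤ normalizer (G : Set X))
    (hC : G ⊓ centralizer (P : Set X) ≤ centralizer (Q : Set X))
    (hcl : ∀ e ∈ P, ∀ u ∈ G, (∀ z ∈ P, ⁅e, u⁆ * z = z * ⁅e, u⁆) ∧ (∀ z ∈ G, ⁅e, u⁆ * z = z * ⁅e, u⁆)) :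
    Q ≤ centralizer (G : Set X) := by
  classical
  have hpp : p.Prime := Fact.out
  haveI : Group.IsNilpotent G := hG.isNilpotent
  have hGsolv : Group.IsSolvable G := inferInstance
  have hdG : ∀ e ∈ P, ∀ u ∈ G, ⁅e, u⁆ ∈ G := by
    intro e he u hu
    rw [commutatorElement_def]
    exact mul_mem ((mem_normalizer_iff.mp (hPG he) u).mp hu) (inv_mem hu)
  -- the central subgroup
  set D₀ : Subgroup X := G ⊓ centralizer (P : Set X) ⊓ centralizer (G : Set X) ⊓ centralizer (Q : Set X)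
    with hD₀
  have hdD : ∀ e ∈ P, ∀ u ∈ G, ⁅e, u⁆ ∈ D₀ := by
    intro e he u hu
    have h1 : ⁅e, u⁆ ∈ centralizer (P : Set X) := by
      rw [mem_centralizer_iff]
      intro z hz
      exact ((hcl e he u hu).1 z hz).symm
    have h2 : ⁅e, u⁆ ∈ centralizer (G : Set X) := by
      rw [mem_centralizer_iff]
      intro z hz
      exact ((hcl e he u hu).2 z hz).symm
    exact mem_inf.mpr ⟨mem_inf.mpr ⟨mem_inf.mpr ⟨hdG e he u hu, h1⟩, h2⟩,
      hC (mem_inf.mpr ⟨hdG e he u hu, h1⟩)⟩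
  have hD₀Q : D₀ ≤ centralizer (Q : Set X) := inf_le_right
  have hD₀comm : ∀ d ∈ D₀, ∀ y ∈ Q, d * y = y * d := by
    intro d hd y hy
    exact (mem_centralizer_iff.mp (hD₀Q hd) y hy).symm
  have hD₀G : ∀ d ∈ D₀, ∀ u ∈ G, d * u = u * d := by
    intro d hd u hu
    have h1 : d ∈ centralizer (G : Set X) := (mem_inf.mp (mem_inf.mp hd).1).2
    exact (mem_centralizer_iff.mp h1 u hu).symm
  -- the subgroup of elements of `Q` acting trivially modulo `D₀`
  let A : Subgroup X :=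
    { carrier := {c | c ∈ Q ∧ ∀ u ∈ G, c * u * c⁻¹ * u⁻¹ ∈ D₀}
      one_mem' := ⟨one_mem _, fun u _ => by simp [one_mem]⟩
      mul_mem' := by
        rintro c₁ c₂ ⟨h₁, h₁'⟩ ⟨h₂, h₂'⟩
        refine ⟨mul_mem h₁ h₂, fun u hu => ?_⟩
        set δ₂ := c₂ * u * c₂⁻¹ * u⁻¹ with hδ₂
        have h3 : c₂ * u * c₂⁻¹ = δ₂ * u := by rw [hδ₂]; group
        have h4 : (c₁ * c₂) * u * (c₁ * c₂)⁻¹ * u⁻¹ = c₁ * (δ₂ * u) * c₁⁻¹ * u⁻¹ := by
          rw [← h3]; group
        rw [h4]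
        have h5 : c₁ * (δ₂ * u) * c₁⁻¹ * u⁻¹ = (c₁ * δ₂) * u * c₁⁻¹ * u⁻¹ := by group
        rw [h5, ← hD₀comm δ₂ (h₂' u hu) c₁ h₁]
        have h6 : δ₂ * c₁ * u * c₁⁻¹ * u⁻¹ = δ₂ * (c₁ * u * c₁⁻¹ * u⁻¹) := by group
        rw [h6]
        exact mul_mem (h₂' u hu) (h₁' u hu)
      inv_mem' := by
        rintro c ⟨h₁, h₁'⟩
        refine ⟨inv_mem h₁, fun u hu => ?_⟩
        set w := c⁻¹ * u * c with hw
        have hwG : w ∈ G := by
          have := (mem_normalizer_iff.mp (hQG (inv_mem h₁)) u).mp hu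
          simpa [hw] using this
        have h3 := inv_mem (h₁' w hwG)
        have h4 : (c * w * c⁻¹ * w⁻¹)⁻¹ = c⁻¹ * u * c⁻¹⁻¹ * u⁻¹ := by
          rw [hw]; group
        rwa [h4] at h3 }
  have hAQ : A ≤ Q := fun c hc => hc.1
  have hAcen : A ≤ centralizer (G : Set X) := by
    have hact : CoprimeAction A G := by
      refine ⟨hAQ.trans hQG, ?_, Or.inr hGsolv⟩
      obtain ⟨k, hk⟩ := IsPGroup.iff_card.mp hG
      rw [hk]
      exact Nat.Coprime.pow_right k (Nat.Coprime.coprime_dvd_left (Subgroup.card_dvd_of_le hAQ) hQ)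
    have h1 : ⁅G, A⁆ ≤ D₀ := by
      rw [commutator_le]
      intro u hu c hc
      have := inv_mem (hc.2 u hu)
      have h2 : (c * u * c⁻¹ * u⁻¹)⁻¹ = u * c * u⁻¹ * c⁻¹ := by group
      rw [h2] at this
      rwa [commutatorElement_def]
    have h2 : ⁅⁅G, A⁆, A⁆ = ⊥ := by
      rw [commutator_eq_bot_iff_le_centralizer]
      exact h1.trans (hD₀Q.trans (centralizer_le hAQ))
    have h3 := hact.commutator_eq_bot_of_commutator_commutator h2
    rw [commutator_comm] at h3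
    exact commutator_eq_bot_iff_le_centralizer.mp h3
  -- the elements `[y, e]`
  have hinv : ∀ e ∈ P, ∀ u ∈ G, ⁅e⁻¹, u⁆ * ⁅e, u⁆ = 1 := by
    intro e he u hu
    have h1 : e⁻¹ * u * e = ⁅e⁻¹, u⁆ * u := by rw [commutatorElement_def]; group
    have h2 : e * u * e⁻¹ = ⁅e, u⁆ * u := by rw [commutatorElement_def]; group
    have hcom := (hcl e⁻¹ (inv_mem he) u hu).1 e he
    have h3 : u = ⁅e⁻¹, u⁆ * (e * u * e⁻¹) := by
      calc u = e * (e⁻¹ * u * e) * e⁻¹ := by group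
        _ = e * (⁅e⁻¹, u⁆ * u) * e⁻¹ := by rw [h1]
        _ = (e * ⁅e⁻¹, u⁆) * u * e⁻¹ := by group
        _ = (⁅e⁻¹, u⁆ * e) * u * e⁻¹ := by rw [hcom]
        _ = ⁅e⁻¹, u⁆ * (e * u * e⁻¹) := by group
    rw [h2] at h3
    have h4 : ⁅e⁻¹, u⁆ * ⁅e, u⁆ * u = u := by rw [mul_assoc]; exact h3.symm
    exact mul_eq_right.mp h4
  have heq2 : ∀ e ∈ P, ∀ y ∈ Q, ∀ u ∈ G, ⁅e, y⁻¹ * u * y⁆ = ⁅e, u⁆ := by
    intro e he y hy u hu
    have hw : y⁻¹ * u * y ∈ G := by
      have := (mem_normalizer_iff.mp (hQG (inv_mem hy)) u).mp hu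
      simpa using this
    set d₁ := ⁅e⁻¹, u⁆ with hd₁
    set d₂ := ⁅e, y⁻¹ * u * y⁆ with hd₂
    have hd₁D := hdD e⁻¹ (inv_mem he) u hu
    have hd₂D := hdD e he _ hw
    have h1 : e⁻¹ * u * e = d₁ * u := by rw [hd₁, commutatorElement_def]; group
    have h2 : e * (y⁻¹ * u * y) * e⁻¹ = d₂ * (y⁻¹ * u * y) := by
      rw [hd₂, commutatorElement_def]; group
    have hf := conj_formula y e u d₁ d₂ h1 h2 ((hcl e⁻¹ (inv_mem he) u hu).1 e he)
      (hD₀comm _ hd₁D y hy) (hD₀comm _ hd₂D y hy)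
    -- the element lies in `A`
    have hcQ : y * e * y⁻¹ * e⁻¹ ∈ Q := by
      have h3 := (mem_normalizer_iff.mp (hPQ he) y⁻¹).mp (inv_mem hy)
      have h4 : y * e * y⁻¹ * e⁻¹ = y * (e * y⁻¹ * e⁻¹) := by group
      rw [h4]
      exact mul_mem hy h3
    have hcA : y * e * y⁻¹ * e⁻¹ ∈ A := by
      refine ⟨hcQ, fun v hv => ?_⟩
      have hw' : y⁻¹ * v * y ∈ G := by
        have := (mem_normalizer_iff.mp (hQG (inv_mem hy)) v).mp hv
        simpa using this
      have hd₁D' := hdD e⁻¹ (inv_mem he) v hv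
      have hd₂D' := hdD e he _ hw'
      have h1' : e⁻¹ * v * e = ⁅e⁻¹, v⁆ * v := by rw [commutatorElement_def]; group
      have h2' : e * (y⁻¹ * v * y) * e⁻¹ = ⁅e, y⁻¹ * v * y⁆ * (y⁻¹ * v * y) := by
        rw [commutatorElement_def]; group
      have hf' := conj_formula y e v _ _ h1' h2' ((hcl e⁻¹ (inv_mem he) v hv).1 e he)
        (hD₀comm _ hd₁D' y hy) (hD₀comm _ hd₂D' y hy)
      rw [hf', mul_inv_cancel_right]
      exact mul_mem hd₁D' hd₂D'
    have hcomm := mem_centralizer_iff.mp (hAcen hcA) u hu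
    have h5 : (y * e * y⁻¹ * e⁻¹) * u * (y * e * y⁻¹ * e⁻¹)⁻¹ = u := by
      rw [← hcomm]; group
    rw [h5] at hf
    have h6 : d₁ * d₂ = 1 := by
      have : d₁ * d₂ * u = u := hf.symm
      exact mul_eq_right.mp this
    have h7 := hinv e he u hu
    rw [← hd₁] at h7
    have h8 : d₂ = d₁⁻¹ := eq_inv_of_mul_eq_one_right h6
    have h9 : ⁅e, u⁆ = d₁⁻¹ := eq_inv_of_mul_eq_one_right h7
    rw [h8, h9]
  -- `[G, Q]` is centralized by `P`
  have hcomP : ⁅G, Q⁆ ≤ G ⊓ centralizer (P : Set X) := by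
    rw [commutator_le]
    intro u hu y hy
    refine mem_inf.mpr ⟨?_, ?_⟩
    · have h := (mem_normalizer_iff.mp (hQG hy) u⁻¹).mp (inv_mem hu)
      have h2 : ⁅u, y⁆ = u * (y * u⁻¹ * y⁻¹) := by rw [commutatorElement_def]; group
      rw [h2]
      exact mul_mem hu h
    · rw [mem_centralizer_iff]
      intro e he
      have h1 : ⁅u, y⁆ = u * ((y⁻¹)⁻¹ * u⁻¹ * y⁻¹) := by rw [commutatorElement_def]; group
      have hw : (y⁻¹)⁻¹ * u⁻¹ * y⁻¹ ∈ G := by
        have := (mem_normalizer_iff.mp (hQG hy) u⁻¹).mp (inv_mem hu)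
        simpa using this
      have hcv := (hcl e he _ hw).2 u hu
      have h2 : ⁅e, ⁅u, y⁆⁆ = 1 := by
        rw [h1, comm_mul_of_central e u _ hcv, heq2 e he y⁻¹ (inv_mem hy) u⁻¹ (inv_mem hu)]
        have h3 := comm_mul_of_central e u u⁻¹ ((hcl e he _ (inv_mem hu)).2 u hu)
        rw [mul_inv_cancel] at h3
        rw [← h3]
        simp
      exact commutatorElement_eq_one_iff_mul_comm.mp h2
  have hcop : Nat.Coprime (Nat.card Q) (Nat.card G) := by
    obtain ⟨k, hk⟩ := IsPGroup.iff_card.mp hG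
    rw [hk]
    exact Nat.Coprime.pow_right k hQ
  have hact : CoprimeAction Q G := ⟨hQG, hcop, Or.inr hGsolv⟩
  have h2 : ⁅⁅G, Q⁆, Q⁆ = ⊥ := by
    rw [commutator_eq_bot_iff_le_centralizer]
    exact hcomP.trans hC
  have h3 := hact.commutator_eq_bot_of_commutator_commutator h2
  rw [commutator_comm] at h3
  exact commutator_eq_bot_iff_le_centralizer.mp h3

section constrained

variable {X : Type*} [Group X] [Finite X] {p : ℕ} [Fact p.Prime]

theorem eq_one_of_coprime_of_isPGroup {Y : Type*} [Group Y] [Finite Y] (f : X →* Y) {D : Subgroup X}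
    (hD : (Nat.card D).Coprime p) {R : Subgroup Y} (hR : IsPGroup p R) {x : X} (hx : x ∈ D)
    (hfx : f x ∈ R) : f x = 1 := by
  have hpp : p.Prime := Fact.out
  obtain ⟨k, hk⟩ := hR ⟨f x, hfx⟩
  have h1 : (f x) ^ (p ^ k) = 1 := by
    have := congrArg Subtype.val hk
    simpa using this
  have h2 : (f x) ^ (Nat.card D) = 1 := by
    have h3 : x ^ Nat.card D = 1 := by
      have h : ((⟨x, hx⟩ : D) ^ Nat.card D : D) = 1 := pow_card_eq_one'
      have := congrArg D.subtype h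
      rw [map_pow, map_one] at this
      exact this
    rw [← map_pow, h3, map_one]
  have h4 := orderOf_dvd_of_pow_eq_one h1
  have h5 := orderOf_dvd_of_pow_eq_one h2
  have h6 := Nat.eq_one_of_dvd_coprimes (Nat.Coprime.pow_right k hD) h5 h4
  exact orderOf_eq_one_iff.mp h6

/-- A `p'`-subgroup of `O_{p',p}(X)` lies in `O_{p'}(X)`. -/
theorem le_core_of_le_pPrimePCore {L : Subgroup X} (hLR : L ≤ pPrimePCore p X)
    (hL : (Nat.card L).Coprime p) : L ≤ pPrimeCore p X := by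
  intro x hx
  have h1 : QuotientGroup.mk' (pPrimeCore p X) x ∈ pCore p (X ⧸ pPrimeCore p X) := hLR hx
  have h2 := eq_one_of_coprime_of_isPGroup (QuotientGroup.mk' (pPrimeCore p X)) hL
    (Cfsg.Agent.Lib.Basic.pCore_isPGroup p) hx h1
  rw [← MonoidHom.mem_ker, QuotientGroup.ker_mk'] at h2
  exact h2

/-- A subgroup of `O_{p',p}(X)` of index prime to `p` covers it modulo `O_{p'}(X)`. -/
theorem pPrimePCore_le_sup {P₀ : Subgroup X} (hP₀ : P₀ ≤ pPrimePCore p X)
    (hi : ¬ p ∣ P₀.relIndex (pPrimePCore p X)) : pPrimePCore p X ≤ pPrimeCore p X ⊔ P₀ := by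
  have hpp : p.Prime := Fact.out
  set O := pPrimeCore p X with hO
  set R := pPrimePCore p X with hR
  haveI hOn : O.Normal := Cfsg.Agent.Lib.Basic.pPrimeCore_normal p
  set π := QuotientGroup.mk' O with hπ
  have hker : π.ker = O := QuotientGroup.ker_mk' O
  have h1 : O.relIndex R = Nat.card (R.map π) := by
    rw [← Subgroup.relIndex_ker R π, hker]
  have h2 : IsPGroup p (R.map π) := by
    refine (Cfsg.Agent.Lib.Basic.pCore_isPGroup (G := X ⧸ O) p).to_le ?_
    rintro _ ⟨r, hr, rfl⟩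
    exact hr
  obtain ⟨k, hk⟩ := IsPGroup.iff_card.mp h2
  have h3 : (O ⊔ P₀).relIndex R ∣ O.relIndex R := Subgroup.relIndex_dvd_of_le_left R le_sup_left
  have h4 : (O ⊔ P₀).relIndex R ∣ P₀.relIndex R := Subgroup.relIndex_dvd_of_le_left R le_sup_right
  rw [h1, hk] at h3
  have hc : Nat.Coprime (P₀.relIndex R) (p ^ k) :=
    Nat.Coprime.pow_right k ((Nat.Prime.coprime_iff_not_dvd hpp).mpr hi).symm
  have h5 := Nat.eq_one_of_dvd_coprimes hc h4 h3
  exact Subgroup.relIndex_eq_one.mp h5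

/-- Invariant `p'`-subgroups of a `p`-constrained group lie in `O_{p'}`, given the `P × Q`-lemma. -/
theorem le_core_of_constrained (hX : IsPConstrained p X) (E Y : Subgroup X)
    (hE : IsPGroup p E)
    (hfull : ∀ x ∈ centralizer (E : Set X), IsPGroup p (zpowers x) → x ∈ E)
    (hY : (Nat.card Y).Coprime p) (hEY : E ≤ normalizer (Y : Set X))
    (hkey : ∀ Q P₀ : Subgroup X, (Nat.card Q).Coprime p → IsPGroup p P₀ → E ≤ normalizer (Q : Set X) →
      E ≤ normalizer (P₀ : Set X) → Q ≤ normalizer (P₀ : Set X) →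
      P₀ ⊓ centralizer (E : Set X) ≤ centralizer (Q : Set X) → Q ≤ centralizer (P₀ : Set X)) :
    Y ≤ pPrimeCore p X := by
  classical
  have hpp : p.Prime := Fact.out
  set O := pPrimeCore p X with hO
  set R := pPrimePCore p X with hR
  haveI hOn : O.Normal := Cfsg.Agent.Lib.Basic.pPrimeCore_normal p
  haveI hRn : R.Normal := Cfsg.Agent.Lib.OddLocal.pPrimePCore_normal p
  have hOR : O ≤ R := Cfsg.Agent.Lib.OddLocal.pPrimeCore_le_pPrimePCore p
  have hOc : (Nat.card O).Coprime p := Cfsg.Agent.Lib.Basic.pPrimeCore_coprime p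
  obtain ⟨S, hES⟩ := hE.exists_le_sylow
  obtain ⟨P, hP⟩ := exists_sylow_map_eq_inf S R
  set P₀ : Subgroup X := (S : Subgroup X) ⊓ R with hP₀
  have hcen : centralizer (P₀ : Set X) ≤ R := by
    have := hX P
    rwa [hP] at this
  have hP₀p : IsPGroup p P₀ := S.isPGroup'.to_le inf_le_left
  have hP₀R : P₀ ≤ R := inf_le_right
  have hEP₀ : E ≤ normalizer (P₀ : Set X) := by
    intro e he
    apply mem_normalizer_of_conj_le
    intro x hx
    exact mem_inf.mpr ⟨mul_mem (mul_mem (hES he) (mem_inf.mp hx).1) (inv_mem (hES he)),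
      hRn.conj_mem x (mem_inf.mp hx).2 e⟩
  have hi : ¬ p ∣ P₀.relIndex R := by
    have h1 := sylow_relIndex_normal_not_dvd S R
    rwa [← Subgroup.inf_relIndex_right] at h1
  have hcover : R ≤ O ⊔ P₀ := pPrimePCore_le_sup hP₀R hi
  have hYO : Y ≤ normalizer (O : Set X) := fun y _ =>
    mem_normalizer_of_conj_le O y (fun x hx => hOn.conj_mem x hx y)
  set W := Y ⊔ O with hW
  have hWc : (Nat.card W).Coprime p := Cfsg.Agent.Lib.Components.coprime_card_sup hYO hY hOc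
  have hEW : E ≤ normalizer (W : Set X) := by
    intro e he
    apply mem_normalizer_of_conj_le
    intro x hx
    have hle : W ≤ W.comap (MulAut.conj e).toMonoidHom := by
      refine sup_le (fun y hy => ?_) (fun y hy => ?_)
      · exact mem_sup_left ((mem_normalizer_iff.mp (hEY he) y).mp hy)
      · exact mem_sup_right (hOn.conj_mem y hy e)
    exact hle hx
  set Y₂ := W ⊓ normalizer (P₀ : Set X) with hY₂
  have hY₂c : (Nat.card Y₂).Coprime p :=
    Nat.Coprime.coprime_dvd_left (Subgroup.card_dvd_of_le inf_le_left) hWc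
  have hEY₂ : E ≤ normalizer (Y₂ : Set X) := by
    intro e he
    apply mem_normalizer_of_conj_le
    intro x hx
    exact mem_inf.mpr ⟨(mem_normalizer_iff.mp (hEW he) x).mp (mem_inf.mp hx).1,
      mul_mem (mul_mem (hEP₀ he) (mem_inf.mp hx).2) (inv_mem (hEP₀ he))⟩
  have hY₂n : Y₂ ≤ normalizer (P₀ : Set X) := inf_le_right
  have hC : P₀ ⊓ centralizer (E : Set X) ≤ centralizer (Y₂ : Set X) := by
    intro t ht
    obtain ⟨ht1, ht2⟩ := mem_inf.mp ht
    have htE : t ∈ E := hfull t ht2 (by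
      have h1 : zpowers t ≤ P₀ := (zpowers_le).mpr ht1
      exact hP₀p.to_le h1)
    rw [mem_centralizer_iff]
    intro y hy
    have h1 : y * t * y⁻¹ * t⁻¹ ∈ P₀ :=
      mul_mem ((mem_normalizer_iff.mp (hY₂n hy) t).mp ht1) (inv_mem ht1)
    have h2 : y * t * y⁻¹ * t⁻¹ ∈ Y₂ := by
      have h3 : y * t * y⁻¹ * t⁻¹ = y * (t * y⁻¹ * t⁻¹) := by group
      rw [h3]
      exact mul_mem hy ((mem_normalizer_iff.mp (hEY₂ htE) y⁻¹).mp (inv_mem hy))
    have h4 : Y₂ ⊓ P₀ = ⊥ := by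
      apply Subgroup.inf_eq_bot_of_coprime
      obtain ⟨k, hk⟩ := IsPGroup.iff_card.mp hP₀p
      rw [hk]
      exact Nat.Coprime.pow_right k hY₂c
    have h5 : y * t * y⁻¹ * t⁻¹ ∈ Y₂ ⊓ P₀ := mem_inf.mpr ⟨h2, h1⟩
    rw [h4, mem_bot] at h5
    have h6 : y * t * y⁻¹ = t := mul_inv_eq_one.mp h5
    exact mul_inv_eq_iff_eq_mul.mp h6
  have hY₂cen := hkey Y₂ P₀ hY₂c hP₀p hEY₂ hEP₀ hY₂n hC
  have hY₂R : Y₂ ≤ R := hY₂cen.trans hcen
  have hY₂O : Y₂ ≤ O := le_core_of_le_pPrimePCore hY₂R hY₂c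
  -- Frattini
  have hP₀Syl : IsSylowOf p P₀ R := ⟨hP₀R, hP₀p, hi⟩
  have hWO : W ≤ O := by
    intro w hw
    have hconj : IsSylowOf p (P₀.map (MulAut.conj w).toMonoidHom) R := by
      have hle : P₀.map (MulAut.conj w).toMonoidHom ≤ R := by
        rintro _ ⟨y, hy, rfl⟩
        exact hRn.conj_mem y (hP₀R hy) w
      refine ⟨hle, isPGroup_conj_map hP₀p w, ?_⟩
      have h1 := card_mul_relIndex hle
      have h2 := card_mul_relIndex hP₀R
      rw [card_conj_map] at h1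
      have hpos : 0 < Nat.card P₀ := Nat.card_pos
      have h3 : (P₀.map (MulAut.conj w).toMonoidHom).relIndex R = P₀.relIndex R :=
        Nat.eq_of_mul_eq_mul_left hpos (by rw [h1, h2])
      rw [h3]
      exact hi
    obtain ⟨r, hr, hrw⟩ := hP₀Syl.exists_conj hconj
    have hP₀O : P₀ ≤ normalizer (O : Set X) := fun y _ =>
      mem_normalizer_of_conj_le O y (fun x hx => hOn.conj_mem x hx y)
    obtain ⟨o, ho, s, hs, hrs⟩ :=
      Cfsg.Agent.Lib.Components.exists_mul_of_mem_sup_of_le_normalizer hP₀O (hcover hr)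
    have h1 : P₀.map (MulAut.conj r).toMonoidHom = P₀.map (MulAut.conj o).toMonoidHom := by
      rw [hrs, ← conj_map_conj_map, (conj_map_eq_iff_mem_normalizer P₀ s).mpr (le_normalizer hs)]
    have h2 : P₀.map (MulAut.conj (o⁻¹ * w)).toMonoidHom = P₀ := by
      rw [← conj_map_conj_map, hrw, h1, conj_map_conj_map, inv_mul_cancel, conj_map_one]
    have h3 : o⁻¹ * w ∈ normalizer (P₀ : Set X) := (conj_map_eq_iff_mem_normalizer P₀ _).mp h2
    have h4 : o⁻¹ * w ∈ W := mul_mem (mem_sup_right (inv_mem ho)) hw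
    have h5 : o⁻¹ * w ∈ O := hY₂O (mem_inf.mpr ⟨h4, h3⟩)
    have h6 : w = o * (o⁻¹ * w) := by group
    rw [h6]
    exact mul_mem ho h5
  exact le_sup_left.trans hWO

end constrained

section trans

variable {G : Type*} [Group G] [Finite G] {p : ℕ} [Fact p.Prime]

/-- A `p'`-element of `C_G(E)` lies in `O_{p'}(C_G(E))`, when `E` contains all `p`-elements of `C_G(E)`. -/
theorem mem_piCoreOf_of_coprime (E : Subgroup G) (hEp : IsPGroup p E) (hEc : IsMulCommutative E)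
    (hfull : ∀ x ∈ centralizer (E : Set G), IsPGroup p (zpowers x) → x ∈ E) {c : G}
    (hc : c ∈ centralizer (E : Set G)) (hco : (orderOf c).Coprime p) :
    c ∈ piCoreOf (primesNotDvd p) (centralizer (E : Set G)) := by
  classical
  have hpp : p.Prime := Fact.out
  set C : Subgroup G := centralizer (E : Set G) with hC
  have hEcomm : ∀ u ∈ E, ∀ v ∈ E, u * v = v * u := fun u hu v hv =>
    congrArg Subtype.val (hEc.is_comm.comm (⟨u, hu⟩ : E) ⟨v, hv⟩)
  have hE'p : IsPGroup p (E.subgroupOf C) := hEp.comap_subtype (K := C)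
  obtain ⟨S, hS⟩ := hE'p.exists_le_sylow
  have hSE : ∀ s ∈ (S : Subgroup C), (s : G) ∈ E := by
    intro s hs
    refine hfull s s.2 ?_
    have h1 : IsPGroup p (zpowers s) := S.isPGroup'.to_le ((zpowers_le).mpr hs)
    have h2 : (zpowers s).map C.subtype = zpowers (s : G) := by
      rw [MonoidHom.map_zpowers]
      rfl
    rw [← h2]
    exact h1.map _
  have hcentral : ∀ s ∈ (S : Subgroup C), ∀ y : C, s * y = y * s := by
    intro s hs y
    apply Subtype.ext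
    exact (mem_centralizer_iff.mp y.2 s (hSE s hs))
  have hN : normalizer ((S : Subgroup C) : Set C) ≤ centralizer ((S : Subgroup C) : Set C) := by
    intro y _
    rw [mem_centralizer_iff]
    intro s hs
    exact hcentral s hs y
  have hcompl := MonoidHom.ker_transferSylow_isComplement' S hN
  set N := (MonoidHom.transferSylow S hN).ker with hNdef
  haveI hNn : N.Normal := MonoidHom.normal_ker _
  have hNcard : ¬ p ∣ Nat.card N := MonoidHom.not_dvd_card_ker_transferSylow S hN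
  let y : C := ⟨c, hc⟩
  obtain ⟨⟨n, s⟩, hns⟩ := hcompl.2 y
  have hns' : (n : C) * (s : C) = y := hns
  have hm : y ^ orderOf c = 1 := by
    apply Subtype.ext
    show c ^ orderOf c = 1
    exact pow_orderOf_eq_one c
  have hcomm : Commute (n : C) (s : C) := (hcentral s s.2 n).symm
  rw [← hns', hcomm.mul_pow] at hm
  have hsm : (s : C) ^ orderOf c ∈ N := by
    have h1 : (s : C) ^ orderOf c = ((n : C) ^ orderOf c)⁻¹ := eq_inv_of_mul_eq_one_right hm
    rw [h1]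
    exact inv_mem (pow_mem n.2 _)
  have hsm2 : (s : C) ^ orderOf c ∈ (S : Subgroup C) := pow_mem s.2 _
  have hbot : N ⊓ (S : Subgroup C) = ⊥ := hcompl.disjoint.eq_bot
  have hsm3 : (s : C) ^ orderOf c = 1 := by
    have h1 : (s : C) ^ orderOf c ∈ N ⊓ (S : Subgroup C) := mem_inf.mpr ⟨hsm, hsm2⟩
    rwa [hbot, mem_bot] at h1
  have hs1 : (s : C) = 1 := by
    obtain ⟨k, hk⟩ := S.isPGroup' s
    have h1 : (s : C) ^ (p ^ k) = 1 := congrArg Subtype.val hk
    have h2 := orderOf_dvd_of_pow_eq_one h1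
    have h3 := orderOf_dvd_of_pow_eq_one hsm3
    have h4 := Nat.eq_one_of_dvd_coprimes (Nat.Coprime.pow_right k hco) h3 h2
    exact orderOf_eq_one_iff.mp h4
  have hyN : y ∈ N := by
    rw [← hns', hs1, mul_one]
    exact n.2
  have hle : N ≤ piCore (primesNotDvd p) C := by
    refine le_sSup ⟨hNn, fun r hr hd => ⟨hr, fun hrp => ?_⟩⟩
    have h1 : r = p := (Nat.prime_dvd_prime_iff_eq hr hpp).mp hrp
    rw [h1] at hd
    exact hNcard hd
  exact ⟨y, hle hyN, rfl⟩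

open Cfsg.Agent.Lib.OddLocal Cfsg.Agent.Lib.Components in
/-- The transitivity argument. -/
theorem trans_core {A E : Subgroup G} (hA : IsElementaryAbelian p A) (hA3 : p ^ 3 ≤ Nat.card A)
    (hAE : A ≤ E) (hEp : IsPGroup p E) (hEc : IsMulCommutative E)
    (hfull : ∀ x ∈ centralizer (E : Set G), IsPGroup p (zpowers x) → x ∈ E)
    (θ : G → Subgroup G) (hθc : ∀ a ∈ A, a ≠ 1 → (Nat.card (θ a)).Coprime p)
    (hθ : ∀ a ∈ A, a ≠ 1 → ∀ Y : Subgroup G, Y ≤ centralizer {a} → (Nat.card Y).Coprime p →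
      E ≤ normalizer (Y : Set G) → Y ≤ θ a)
    (hθE : ∀ a ∈ A, a ≠ 1 → E ≤ normalizer (θ a : Set G))
    {q : ℕ} [Fact q.Prime] (hqp : q ≠ p) :
    ∀ Q₁ Q₂ : Subgroup G, Q₁ ∈ maxInvSubgroups ⊤ E {q} → Q₂ ∈ maxInvSubgroups ⊤ E {q} →
      ∃ k ∈ piCoreOf (primesNotDvd p) (centralizer (E : Set G)), Q₂ = Q₁.map (MulAut.conj k).toMonoidHom := by
  classical
  have hpp : p.Prime := Fact.out
  have hq : q.Prime := Fact.out
  have hEcomm : ∀ u ∈ E, ∀ v ∈ E, u * v = v * u := fun u hu v hv =>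
    congrArg Subtype.val (hEc.is_comm.comm (⟨u, hu⟩ : E) ⟨v, hv⟩)
  haveI : Group.IsNilpotent E := hEp.isNilpotent
  have hEsolv : Group.IsSolvable E := inferInstance
  have hcopq : ∀ {U : Subgroup G}, IsPGroup q U → (Nat.card U).Coprime p := by
    intro U hU
    obtain ⟨k, hk⟩ := IsPGroup.iff_card.mp hU
    rw [hk]
    exact Nat.Coprime.pow_left k ((Nat.coprime_primes hq hpp).mpr hqp)
  have hcoE : ∀ {U : Subgroup G}, (Nat.card U).Coprime p → Nat.Coprime (Nat.card E) (Nat.card U) := by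
    intro U hU
    obtain ⟨k, hk⟩ := IsPGroup.iff_card.mp hEp
    rw [hk]
    exact Nat.Coprime.pow_left k hU.symm
  intro Q₁ Q₂ h₁ h₂
  induction hn : Nat.card G - Nat.card ↥(Q₁ ⊓ Q₂) using Nat.strong_induction_on
    generalizing Q₁ Q₂ with
  | _ n ih =>
    have hPG : ∀ {Q : Subgroup G}, Q ∈ maxInvSubgroups ⊤ E {q} → IsPGroup q Q := fun hQ =>
      (isPiSub_singleton_iff hq).1 hQ.1.2.1
    by_cases hD₁ : Q₁ ⊓ Q₂ = Q₁
    · have h3 : Q₂ = Q₁ := h₁.2 Q₂ h₂.1 (inf_eq_left.mp hD₁)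
      exact ⟨1, one_mem _, by rw [conj_map_one, h3]⟩
    by_cases hD₂ : Q₁ ⊓ Q₂ = Q₂
    · have h3 : Q₁ = Q₂ := h₂.2 Q₁ h₁.1 (inf_eq_right.mp hD₂)
      exact ⟨1, one_mem _, by rw [conj_map_one, h3]⟩
    obtain ⟨a, ha, ha1, h₃, h₄⟩ := exists_common_fixed hA hA3 hqp (hPG h₁) (hPG h₂)
      (hAE.trans h₁.1.2.2) (hAE.trans h₂.1.2.2) hD₁ hD₂
    have haE : a ∈ E := hAE ha
    set D := Q₁ ⊓ Q₂ with hD
    have hED : E ≤ normalizer (D : Set G) := by
      intro b hb
      apply mem_normalizer_of_conj_le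
      intro x hx
      exact mem_inf.mpr ⟨(mem_normalizer_iff.mp (h₁.1.2.2 hb) x).mp (mem_inf.mp hx).1,
        (mem_normalizer_iff.mp (h₂.1.2.2 hb) x).mp (mem_inf.mp hx).2⟩
    have hEN : ∀ b ∈ E, ∀ x ∈ normalizer (D : Set G), b * x * b⁻¹ ∈ normalizer (D : Set G) :=
      fun b hb x hx => mul_mem (mul_mem (hED hb) hx) (inv_mem (hED hb))
    set Z₀ := θ a ⊓ normalizer (D : Set G) with hZ₀
    have hZ₀c : (Nat.card Z₀).Coprime p :=
      Nat.Coprime.coprime_dvd_left (Subgroup.card_dvd_of_le inf_le_left) (hθc a ha ha1)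
    have hDc : (Nat.card D).Coprime p := hcopq ((hPG h₁).to_le inf_le_left)
    set Z := D ⊔ Z₀ with hZ
    have hZc : (Nat.card Z).Coprime p := by
      have := coprime_card_sup (A := Z₀) (B := D) inf_le_right hZ₀c hDc
      rwa [sup_comm] at this
    have hEZ₀ : E ≤ normalizer (Z₀ : Set G) := by
      intro b hb
      apply mem_normalizer_of_conj_le
      intro x hx
      exact mem_inf.mpr ⟨(mem_normalizer_iff.mp (hθE a ha ha1 hb) x).mp (mem_inf.mp hx).1,
        hEN b hb x (mem_inf.mp hx).2⟩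
    have hEZ : E ≤ normalizer (Z : Set G) := by
      intro b hb
      apply mem_normalizer_of_conj_le
      intro x hx
      have hle : Z ≤ Z.comap (MulAut.conj b).toMonoidHom := by
        refine sup_le (fun y hy => ?_) (fun y hy => ?_)
        · exact mem_sup_left ((mem_normalizer_iff.mp (hED hb) y).mp hy)
        · exact mem_sup_right ((mem_normalizer_iff.mp (hEZ₀ hb) y).mp hy)
      exact hle hx
    have hact : CoprimeAction E Z := ⟨hEZ, hcoE hZc, Or.inl hEsolv⟩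
    have key : ∀ Q : Subgroup G, Q ∈ maxInvSubgroups ⊤ E {q} → D ≤ Q →
        ¬ (normalizer (D : Set G) ⊓ Q ⊓ centralizer {a} ≤ D) →
        ∃ S E₁ : Subgroup G, IsSylowOf q S Z ∧ E ≤ normalizer (S : Set G) ∧ E₁ ≤ S ∧ E₁ ≤ Q ∧ D ≤ E₁ ∧ ¬ E₁ ≤ D := by
      intro Q hQ hDQ hn'
      set H := normalizer (D : Set G) ⊓ Q ⊓ centralizer {a} with hH
      have hHQ : H ≤ Q := inf_le_left.trans inf_le_right
      have hQq := hPG hQ
      have hEH : E ≤ normalizer (H : Set G) := by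
        intro b hb
        apply mem_normalizer_of_conj_le
        intro x hx
        obtain ⟨hx1, hx2⟩ := mem_inf.mp hx
        obtain ⟨hx3, hx4⟩ := mem_inf.mp hx1
        refine mem_inf.mpr ⟨mem_inf.mpr ⟨hEN b hb x hx3, (mem_normalizer_iff.mp (hQ.1.2.2 hb) x).mp hx4⟩, ?_⟩
        rw [mem_centralizer_singleton_iff]
        have hxa := mem_centralizer_singleton_iff.mp hx2
        have hab := hEcomm a haE b hb
        have h1 : b * a * b⁻¹ = a := by rw [← hab]; group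
        have h2 : b⁻¹ * a * b = a := by
          calc b⁻¹ * a * b = b⁻¹ * (a * b) := by group
            _ = b⁻¹ * (b * a) := by rw [hab]
            _ = a := by group
        calc b * x * b⁻¹ * a = b * x * (b⁻¹ * a * b) * b⁻¹ := by group
          _ = b * x * a * b⁻¹ := by rw [h2]
          _ = b * (x * a) * b⁻¹ := by group
          _ = b * (a * x) * b⁻¹ := by rw [hxa]
          _ = (b * a * b⁻¹) * (b * x * b⁻¹) := by group
          _ = a * (b * x * b⁻¹) := by rw [h1]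
      have hHθ : H ≤ θ a := hθ a ha ha1 H inf_le_right (hcopq (hQq.to_le hHQ)) hEH
      have hHZ : H ≤ Z := fun x hx => mem_sup_right (mem_inf.mpr ⟨hHθ hx, (mem_inf.mp (mem_inf.mp hx).1).1⟩)
      have hEZ' : D ⊔ H ≤ Z := sup_le le_sup_left hHZ
      have hEQ : D ⊔ H ≤ Q := sup_le hDQ hHQ
      have hAE' : E ≤ normalizer ((D ⊔ H : Subgroup G) : Set G) := by
        intro b hb
        apply mem_normalizer_of_conj_le
        intro x hx
        have hle : D ⊔ H ≤ (D ⊔ H).comap (MulAut.conj b).toMonoidHom := by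
          refine sup_le (fun y hy => ?_) (fun y hy => ?_)
          · exact mem_sup_left ((mem_normalizer_iff.mp (hED hb) y).mp hy)
          · exact mem_sup_right ((mem_normalizer_iff.mp (hEH hb) y).mp hy)
        exact hle hx
      obtain ⟨S, hS, hAS, hES⟩ := hact.exists_invariant_sylow_ge hEZ' (hQq.to_le hEQ) hAE'
      exact ⟨S, D ⊔ H, hS, hAS, hES, hEQ, le_sup_left, fun h => hn' (le_sup_right.trans h)⟩
    obtain ⟨S₁, E₁, hS₁, hAS₁, hES₁, hEQ₁, hDE₁, hnE₁⟩ := key Q₁ h₁ inf_le_left h₃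
    obtain ⟨S₂, E₂, hS₂, hAS₂, hES₂, hEQ₂, hDE₂, hnE₂⟩ := key Q₂ h₂ inf_le_right h₄
    obtain ⟨c, hc, hS₂c⟩ := hact.exists_centralizer_conj_of_sylow hS₁ hS₂ hAS₁ hAS₂
    have hcC : c ∈ centralizer (E : Set G) := (mem_inf.mp hc).2
    have hcK : c ∈ piCoreOf (primesNotDvd p) (centralizer (E : Set G)) := by
      refine mem_piCoreOf_of_coprime E hEp hEc hfull hcC ?_
      have h1 : orderOf c ∣ Nat.card Z := by
        have := Subgroup.orderOf_dvd_natCard Z (mem_inf.mp hc).1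
        exact this
      exact Nat.Coprime.coprime_dvd_left h1 hZc
    have hS₁inv : S₁ ∈ invSubgroups ⊤ E {q} := ⟨le_top, (isPiSub_singleton_iff hq).2 hS₁.isP, hAS₁⟩
    obtain ⟨Q₁', hQ₁', hS₁Q⟩ := exists_maxInv_ge hS₁inv
    have hcard : ∀ R : Subgroup G, D < R → Nat.card G - Nat.card R < n := by
      intro R hR
      have h5 := card_lt_of_subgroup_lt hR
      have h6 : Nat.card R ≤ Nat.card G := Subgroup.card_le_card_group R
      rw [← hn]
      omega
    have hlt₁ : D < Q₁ ⊓ Q₁' :=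
      lt_iff_le_not_ge.mpr ⟨hDE₁.trans (le_inf hEQ₁ (hES₁.trans hS₁Q)),
        fun h => hnE₁ ((le_inf hEQ₁ (hES₁.trans hS₁Q)).trans h)⟩
    obtain ⟨c₁, hc₁, hc₁eq⟩ := ih _ (hcard _ hlt₁) Q₁ Q₁' h₁ hQ₁' rfl
    have hQ'' := maxInv_conj hcC hQ₁'
    have hS₂Q : S₂ ≤ Q₁'.map (MulAut.conj c).toMonoidHom := by
      rw [hS₂c]
      exact conj_map_mono hS₁Q c
    have hlt₂ : D < Q₂ ⊓ Q₁'.map (MulAut.conj c).toMonoidHom :=
      lt_iff_le_not_ge.mpr ⟨hDE₂.trans (le_inf hEQ₂ (hES₂.trans hS₂Q)),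
        fun h => hnE₂ ((le_inf hEQ₂ (hES₂.trans hS₂Q)).trans h)⟩
    obtain ⟨c₂, hc₂, hc₂eq⟩ := ih _ (hcard _ hlt₂) Q₂ _ h₂ hQ'' rfl
    refine ⟨c₂⁻¹ * c * c₁, mul_mem (mul_mem (inv_mem hc₂) hcK) hc₁, ?_⟩
    have h1 : Q₁.map (MulAut.conj (c₂⁻¹ * c * c₁)).toMonoidHom
        = ((Q₁.map (MulAut.conj c₁).toMonoidHom).map (MulAut.conj c).toMonoidHom).map (MulAut.conj c₂⁻¹).toMonoidHom := by
      rw [conj_map_conj_map, conj_map_conj_map, mul_assoc]
    rw [h1, ← hc₁eq, hc₂eq, conj_map_conj_map, inv_mul_cancel, conj_map_one]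

end trans

section main

variable {G : Type*} [Group G] [Finite G] {p : ℕ} [Fact p.Prime]

theorem comm_comm_of_class_two {S : Subgroup G} (hS : Group.IsNilpotent S)
    (hc : Group.nilpotencyClass S ≤ 2) {x y z : G} (hx : x ∈ S) (hy : y ∈ S) (hz : z ∈ S) :
    ⁅x, y⁆ * z = z * ⁅x, y⁆ := by
  have h1 : (⊤ : Subgroup ↥S).lowerCentralSeries 2 = ⊥ :=
    Subgroup.lowerCentralSeries_eq_bot_iff_nilpotencyClass_le.2 hc
  have h3 : ⁅(⟨x, hx⟩ : S), (⟨y, hy⟩ : S)⁆ ∈ (⊤ : Subgroup ↥S).lowerCentralSeries 1 := by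
    rw [Subgroup.lowerCentralSeries_succ, Subgroup.lowerCentralSeries_zero]
    exact commutator_mem_commutator (mem_top _) (mem_top _)
  have h4 : ⁅⁅(⟨x, hx⟩ : S), (⟨y, hy⟩ : S)⁆, (⟨z, hz⟩ : S)⁆ ∈ (⊤ : Subgroup ↥S).lowerCentralSeries 2 := by
    rw [Subgroup.lowerCentralSeries_succ]
    exact commutator_mem_commutator h3 (mem_top _)
  rw [h1, mem_bot, commutatorElement_eq_one_iff_mul_comm] at h4
  simpa [commutatorElement_def] using congrArg Subtype.val h4

/-- **Thompson's transitivity theorem** (general form). -/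
theorem thompson_transitivity
    (hloc : ∀ T : Subgroup G, IsPGroup p T → T ≠ ⊥ → IsPConstrained p ↥(normalizer (T : Set G)))
    (h2 : p = 2 → ∀ S : Sylow p G, Group.IsNilpotent (S : Subgroup G) ∧ Group.nilpotencyClass (S : Subgroup G) ≤ 2)
    (E : Subgroup G) (hEp : IsPGroup p E) (hEc : IsMulCommutative E) (hE3 : ¬ PRankLE p 2 E)
    (hfull : ∀ x ∈ centralizer (E : Set G), IsPGroup p (zpowers x) → x ∈ E)
    (q : ℕ) [Fact q.Prime] (hqp : q ≠ p) :
    ∀ Q₁ ∈ maxInvSubgroups ⊤ E {q}, ∀ Q₂ ∈ maxInvSubgroups ⊤ E {q},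
      ∃ k ∈ piCoreOf (primesNotDvd p) (centralizer (E : Set G)), Q₂ = Q₁.map (MulAut.conj k).toMonoidHom := by
  classical
  have hpp : p.Prime := Fact.out
  have hEcomm : ∀ u ∈ E, ∀ v ∈ E, u * v = v * u := fun u hu v hv =>
    congrArg Subtype.val (hEc.is_comm.comm (⟨u, hu⟩ : E) ⟨v, hv⟩)
  -- the rank three subgroup
  unfold PRankLE at hE3
  push Not at hE3
  obtain ⟨A₀, hA₀c, hA₀e, hA₀card⟩ := hE3
  set A : Subgroup G := A₀.map E.subtype with hA
  have hAE : A ≤ E := Subgroup.map_subtype_le _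
  have hAea : IsElementaryAbelian p A := by
    refine ⟨⟨⟨?_⟩⟩, ?_⟩
    · rintro ⟨_, u, hu, rfl⟩ ⟨_, v, hv, rfl⟩
      apply Subtype.ext
      have := hA₀c.is_comm.comm (⟨u, hu⟩ : A₀) ⟨v, hv⟩
      have h2 := congrArg (fun w : A₀ => ((w : E) : G)) this
      simpa using h2
    · rintro _ ⟨u, hu, rfl⟩
      have := hA₀e u hu
      simpa using congrArg Subtype.val this
  have hA3 : p ^ 3 ≤ Nat.card A := by
    have h1 : Nat.card A = Nat.card A₀ := Subgroup.card_map_of_injective E.subtype_injective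
    rw [h1]
    have hp' : IsPGroup p A₀ := IsPGroup.to_subgroup hEp A₀
    obtain ⟨k, hk⟩ := IsPGroup.iff_card.mp hp'
    rw [hk] at hA₀card ⊢
    have h3 : 2 < k := (Nat.pow_lt_pow_iff_right hpp.one_lt).mp hA₀card
    exact Nat.pow_le_pow_right hpp.pos h3
  -- the functor
  let H : G → Subgroup G := fun a => normalizer ((zpowers a : Subgroup G) : Set G)
  let θ : G → Subgroup G := fun a => (pPrimeCore p ↥(H a)).map (H a).subtype
  have hEH : ∀ a ∈ E, E ≤ H a := by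
    intro a ha e he
    apply mem_normalizer_of_conj_le
    intro x hx
    have h1 : e * a = a * e := hEcomm e he a ha
    have h3 : e * x * e⁻¹ = x := by
      obtain ⟨n, rfl⟩ := mem_zpowers_iff.mp hx
      have h4 : Commute e (a ^ n) := Commute.zpow_right h1 n
      rw [h4.eq, mul_inv_cancel_right]
    rw [h3]
    exact hx
  have hCH : ∀ a : G, centralizer {a} ≤ H a := by
    intro a x hx
    apply mem_normalizer_of_conj_le
    intro y hy
    have h1 : x * a = a * x := (mem_centralizer_singleton_iff.mp hx)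
    have h3 : x * y * x⁻¹ = y := by
      obtain ⟨n, rfl⟩ := mem_zpowers_iff.mp hy
      have h4 : Commute x (a ^ n) := Commute.zpow_right h1 n
      rw [h4.eq, mul_inv_cancel_right]
    rw [h3]
    exact hy
  have hθc : ∀ a ∈ A, a ≠ 1 → (Nat.card (θ a)).Coprime p := by
    intro a _ _
    have h1 : Nat.card (θ a) = Nat.card (pPrimeCore p ↥(H a)) :=
      Subgroup.card_map_of_injective (H a).subtype_injective
    rw [h1]
    exact Cfsg.Agent.Lib.Basic.pPrimeCore_coprime p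
  have hθE : ∀ a ∈ A, a ≠ 1 → E ≤ normalizer (θ a : Set G) := by
    intro a ha _ e he
    apply mem_normalizer_of_conj_le
    rintro _ ⟨y, hy, rfl⟩
    have heH := hEH a (hAE ha) he
    refine ⟨⟨e, heH⟩ * y * ⟨e, heH⟩⁻¹, ?_, by simp⟩
    haveI : (pPrimeCore p ↥(H a)).Normal := Cfsg.Agent.Lib.Basic.pPrimeCore_normal p
    exact Subgroup.Normal.conj_mem inferInstance y hy _
  have hθ : ∀ a ∈ A, a ≠ 1 → ∀ Y : Subgroup G, Y ≤ centralizer {a} → (Nat.card Y).Coprime p →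
      E ≤ normalizer (Y : Set G) → Y ≤ θ a := by
    intro a ha ha1 Y hYa hYc hEY
    have haE : a ∈ E := hAE ha
    have hT : IsPGroup p (zpowers a) := hEp.to_le ((zpowers_le).mpr haE)
    have hTne : zpowers a ≠ ⊥ := by
      intro h
      exact ha1 (zpowers_eq_bot.mp h)
    have hX : IsPConstrained p ↥(H a) := hloc _ hT hTne
    have hEHa := hEH a haE
    have hYH : Y ≤ H a := hYa.trans (hCH a)
    have hE' : IsPGroup p (E.subgroupOf (H a)) := hEp.comap_subtype (K := H a)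
    have hY' : (Nat.card (Y.subgroupOf (H a))).Coprime p := by
      have : Nat.card (Y.subgroupOf (H a)) = Nat.card Y :=
        Nat.card_congr (subgroupOfEquivOfLe hYH).toEquiv
      rwa [this]
    have hEY' : E.subgroupOf (H a) ≤ normalizer ((Y.subgroupOf (H a) : Subgroup ↥(H a)) : Set ↥(H a)) := by
      intro e he
      apply mem_normalizer_of_conj_le
      intro x hx
      rw [mem_subgroupOf] at hx ⊢ he
      exact (mem_normalizer_iff.mp (hEY he) x).mp hx
    have hfull' : ∀ x ∈ centralizer ((E.subgroupOf (H a) : Subgroup ↥(H a)) : Set ↥(H a)),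
        IsPGroup p (zpowers x) → x ∈ E.subgroupOf (H a) := by
      intro x hx hxp
      rw [mem_subgroupOf]
      refine hfull _ ?_ ?_
      · rw [mem_centralizer_iff]
        intro e he
        have h3 := mem_centralizer_iff.mp hx ⟨e, hEHa he⟩ (by rw [SetLike.mem_coe, mem_subgroupOf]; exact he)
        exact congrArg Subtype.val h3
      · have h5 : (zpowers x).map (H a).subtype = zpowers (x : G) := by
          rw [MonoidHom.map_zpowers]
          rfl
        rw [← h5]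
        exact hxp.map _
    have hkey : ∀ Q P₀ : Subgroup ↥(H a), (Nat.card Q).Coprime p → IsPGroup p P₀ →
        E.subgroupOf (H a) ≤ normalizer (Q : Set ↥(H a)) →
        E.subgroupOf (H a) ≤ normalizer (P₀ : Set ↥(H a)) → Q ≤ normalizer (P₀ : Set ↥(H a)) →
        P₀ ⊓ centralizer ((E.subgroupOf (H a) : Subgroup ↥(H a)) : Set ↥(H a)) ≤ centralizer (Q : Set ↥(H a)) →
        Q ≤ centralizer (P₀ : Set ↥(H a)) := by
      intro Q P₀ hQ hP₀ hEQ hEP₀ hQP₀ hC
      by_cases hp2 : p = 2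
      · refine class2_key (E.subgroupOf (H a)) Q P₀ hQ hEQ hP₀ hEP₀ hQP₀ hC ?_
        have hsup : IsPGroup p ↥(E.subgroupOf (H a) ⊔ P₀) :=
          IsPGroup.to_sup_of_normal_right' hE' hP₀ hEP₀
        have hmap : IsPGroup p ((E.subgroupOf (H a) ⊔ P₀).map (H a).subtype) := hsup.map _
        obtain ⟨S, hS⟩ := hmap.exists_le_sylow
        obtain ⟨hSn, hSc⟩ := h2 hp2 S
        have hm : ∀ x ∈ E.subgroupOf (H a) ⊔ P₀, (x : G) ∈ (S : Subgroup G) := fun x hx =>
          hS ⟨x, hx, rfl⟩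
        intro e he u hu
        have hz : ∀ z ∈ E.subgroupOf (H a) ⊔ P₀, ⁅e, u⁆ * z = z * ⁅e, u⁆ := by
          intro z hz
          apply Subtype.ext
          have := comm_comm_of_class_two hSn hSc (hm e (mem_sup_left he)) (hm u (mem_sup_right hu)) (hm z hz)
          simpa [commutatorElement_def] using this
        exact ⟨fun z hz' => hz z (mem_sup_left hz'), fun z hz' => hz z (mem_sup_right hz')⟩
      · exact Cfsg.Agent.S3737.result hp2 (E.subgroupOf (H a)) Q P₀ hE' hQ hEQ hP₀ hEP₀ hQP₀ hC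
    have hmain := le_core_of_constrained hX (E.subgroupOf (H a)) (Y.subgroupOf (H a)) hE' hfull' hY' hEY' hkey
    intro y hy
    exact ⟨⟨y, hYH hy⟩, hmain (by rw [mem_subgroupOf]; exact hy), rfl⟩
  intro Q₁ h₁ Q₂ h₂
  exact trans_core hAea hA3 hAE hEp hEc hfull θ hθc hθ hθE hqp Q₁ Q₂ h₁ h₂

end main

end Cfsg.Agent.Lib.FT.TT
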