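import Cfsg.Prelude.Def_OddOrder
import Mathlib.GroupTheory.Solvable
import Mathlib.GroupTheory.Coset.Card
import Mathlib.GroupTheory.QuotientGroup.Basic

/-! Top of the odd order theorem: reduction to the non-existence of a minimal simple group of odd order. -/

set_option autoImplicit false

namespace Cfsg.Agent.Lib.FT

universe u

theorem odd_of_dvd_odd {m n : ℕ} (h : m ∣ n) (hn : Odd n) : Odd m := Odd.of_dvd_nat hn h

/-- If no finite group is a minimal simple group of odd order, every finite group of odd order is solvable. -/
theorem solvable_of_no_minSimple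
    (h : ∀ (H : Type u) [Group H] [Finite H], ¬ Cfsg.IsMinSimpleOddOrder H) :
    ∀ (G : Type u) [Group G] [Finite G], Odd (Nat.card G) → Group.IsSolvable G := by
  intro G
  induction' hn : Nat.card G using Nat.strong_induction_on with n ih generalizing G
  intro _ _ hG
  subst hn
  have hsub : ∀ (K : Type u) [Group K] [Finite K], Nat.card K < Nat.card G → Odd (Nat.card K) →
      Group.IsSolvable K := fun K _ _ hK hKo => ih _ hK K rfl hKo
  by_cases hnt : Nontrivial G
  · by_cases hs : IsSimpleGroup G
    · by_cases hc : IsMulCommutative G
      · exact Group.isSolvable_of_comm (fun a b => hc.is_comm.comm a b)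
      · exfalso
        refine h G ⟨hG, hs, hc, fun K hK => ?_⟩
        refine hsub K ?_ ?_
        · have hle := Subgroup.card_le_card_group K
          refine lt_of_le_of_ne hle fun heq => hK ?_
          exact Subgroup.eq_top_of_card_eq K heq
        · exact odd_of_dvd_odd (Subgroup.card_subgroup_dvd_card K) hG
    · -- a proper nontrivial normal subgroup exists
      have : ∃ N : Subgroup G, N.Normal ∧ N ≠ ⊥ ∧ N ≠ ⊤ := by
        by_contra hno
        push_neg at hno
        exact hs ⟨fun N hN => by
          by_cases hb : N = ⊥
          · exact Or.inl hb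
          · exact Or.inr (hno N hN hb)⟩
      obtain ⟨N, hN, hNb, hNt⟩ := this
      have hNs : Group.IsSolvable N := by
        refine hsub N ?_ (odd_of_dvd_odd (Subgroup.card_subgroup_dvd_card N) hG)
        refine lt_of_le_of_ne (Subgroup.card_le_card_group N) fun heq => hNt ?_
        exact Subgroup.eq_top_of_card_eq N heq
      have hcard : Nat.card G = Nat.card N * Nat.card (G ⧸ N) := by
        rw [Subgroup.card_eq_card_quotient_mul_card_subgroup N, mul_comm]
      have hQs : Group.IsSolvable (G ⧸ N) := by
        refine hsub (G ⧸ N) ?_ (odd_of_dvd_odd ⟨_, by rw [hcard, mul_comm]⟩ hG)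
        have hNc : 1 < Nat.card N := by
          have : Nontrivial N := (Subgroup.nontrivial_iff_ne_bot N).2 hNb
          exact Finite.one_lt_card
        have hQpos : 0 < Nat.card (G ⧸ N) := Nat.card_pos
        rw [hcard]
        nlinarith
      exact Group.isSolvable_of_ker_le_range (N.subtype) (QuotientGroup.mk' N) (by simp)
  · haveI : Subsingleton G := not_nontrivial_iff_subsingleton.1 hnt
    infer_instance

end Cfsg.Agent.Lib.FT
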