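/-
The transitivity hypothesis (BG Lemma 8.1): S1396.  Type-level lemmas on O_{p'} in a solvable group.
-/
import Cfsg.Agent.S1457
import Cfsg.Agent.Lib.OddLocal.PStable
import Cfsg.Agent.Lib.OddLocal.PLength
import Cfsg.Agent.Lib.OddLocal.HallHigman
import Cfsg.Agent.Lib.OddLocal.CoprimeFix
import Cfsg.Agent.Lib.OddLocal.Trans2
import Cfsg.Agent.Lib.OddLocal.PGroup
import Cfsg.Agent.Lib.Components.Signal
import Cfsg.Agent.Lib.PLocal.Basic

set_option autoImplicit false

open Cfsg Subgroup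
open scoped commutatorElement

namespace Cfsg.Agent.Lib.FT

section typeLevel

variable {X : Type*} [Group X] [Finite X]

theorem card_map_coprime {Y : Type*} [Group Y] [Finite Y] {p : ℕ} (f : X →* Y) {D : Subgroup X}
    (hD : (Nat.card D).Coprime p) : (Nat.card (D.map f)).Coprime p := by
  have h : Nat.card (D.map f) ∣ Nat.card D :=
    Subgroup.card_dvd_of_surjective (f.subgroupMap D) (f.subgroupMap_surjective D)
  exact Nat.Coprime.coprime_dvd_left h hD

theorem eq_one_of_mem_of_ppow {p : ℕ} {D : Subgroup X} (hcop : (Nat.card D).Coprime p) {x : X}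
    (hx : x ∈ D) {k : ℕ} (hk : x ^ (p ^ k) = 1) : x = 1 := by
  have h1 : orderOf x ∣ Nat.card D := Subgroup.orderOf_dvd_natCard D hx
  have h2 : orderOf x ∣ p ^ k := orderOf_dvd_of_pow_eq_one hk
  have h3 : (Nat.card D).Coprime (p ^ k) := Nat.Coprime.pow_right k hcop
  have h4 : orderOf x = 1 := Nat.Coprime.eq_one_of_dvd (Nat.Coprime.coprime_dvd_left h1 h3) h2
  exact orderOf_eq_one_iff.mp h4

theorem eq_one_of_mem_inf_of_isPGroup {p : ℕ} {D R : Subgroup X} (hcop : (Nat.card D).Coprime p)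
    (hR : IsPGroup p R) {x : X} (hx : x ∈ D) (hxR : x ∈ R) : x = 1 := by
  obtain ⟨k, hk⟩ := hR ⟨x, hxR⟩
  exact eq_one_of_mem_of_ppow hcop hx (k := k) (by simpa using congrArg Subtype.val hk)

/-- If `D` has order prime to `p` and `π D` lands in the normal `p`-subgroup, then ... -/
theorem mem_ker_of_map_mem {Y : Type*} [Group Y] [Finite Y] {p : ℕ} (f : X →* Y) {D : Subgroup X}
    (hcop : (Nat.card D).Coprime p) {R : Subgroup Y} (hR : IsPGroup p R) {x : X} (hx : x ∈ D)
    (hxR : f x ∈ R) : f x = 1 :=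
  eq_one_of_mem_inf_of_isPGroup (card_map_coprime f hcop) hR (mem_map_of_mem f hx) hxR

theorem isPGroup_zpowers_of_pow {p : ℕ} [Fact p.Prime] {x : X} {k : ℕ} (h : x ^ (p ^ k) = 1) :
    IsPGroup p (zpowers x) := by
  rw [IsPGroup.iff_card]
  have h3 : orderOf x ∣ p ^ k := orderOf_dvd_of_pow_eq_one h
  obtain ⟨j, -, hj⟩ := (Nat.dvd_prime_pow (Fact.out : p.Prime)).1 h3
  exact ⟨j, by rw [Nat.card_zpowers]; exact hj⟩

variable [Group.IsSolvable X] {p : ℕ} [Fact p.Prime]

/-- Balance: a `p'`-subgroup of `C_X(a)` normalized by `C_X(a)`, `a` a `p`-element, lies in `O_{p'}(X)`. -/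
theorem le_core_of_centralizes_pelt (a : X) (k : ℕ) (ha : a ^ (p ^ k) = 1) (D : Subgroup X)
    (hDc : ∀ d ∈ D, d * a = a * d) (hDn : ∀ c : X, c * a = a * c → ∀ d ∈ D, c * d * c⁻¹ ∈ D)
    (hcop : (Nat.card D).Coprime p) : D ≤ pPrimeCore p X := by
  classical
  set O := pPrimeCore p X with hO
  haveI hOn : O.Normal := Cfsg.Agent.Lib.Basic.pPrimeCore_normal p
  set π := QuotientGroup.mk' O with hπ
  have hπs : Function.Surjective π := QuotientGroup.mk'_surjective O
  have hker : π.ker = O := QuotientGroup.ker_mk' O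
  set R := pCore p (X ⧸ O) with hR
  haveI hRn : R.Normal := Cfsg.Agent.Lib.Basic.pCore_normal p
  have hRp : IsPGroup p R := Cfsg.Agent.Lib.Basic.pCore_isPGroup p
  have hcore : pPrimeCore p (X ⧸ O) = ⊥ := Cfsg.Agent.Lib.OddLocal.pPrimeCore_quotient_eq_bot p
  have hC : centralizer (R : Set (X ⧸ O)) ≤ R := Cfsg.Agent.Lib.OddLocal.centralizer_pCore_le hcore
  have hOcop : (Nat.card O).Coprime p := Cfsg.Agent.Lib.Basic.pPrimeCore_coprime p
  have haord : (Nat.card (zpowers a)).Coprime (Nat.card O) := by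
    rw [Nat.card_zpowers]
    have h2 : orderOf a ∣ p ^ k := orderOf_dvd_of_pow_eq_one ha
    exact Nat.Coprime.coprime_dvd_left h2 (Nat.Coprime.pow_left k hOcop.symm)
  have hT := Cfsg.Agent.Lib.OddLocal.thompson_AxB p R (D.map π) (zpowers (π a)) hRp
    (isPGroup_zpowers_of_pow (k := k) (by rw [← map_pow, ha, map_one]))
    (card_map_coprime π hcop)
    (fun x _ => by rw [normalizer_eq_top_iff.2 hRn]; trivial)
    (fun x _ => by rw [normalizer_eq_top_iff.2 hRn]; trivial)
    (by
      rintro _ ⟨d, hd, rfl⟩ b hb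
      obtain ⟨n, rfl⟩ := mem_zpowers_iff.1 hb
      rw [← map_zpow, ← map_mul, ← map_mul, ((commute_iff_eq _ _).2 (hDc d hd)).zpow_right n |>.eq])
    (by
      rintro _ ⟨d, hd, rfl⟩ x hxR hx
      obtain ⟨u, rfl⟩ := hπs x
      have hfix : ∀ b ∈ zpowers a, u * b * u⁻¹ * b⁻¹ ∈ O := by
        intro b hb
        rw [← hker, MonoidHom.mem_ker]
        have h1 := hx (π b) (by
          obtain ⟨n, rfl⟩ := mem_zpowers_iff.1 hb
          rw [map_zpow]
          exact zpow_mem (mem_zpowers _) n)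
        simp only [map_mul, map_inv]
        rw [← h1]
        group
      obtain ⟨n, hn, hc⟩ := Cfsg.Agent.Lib.OddLocal.exists_mul_mem_centralizer (N := O)
        (A := zpowers a) (fun x _ => by rw [normalizer_eq_top_iff.2 hOn]; trivial)
        haord.symm (Or.inl inferInstance) u hfix
      have hπn : π n = 1 := by rw [← MonoidHom.mem_ker, hker]; exact hn
      have hca : (n * u) * a = a * (n * u) := by
        have := mem_centralizer_iff.1 hc a (mem_zpowers a)
        exact this.symm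
      have h2 : (n * u) * d * (n * u)⁻¹ ∈ D := hDn _ hca d hd
      have h3 : (n * u) * d * (n * u)⁻¹ * d⁻¹ ∈ D := D.mul_mem h2 (D.inv_mem hd)
      have h4 : π ((n * u) * d * (n * u)⁻¹ * d⁻¹) ∈ R := by
        have h5 : π ((n * u) * d * (n * u)⁻¹ * d⁻¹) = π u * (π d * (π u)⁻¹ * (π d)⁻¹) := by
          simp only [map_mul, map_inv, hπn, one_mul]
          group
        rw [h5]
        refine R.mul_mem hxR ?_
        have := hRn.conj_mem _ (R.inv_mem hxR) (π d)
        simpa [mul_assoc] using this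
      have h6 := mem_ker_of_map_mem π hcop hRp h3 h4
      have h7 : π d * π u = π u * π d := by
        have h5 : π ((n * u) * d * (n * u)⁻¹ * d⁻¹) = π u * π d * (π u)⁻¹ * (π d)⁻¹ := by
          simp only [map_mul, map_inv, hπn, one_mul]
        rw [h5] at h6
        have h8 : π u * π d = π d * π u := by
          have := mul_inv_eq_one.1 (by simpa [mul_assoc] using h6 : (π u * π d * (π u)⁻¹) * (π d)⁻¹ = 1)
          exact mul_inv_eq_iff_eq_mul.1 this
        exact h8.symm
      exact h7)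
  intro d hd
  have h1 : π d ∈ R := hC (hT (mem_map_of_mem π hd))
  have h2 := mem_ker_of_map_mem π hcop hRp hd h1
  rw [← hker]
  exact h2

/-- The SCN situation: `A` normal and self-centralizing in a Sylow subgroup of `X`. -/
theorem le_core_of_scn (hodd : Odd (Nat.card X)) (S : Sylow p X) (A : Subgroup X)
    (hAS : A ≤ (S : Subgroup X)) (hAn : (S : Subgroup X) ≤ normalizer (A : Set X))
    (hAc : IsMulCommutative A) (hself : ∀ x ∈ (S : Subgroup X), (∀ a ∈ A, x * a = a * x) → x ∈ A)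
    (Y : Subgroup X) (hY : (Nat.card Y).Coprime p) (hYA : A ≤ normalizer (Y : Set X)) :
    Y ≤ pPrimeCore p X := by
  classical
  set O := pPrimeCore p X with hO
  haveI hOn : O.Normal := Cfsg.Agent.Lib.Basic.pPrimeCore_normal p
  set π := QuotientGroup.mk' O with hπ
  have hπs : Function.Surjective π := QuotientGroup.mk'_surjective O
  have hker : π.ker = O := QuotientGroup.ker_mk' O
  set R := pCore p (X ⧸ O) with hR
  haveI hRn : R.Normal := Cfsg.Agent.Lib.Basic.pCore_normal p
  have hRp : IsPGroup p R := Cfsg.Agent.Lib.Basic.pCore_isPGroup p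
  have hcore : pPrimeCore p (X ⧸ O) = ⊥ := Cfsg.Agent.Lib.OddLocal.pPrimeCore_quotient_eq_bot p
  have hC : centralizer (R : Set (X ⧸ O)) ≤ R := Cfsg.Agent.Lib.OddLocal.centralizer_pCore_le hcore
  have hOcop : (Nat.card O).Coprime p := Cfsg.Agent.Lib.Basic.pPrimeCore_coprime p
  have hAR : ∀ a ∈ A, π a ∈ R := by
    intro a ha
    have := Cfsg.Agent.S1457.result hodd p S A hAS hAc hAn ha
    exact this
  have hYcomm : ∀ y ∈ Y, ∀ a ∈ A, π y * π a = π a * π y := by
    intro y hy a ha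
    have h1 : y * (a * y⁻¹ * a⁻¹) ∈ Y :=
      Y.mul_mem hy ((mem_normalizer_iff.1 (hYA ha) y⁻¹).1 (Y.inv_mem hy))
    have h2 : π (y * (a * y⁻¹ * a⁻¹)) ∈ R := by
      have h5 : π (y * (a * y⁻¹ * a⁻¹)) = (π y * π a * (π y)⁻¹) * (π a)⁻¹ := by
        simp only [map_mul, map_inv]
        group
      rw [h5]
      exact R.mul_mem (hRn.conj_mem _ (hAR a ha) _) (R.inv_mem (hAR a ha))
    have h3 := mem_ker_of_map_mem π hY hRp h1 h2
    have h5 : π (y * (a * y⁻¹ * a⁻¹)) = (π y * π a * (π y)⁻¹) * (π a)⁻¹ := by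
      simp only [map_mul, map_inv]
      group
    rw [h5] at h3
    have h6 := mul_inv_eq_one.1 h3
    exact mul_inv_eq_iff_eq_mul.1 h6
  have hT := Cfsg.Agent.Lib.OddLocal.thompson_AxB p R (Y.map π) (A.map π) hRp
    (((S.isPGroup').to_le hAS).map π)
    (card_map_coprime π hY)
    (fun x _ => by rw [normalizer_eq_top_iff.2 hRn]; trivial)
    (fun x _ => by rw [normalizer_eq_top_iff.2 hRn]; trivial)
    (by
      rintro _ ⟨y, hy, rfl⟩ _ ⟨a, ha, rfl⟩
      exact hYcomm y hy a ha)
    (by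
      rintro _ ⟨y, hy, rfl⟩ x hxR hx
      -- `x` lifts to the Sylow subgroup
      have hxS : x ∈ (S.mapSurjective hπs : Subgroup (X ⧸ O)) :=
        Cfsg.Agent.Lib.Basic.pCore_le_sylow _ hxR
      obtain ⟨u, huS, rfl⟩ := hxS
      have huA : u ∈ A := by
        apply hself u huS
        intro a ha
        have h1 := hx (π a) (mem_map_of_mem π ha)
        have h2 : u * a * u⁻¹ * a⁻¹ ∈ O := by
          rw [← hker, MonoidHom.mem_ker]
          simp only [map_mul, map_inv]
          rw [← h1]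
          group
        have h3 : u * a * u⁻¹ * a⁻¹ ∈ (S : Subgroup X) :=
          (S : Subgroup X).mul_mem ((S : Subgroup X).mul_mem
            ((S : Subgroup X).mul_mem huS (hAS ha)) ((S : Subgroup X).inv_mem huS))
            ((S : Subgroup X).inv_mem (hAS ha))
        have h4 := eq_one_of_mem_inf_of_isPGroup hOcop S.isPGroup' h2 h3
        have h5 := mul_inv_eq_one.1 h4
        exact mul_inv_eq_iff_eq_mul.1 h5
      exact hYcomm y hy u huA)
  intro y hy
  have h1 : π y ∈ R := hC (hT (mem_map_of_mem π hy))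
  have h2 := mem_ker_of_map_mem π hY hRp hy h1
  rw [← hker]
  exact h2

/-- Quadratic action: powers. -/
theorem quad_zpow {X : Type*} [Group X] {w z : X} (h : Commute ⁅w, z⁆ z) (n : ℤ) :
    Commute ⁅w, z ^ n⁆ (z ^ n) := by
  have h1 : w * z * w⁻¹ = ⁅w, z⁆ * z := by
    rw [commutatorElement_def]; group
  have h2 : ⁅w, z ^ n⁆ = ⁅w, z⁆ ^ n := by
    rw [commutatorElement_def]
    have h3 : w * z ^ n * w⁻¹ = (w * z * w⁻¹) ^ n := (conj_zpow).symm
    rw [h3, h1, h.mul_zpow, mul_inv_cancel_right]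
  rw [h2]
  exact h.zpow_zpow n n

/-- `p`-stability in the form used here. -/
theorem mem_pCore_of_quad (hodd : Odd (Nat.card X)) (hp : p ≠ 2) (hcore : pPrimeCore p X = ⊥)
    (z : X) (k : ℕ) (hz : z ^ (p ^ k) = 1)
    (hq : ∀ w ∈ pCore p X, Commute ⁅w, z⁆ z) : z ∈ pCore p X := by
  classical
  set R := pCore p X with hR
  haveI hRn : R.Normal := Cfsg.Agent.Lib.Basic.pCore_normal p
  have hRp : IsPGroup p R := Cfsg.Agent.Lib.Basic.pCore_isPGroup p
  have hC : centralizer (R : Set X) ≤ R := Cfsg.Agent.Lib.OddLocal.centralizer_pCore_le hcore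
  have h := Cfsg.Agent.Lib.OddLocal.pstable_normal hp hodd R hRp (centralizer (R : Set X))
    (by
      intro g hg
      rw [mem_centralizer_iff]
      intro w hw
      exact (hg w hw).symm)
    (zpowers z)
    (by
      intro a ha w hw
      obtain ⟨n, rfl⟩ := mem_zpowers_iff.1 ha
      exact quad_zpow (hq w hw) n)
    (isPGroup_zpowers_of_pow hz)
  -- the preimage of `O_p(X / C)` is a normal `p`-subgroup
  set C := centralizer (R : Set X) with hCdef
  set K := (pCore p (X ⧸ C)).comap (QuotientGroup.mk' C) with hK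
  have hKp : IsPGroup p K := by
    apply IsPGroup.comap_of_ker_isPGroup (Cfsg.Agent.Lib.Basic.pCore_isPGroup p)
    rw [QuotientGroup.ker_mk']
    exact hRp.to_le hC
  have hKn : K.Normal := by
    haveI : (pCore p (X ⧸ C)).Normal := Cfsg.Agent.Lib.Basic.pCore_normal p
    exact inferInstance
  have hzK : z ∈ K := h (mem_map_of_mem _ (mem_zpowers z))
  exact Cfsg.Agent.Lib.Basic.le_pCore hKn hKp hzK

/-- Quadratic action of `z` on a Sylow subgroup and fixed points of `z` in `Y` inside `O_{p'}` give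
`Y ≤ O_{p'}`. -/
theorem le_core_of_quad (hodd : Odd (Nat.card X)) (hp : p ≠ 2) (z : X) (k : ℕ) (hz : z ^ (p ^ k) = 1)
    (T : Sylow p X) (hq : ∀ t ∈ (T : Subgroup X), Commute ⁅t, z⁆ z) (Y : Subgroup X)
    (hY : (Nat.card Y).Coprime p) (hzY : ∀ y ∈ Y, z * y * z⁻¹ ∈ Y)
    (hfix : ∀ y ∈ Y, y * z = z * y → y ∈ pPrimeCore p X) :
    Y ≤ pPrimeCore p X := by
  classical
  set O := pPrimeCore p X with hO
  haveI hOn : O.Normal := Cfsg.Agent.Lib.Basic.pPrimeCore_normal p
  set π := QuotientGroup.mk' O with hπ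
  have hπs : Function.Surjective π := QuotientGroup.mk'_surjective O
  have hker : π.ker = O := QuotientGroup.ker_mk' O
  set R := pCore p (X ⧸ O) with hR
  haveI hRn : R.Normal := Cfsg.Agent.Lib.Basic.pCore_normal p
  have hRp : IsPGroup p R := Cfsg.Agent.Lib.Basic.pCore_isPGroup p
  have hcore : pPrimeCore p (X ⧸ O) = ⊥ := Cfsg.Agent.Lib.OddLocal.pPrimeCore_quotient_eq_bot p
  have hOcop : (Nat.card O).Coprime p := Cfsg.Agent.Lib.Basic.pPrimeCore_coprime p
  have hodd' : Odd (Nat.card (X ⧸ O)) := Odd.of_dvd_nat hodd (Subgroup.card_quotient_dvd_card O)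
  have hzR : π z ∈ R := by
    apply mem_pCore_of_quad hodd' hp hcore (π z) k (by rw [← map_pow, hz, map_one])
    intro w hw
    have hwS : w ∈ (T.mapSurjective hπs : Subgroup (X ⧸ O)) :=
      Cfsg.Agent.Lib.Basic.pCore_le_sylow _ hw
    obtain ⟨t, ht, rfl⟩ := hwS
    have h1 := (hq t ht).map π
    rwa [map_commutatorElement] at h1
  have hzYn : ∀ b ∈ zpowers z, ∀ y ∈ Y, b * y * b⁻¹ ∈ Y := by
    -- finite order: use the normalizer
    have h1 : z ∈ normalizer (Y : Set X) := by
      apply Cfsg.Agent.Lib.Coprime.mem_normalizer_of_conj_le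
      intro y hy
      exact hzY y hy
    have h2 : zpowers z ≤ normalizer (Y : Set X) := by
      rw [zpowers_le]; exact h1
    intro b hb y hy
    exact (mem_normalizer_iff.1 (h2 hb) y).1 hy
  have hcomm : ∀ y ∈ Y, ∀ b ∈ zpowers z, y * b * y⁻¹ * b⁻¹ ∈ Y ⊓ O := by
    intro y hy b hb
    have h1 : y * b * y⁻¹ * b⁻¹ ∈ Y := by
      have h2 := hzYn b hb y⁻¹ (Y.inv_mem hy)
      have h3 : y * b * y⁻¹ * b⁻¹ = y * (b * y⁻¹ * b⁻¹) := by group
      rw [h3]
      exact Y.mul_mem hy h2
    refine ⟨h1, ?_⟩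
    have hbR : π b ∈ R := by
      obtain ⟨n, rfl⟩ := mem_zpowers_iff.1 hb
      rw [map_zpow]
      exact zpow_mem hzR n
    have h2 : π (y * b * y⁻¹ * b⁻¹) ∈ R := by
      have h5 : π (y * b * y⁻¹ * b⁻¹) = (π y * π b * (π y)⁻¹) * (π b)⁻¹ := by
        simp only [map_mul, map_inv]
      rw [h5]
      exact R.mul_mem (hRn.conj_mem _ hbR _) (R.inv_mem hbR)
    have h3 := mem_ker_of_map_mem π hY hRp h1 h2
    rw [← hker]
    exact h3
  have hzcard : (Nat.card (Y ⊓ O : Subgroup X)).Coprime (Nat.card (zpowers z)) := by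
    have h1 : Nat.card (Y ⊓ O : Subgroup X) ∣ Nat.card Y := Subgroup.card_dvd_of_le inf_le_left
    rw [Nat.card_zpowers]
    have h2 : orderOf z ∣ p ^ k := orderOf_dvd_of_pow_eq_one hz
    exact Nat.Coprime.coprime_dvd_right h2
      (Nat.Coprime.pow_right k (Nat.Coprime.coprime_dvd_left h1 hY))
  intro y hy
  obtain ⟨n, hn, hc⟩ := Cfsg.Agent.Lib.OddLocal.exists_mul_mem_centralizer (N := Y ⊓ O)
    (A := zpowers z)
    (by
      intro b hb
      apply Cfsg.Agent.Lib.Coprime.mem_normalizer_of_conj_le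
      intro w hw
      exact ⟨hzYn b hb w hw.1, hOn.conj_mem _ hw.2 b⟩)
    hzcard (Or.inl inferInstance) y (hcomm y hy)
  have h1 : n * y ∈ Y := Y.mul_mem hn.1 hy
  have h2 := hfix _ h1 ((mem_centralizer_iff.1 hc z (mem_zpowers z)).symm)
  have h3 : y = n⁻¹ * (n * y) := by group
  rw [h3]
  exact O.mul_mem (O.inv_mem hn.2) h2

/-- The `p`-length-one situation. -/
theorem le_core_of_plength (hodd : Odd (Nat.card X)) (hp : p ≠ 2) (hl : PLengthLE p 1 X) (A : Subgroup X)
    (hAp : IsPGroup p A) (hAc : IsMulCommutative A)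
    (hΩ : ∀ x : X, (∀ a ∈ A, x * a = a * x) → x ^ p = 1 → x ∈ A)
    (Y : Subgroup X) (hY : (Nat.card Y).Coprime p) (hYA : A ≤ normalizer (Y : Set X)) :
    Y ≤ pPrimeCore p X := by
  classical
  set O := pPrimeCore p X with hO
  haveI hOn : O.Normal := Cfsg.Agent.Lib.Basic.pPrimeCore_normal p
  set π := QuotientGroup.mk' O with hπ
  have hπs : Function.Surjective π := QuotientGroup.mk'_surjective O
  have hker : π.ker = O := QuotientGroup.ker_mk' O
  set R := pCore p (X ⧸ O) with hR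
  haveI hRn : R.Normal := Cfsg.Agent.Lib.Basic.pCore_normal p
  have hRp : IsPGroup p R := Cfsg.Agent.Lib.Basic.pCore_isPGroup p
  have hcore : pPrimeCore p (X ⧸ O) = ⊥ := Cfsg.Agent.Lib.OddLocal.pPrimeCore_quotient_eq_bot p
  have hC : centralizer (R : Set (X ⧸ O)) ≤ R := Cfsg.Agent.Lib.OddLocal.centralizer_pCore_le hcore
  have hOcop : (Nat.card O).Coprime p := Cfsg.Agent.Lib.Basic.pPrimeCore_coprime p
  have hAR : ∀ a ∈ A, π a ∈ R := by
    intro a ha
    have h1 : A ≤ pPrimePCore p X :=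
      Cfsg.Agent.Lib.OddLocal.isPGroup_le_of_index_coprime
        (Cfsg.Agent.Lib.OddLocal.index_pPrimePCore_coprime hl) hAp
    exact h1 ha
  have hYcomm : ∀ y ∈ Y, ∀ a ∈ A, π y * π a = π a * π y := by
    intro y hy a ha
    have h1 : y * (a * y⁻¹ * a⁻¹) ∈ Y :=
      Y.mul_mem hy ((mem_normalizer_iff.1 (hYA ha) y⁻¹).1 (Y.inv_mem hy))
    have h5 : π (y * (a * y⁻¹ * a⁻¹)) = (π y * π a * (π y)⁻¹) * (π a)⁻¹ := by
      simp only [map_mul, map_inv]
      group
    have h2 : π (y * (a * y⁻¹ * a⁻¹)) ∈ R := by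
      rw [h5]
      exact R.mul_mem (hRn.conj_mem _ (hAR a ha) _) (R.inv_mem (hAR a ha))
    have h3 := mem_ker_of_map_mem π hY hRp h1 h2
    rw [h5] at h3
    have h6 := mul_inv_eq_one.1 h3
    exact mul_inv_eq_iff_eq_mul.1 h6
  have hT := Cfsg.Agent.Lib.OddLocal.thompson_AxB p R (Y.map π) (A.map π) hRp
    (hAp.map π)
    (card_map_coprime π hY)
    (fun x _ => by rw [normalizer_eq_top_iff.2 hRn]; trivial)
    (fun x _ => by rw [normalizer_eq_top_iff.2 hRn]; trivial)
    (by
      rintro _ ⟨y, hy, rfl⟩ _ ⟨a, ha, rfl⟩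
      exact hYcomm y hy a ha)
    (by
      rintro _ ⟨y, hy, rfl⟩ x hxR hx
      -- work inside `C = C_R(Ā)`
      set C : Subgroup (X ⧸ O) := R ⊓ centralizer ((A.map π : Subgroup (X ⧸ O)) : Set (X ⧸ O)) with hCdef
      have hxC : x ∈ C := mem_inf.2 ⟨hxR, mem_centralizer_iff.2 fun b hb => hx b hb⟩
      have hcopy : (orderOf (π y)).Coprime p :=
        Nat.Coprime.coprime_dvd_left (Subgroup.orderOf_dvd_natCard _ (mem_map_of_mem π hy))
          (card_map_coprime π hY)
      have hstab : ∀ w ∈ C, π y * w * (π y)⁻¹ ∈ C := by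
        intro w hw
        refine mem_inf.2 ⟨hRn.conj_mem _ hw.1 _, ?_⟩
        rw [mem_centralizer_iff]
        rintro _ ⟨a, ha, rfl⟩
        have h1 := hYcomm y hy a ha
        have h2 := mem_centralizer_iff.1 hw.2 (π a) (mem_map_of_mem π ha)
        calc π a * (π y * w * (π y)⁻¹) = (π a * π y) * w * (π y)⁻¹ := by group
          _ = (π y * π a) * w * (π y)⁻¹ := by rw [h1]
          _ = π y * (π a * w) * (π y)⁻¹ := by group
          _ = π y * (w * π a) * (π y)⁻¹ := by rw [h2]
          _ = π y * w * (π a * (π y)⁻¹) := by group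
          _ = π y * w * ((π y)⁻¹ * π a) := by
            congr 1
            rw [eq_inv_mul_iff_mul_eq, ← mul_assoc, h1, mul_inv_cancel_right]
          _ = (π y * w * (π y)⁻¹) * π a := by group
      have hfixΩ : ∀ w ∈ C, w ^ p = 1 → π y * w * (π y)⁻¹ = w := by
        intro w hw hwp
        obtain ⟨u, rfl⟩ := hπs w
        -- lift to the centralizer of `A`
        have hfix : ∀ a ∈ A, u * a * u⁻¹ * a⁻¹ ∈ O := by
          intro a ha
          have h2 := mem_centralizer_iff.1 hw.2 (π a) (mem_map_of_mem π ha)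
          rw [← hker, MonoidHom.mem_ker]
          simp only [map_mul, map_inv]
          rw [← h2]
          group
        have hAcard : (Nat.card O).Coprime (Nat.card A) := by
          obtain ⟨n, hn⟩ := IsPGroup.iff_card.1 hAp
          rw [hn]
          exact Nat.Coprime.pow_right n hOcop
        obtain ⟨n, hn, hc⟩ := Cfsg.Agent.Lib.OddLocal.exists_mul_mem_centralizer (N := O)
          (A := A) (fun x _ => by rw [normalizer_eq_top_iff.2 hOn]; trivial)
          hAcard (Or.inl inferInstance) u hfix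
        have hπn : π n = 1 := by rw [← MonoidHom.mem_ker, hker]; exact hn
        set c := n * u with hcdef
        have hπc : π c = π u := by rw [hcdef, map_mul, hπn, one_mul]
        -- the `p`-part of `c`
        have hopos : orderOf c ≠ 0 := (orderOf_pos c).ne'
        obtain ⟨s, m, hm, hsm⟩ := Nat.exists_eq_pow_mul_and_not_dvd hopos p (Fact.out : p.Prime).ne_one
        have hpm : p.Coprime m := ((Nat.Prime.coprime_iff_not_dvd Fact.out).2 hm)
        obtain ⟨t, -, ht⟩ := Nat.exists_mul_mod_eq_one_of_coprime hpm.symm (Fact.out : p.Prime).one_lt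
        set c' := c ^ (m * t) with hc'
        have hc'π : π c' = π u := by
          rw [hc', map_pow, hπc]
          have h1 : m * t = m * t % p + p * (m * t / p) := (Nat.mod_add_div _ _).symm
          rw [h1, ht, pow_add, pow_one, pow_mul, hwp, one_pow, mul_one]
        have hc'ord : c' ^ (p ^ s) = 1 := by
          rw [hc', ← pow_mul]
          have : m * t * p ^ s = orderOf c * t := by rw [hsm]; ring
          rw [this, pow_mul, pow_orderOf_eq_one, one_pow]
        have hc'p : c' ^ p = 1 := by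
          have h1 : c' ^ p ∈ O := by
            rw [← hker, MonoidHom.mem_ker, map_pow, hc'π, hwp]
          apply eq_one_of_mem_of_ppow hOcop h1 (k := s)
          rw [← pow_mul, mul_comm, pow_mul, hc'ord, one_pow]
        have hc'A : c' ∈ A := by
          apply hΩ c' _ hc'p
          intro a ha
          have h1 := mem_centralizer_iff.1 hc a ha
          exact (Commute.pow_left (show Commute a c from h1).symm (m * t)).eq
        rw [← hc'π]
        have h1 := hYcomm y hy c' hc'A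
        rw [h1, mul_inv_cancel_right]
      have h1 := Cfsg.Agent.Lib.OddLocal.fix_of_fix_omega p hp (π y) hcopy C
        (hRp.to_le inf_le_left) hstab hfixΩ x hxC
      have h2 := mul_inv_eq_iff_eq_mul.1 h1
      exact h2)
  intro y hy
  have h1 : π y ∈ R := hC (hT (mem_map_of_mem π hy))
  have h2 := mem_ker_of_map_mem π hY hRp hy h1
  rw [← hker]
  exact h2

end typeLevel

section groupLevel

variable {G : Type*} [Group G] [Finite G] {p : ℕ} [Fact p.Prime]

/-- `O_{p'}(X)` as a subgroup of `G`. -/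
noncomputable def Qc (p : ℕ) (X : Subgroup G) : Subgroup G := (pPrimeCore p ↥X).map X.subtype

theorem Qc_le (X : Subgroup G) : Qc p X ≤ X := map_subtype_le _

theorem Qc_coprime (X : Subgroup G) : (Nat.card (Qc p X)).Coprime p := by
  have h1 : Nat.card (Qc p X) = Nat.card (pPrimeCore p ↥X) :=
    Subgroup.card_map_of_injective X.subtype_injective
  rw [h1]
  exact Cfsg.Agent.Lib.Basic.pPrimeCore_coprime p

theorem le_normalizer_Qc (X : Subgroup G) : X ≤ normalizer (Qc p X : Set G) := by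
  intro x hx
  apply Cfsg.Agent.Lib.Coprime.mem_normalizer_of_conj_le
  rintro _ ⟨y, hy, rfl⟩
  haveI := Cfsg.Agent.Lib.Basic.pPrimeCore_normal (G := ↥X) p
  exact ⟨⟨x, hx⟩ * y * ⟨x, hx⟩⁻¹, this.conj_mem _ hy _, by simp⟩

theorem le_Qc_of_subgroupOf {X D : Subgroup G} (hD : D ≤ X) (h : D.subgroupOf X ≤ pPrimeCore p ↥X) :
    D ≤ Qc p X := by
  intro d hd
  exact ⟨⟨d, hD hd⟩, h (by rw [mem_subgroupOf]; exact hd), rfl⟩

theorem card_subgroupOf_le {X D : Subgroup G} (hD : D ≤ X) : Nat.card (D.subgroupOf X) = Nat.card D :=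
  Nat.card_congr (subgroupOfEquivOfLe hD).toEquiv

/-- `X ∩ O_{p'}(C_G(e)) ≤ O_{p'}(X)` for a `p`-element `e` of `X`. -/
theorem inf_Qc_centralizer_le {X : Subgroup G} (hsol : Group.IsSolvable X) {e : G} (heX : e ∈ X)
    {k : ℕ} (he : e ^ (p ^ k) = 1) : X ⊓ Qc p (centralizer ({e} : Set G)) ≤ Qc p X := by
  set C := centralizer ({e} : Set G) with hC
  set D := X ⊓ Qc p C with hD
  apply le_Qc_of_subgroupOf inf_le_left
  have hcop : (Nat.card D).Coprime p :=
    Nat.Coprime.coprime_dvd_left (Subgroup.card_dvd_of_le inf_le_right) (Qc_coprime C)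
  apply le_core_of_centralizes_pelt (⟨e, heX⟩ : X) k (Subtype.ext (by simpa using he))
  · intro d hd
    rw [mem_subgroupOf] at hd
    have h1 : (d : G) ∈ C := Qc_le C hd.2
    rw [hC, mem_centralizer_singleton_iff] at h1
    exact Subtype.ext h1
  · intro c hc d hd
    rw [mem_subgroupOf] at hd ⊢
    have hc' : (c : G) * e = e * c := congrArg Subtype.val hc
    have hcC : (c : G) ∈ C := by
      rw [hC, mem_centralizer_singleton_iff]
      exact hc'
    have h1 := (mem_normalizer_iff.1 (le_normalizer_Qc (p := p) C hcC) d).1 hd.2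
    refine ⟨?_, by simpa using h1⟩
    exact (c * d * c⁻¹).2
  · rwa [card_subgroupOf_le inf_le_left]

/-- The SCN case in `G`: `X` contains the Sylow subgroup. -/
theorem le_Qc_of_scn {X : Subgroup G} (hsol : Group.IsSolvable X) (hodd : Odd (Nat.card G))
    (P : Sylow p G) (hPX : (P : Subgroup G) ≤ X) (A : Subgroup G) (hAP : A ≤ (P : Subgroup G))
    (hAn : (P : Subgroup G) ≤ normalizer (A : Set G)) (hAc : IsMulCommutative A)
    (hself : (P : Subgroup G) ⊓ centralizer (A : Set G) ≤ A)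
    {Y : Subgroup G} (hYX : Y ≤ X) (hY : (Nat.card Y).Coprime p) (hYA : A ≤ normalizer (Y : Set G)) :
    Y ≤ Qc p X := by
  apply le_Qc_of_subgroupOf hYX
  have hoddX : Odd (Nat.card X) := Odd.of_dvd_nat hodd (Subgroup.card_subgroup_dvd_card X)
  apply le_core_of_scn hoddX (P.subtype hPX) (A.subgroupOf X)
  · intro a ha
    rw [mem_subgroupOf] at ha
    rw [Sylow.coe_subtype, mem_subgroupOf]
    exact hAP ha
  · intro x hx
    rw [Sylow.coe_subtype, mem_subgroupOf] at hx
    rw [mem_normalizer_iff]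
    intro a
    rw [mem_subgroupOf, mem_subgroupOf]
    have := mem_normalizer_iff.1 (hAn hx) (a : G)
    simpa using this
  · constructor
    constructor
    rintro ⟨a, ha⟩ ⟨b, hb⟩
    rw [mem_subgroupOf] at ha hb
    apply Subtype.ext
    apply Subtype.ext
    have := hAc.is_comm.comm (⟨a, ha⟩ : A) ⟨b, hb⟩
    simpa using congrArg Subtype.val this
  · intro x hx hcomm
    rw [Sylow.coe_subtype, mem_subgroupOf] at hx
    rw [mem_subgroupOf]
    apply hself
    refine mem_inf.2 ⟨hx, mem_centralizer_iff.2 ?_⟩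
    intro a ha
    have := hcomm ⟨a, hAP.trans hPX ha⟩ (by rw [mem_subgroupOf]; exact ha)
    exact (congrArg Subtype.val this).symm
  · rwa [card_subgroupOf_le hYX]
  · intro a ha
    rw [mem_subgroupOf] at ha
    rw [mem_normalizer_iff]
    intro y
    rw [mem_subgroupOf, mem_subgroupOf]
    have := mem_normalizer_iff.1 (hYA ha) (y : G)
    simpa using this

/-- The plength-one case in `G`. -/
theorem le_Qc_of_plength {X : Subgroup G} (hsol : Group.IsSolvable X) (hodd : Odd (Nat.card G))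
    (hp : p ≠ 2) (hl : PLengthLE p 1 X) (A : Subgroup G) (hAX : A ≤ X) (hAp : IsPGroup p A)
    (hAc : IsMulCommutative A) (hΩ : ∀ x ∈ centralizer (A : Set G), x ^ p = 1 → x ∈ A)
    {Y : Subgroup G} (hYX : Y ≤ X) (hY : (Nat.card Y).Coprime p) (hYA : A ≤ normalizer (Y : Set G)) :
    Y ≤ Qc p X := by
  apply le_Qc_of_subgroupOf hYX
  have hoddX : Odd (Nat.card X) := Odd.of_dvd_nat hodd (Subgroup.card_subgroup_dvd_card X)
  apply le_core_of_plength hoddX hp hl (A.subgroupOf X)
  · intro g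
    obtain ⟨k, hk⟩ := hAp ⟨g.1.1, g.2⟩
    exact ⟨k, Subtype.ext (Subtype.ext (by simpa using congrArg Subtype.val hk))⟩
  · constructor
    constructor
    rintro ⟨a, ha⟩ ⟨b, hb⟩
    rw [mem_subgroupOf] at ha hb
    apply Subtype.ext
    apply Subtype.ext
    have := hAc.is_comm.comm (⟨a, ha⟩ : A) ⟨b, hb⟩
    simpa using congrArg Subtype.val this
  · intro x hcomm hxp
    rw [mem_subgroupOf]
    apply hΩ
    · refine mem_centralizer_iff.2 ?_
      intro a ha
      have := hcomm ⟨a, hAX ha⟩ (by rw [mem_subgroupOf]; exact ha)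
      exact (congrArg Subtype.val this).symm
    · simpa using congrArg Subtype.val hxp
  · rwa [card_subgroupOf_le hYX]
  · intro a ha
    rw [mem_subgroupOf] at ha
    rw [mem_normalizer_iff]
    intro y
    rw [mem_subgroupOf, mem_subgroupOf]
    have := mem_normalizer_iff.1 (hYA ha) (y : G)
    simpa using this

theorem card_le_of_comm_mem_zpowers {P : Subgroup G} {z a : G} (hzP : ∀ g ∈ P, g * z = z * g)
    (hga : ∀ g ∈ P, g * a * g⁻¹ * a⁻¹ ∈ zpowers z) :
    Nat.card P ≤ Nat.card (zpowers z) * Nat.card ↥(P ⊓ centralizer ({a} : Set G)) := by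
  classical
  have hcomm : ∀ u ∈ zpowers z, ∀ g ∈ P, g * u = u * g := by
    intro u hu g hg
    obtain ⟨n, rfl⟩ := mem_zpowers_iff.1 hu
    exact (Commute.zpow_right (show Commute g z from hzP g hg) n).eq
  let f : ↥P →* ↥(zpowers z) := MonoidHom.mk'
    (fun g => ⟨(g : G) * a * (g : G)⁻¹ * a⁻¹, hga g g.2⟩) (by
      intro g h
      apply Subtype.ext
      have hw := hga h h.2
      obtain ⟨n, hn⟩ := mem_zpowers_iff.1 (hga g g.2)
      obtain ⟨m, hm⟩ := mem_zpowers_iff.1 hw
      have h1 := hcomm _ hw g g.2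
      show ((g * h : ↥P) : G) * a * ((g * h : ↥P) : G)⁻¹ * a⁻¹ =
        ((g : G) * a * (g : G)⁻¹ * a⁻¹) * ((h : G) * a * (h : G)⁻¹ * a⁻¹)
      have h2 : ((g : G) * a * (g : G)⁻¹ * a⁻¹) * ((h : G) * a * (h : G)⁻¹ * a⁻¹)
          = ((h : G) * a * (h : G)⁻¹ * a⁻¹) * ((g : G) * a * (g : G)⁻¹ * a⁻¹) := by
        rw [← hn, ← hm, ← zpow_add, ← zpow_add, add_comm]
      rw [h2]
      have h3 : ((g * h : ↥P) : G) * a * ((g * h : ↥P) : G)⁻¹ * a⁻¹
          = (g : G) * ((h : G) * a * (h : G)⁻¹ * a⁻¹) * a * (g : G)⁻¹ * a⁻¹ := by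
        simp only [Subgroup.coe_mul, mul_inv_rev]
        group
      rw [h3, h1]
      group)
  have h1 : Nat.card P = Nat.card f.ker * f.ker.index := (Subgroup.card_mul_index _).symm
  have h2 : f.ker.index = Nat.card f.range := Subgroup.index_ker f
  have h3 : Nat.card f.range ≤ Nat.card (zpowers z) := Subgroup.card_le_card_group _
  have h4 : Nat.card f.ker ≤ Nat.card ↥(P ⊓ centralizer ({a} : Set G)) := by
    let j : f.ker → ↥(P ⊓ centralizer ({a} : Set G)) := fun x => ⟨x.1.1, mem_inf.2 ⟨x.1.2, by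
      have h5 : f x.1 = 1 := x.2
      have h6 : (x.1 : G) * a * (x.1 : G)⁻¹ * a⁻¹ = 1 := congrArg Subtype.val h5
      rw [mem_centralizer_singleton_iff]
      have h7 := mul_inv_eq_one.1 h6
      exact mul_inv_eq_iff_eq_mul.1 h7⟩⟩
    apply Nat.card_le_card_of_injective j
    intro x y hxy
    apply Subtype.ext
    apply Subtype.ext
    exact congrArg (fun w : ↥(P ⊓ centralizer ({a} : Set G)) => (w : G)) hxy
  rw [h1, h2, mul_comm]
  exact Nat.mul_le_mul h3 h4

theorem comm_mem_zpowers_of_card_sq {R : Type*} [Group R] [Finite R] (hR : IsPGroup p R)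
    (E : Subgroup R) [hEn : E.Normal] (hE : Nat.card E = p ^ 2) {z : R} (hzE : z ∈ E) (hz1 : z ≠ 1)
    (hzp : z ^ p = 1) (hzc : ∀ g : R, g * z = z * g) :
    ∀ x ∈ E, ∀ g : R, g * x * g⁻¹ * x⁻¹ ∈ zpowers z := by
  classical
  have hpp : p.Prime := Fact.out
  set Z : Subgroup R := zpowers z with hZ
  have hZc : ∀ u ∈ Z, ∀ g : R, g * u = u * g := by
    intro u hu g
    obtain ⟨n, rfl⟩ := mem_zpowers_iff.1 hu
    exact (Commute.zpow_right (show Commute g z from hzc g) n).eq
  haveI hZn : Z.Normal := by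
    constructor
    intro u hu g
    rw [hZc u hu g, mul_inv_cancel_right]
    exact hu
  have hZcard : Nat.card Z = p := by
    rw [hZ, Nat.card_zpowers]
    exact orderOf_eq_prime hzp hz1
  have hZE : Z ≤ E := by rw [hZ, zpowers_le]; exact hzE
  set π := QuotientGroup.mk' Z with hπ
  have hπs : Function.Surjective π := QuotientGroup.mk'_surjective Z
  have hker : π.ker = Z := QuotientGroup.ker_mk' Z
  haveI hEbar : (E.map π).Normal := hEn.map π hπs
  have hEne : E.map π ≠ ⊥ := by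
    intro h
    have h1 : E ≤ Z := by
      rw [← hker]
      exact (Subgroup.map_eq_bot_iff E).1 h
    have h2 : Nat.card E ≤ Nat.card Z := Subgroup.card_le_of_le h1
    rw [hE, hZcard] at h2
    have h3 := hpp.two_le
    nlinarith
  obtain ⟨e, he, he1, hec, -⟩ :=
    Cfsg.Agent.Lib.Transfer.exists_central_of_normal (hR.to_quotient Z) hEne
  obtain ⟨e', he', rfl⟩ := he
  set B : Subgroup R := E ⊓ (center (R ⧸ Z)).comap π with hB
  have hZB : Z ≤ B := by
    intro u hu
    refine mem_inf.2 ⟨hZE hu, mem_comap.2 ?_⟩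
    have h1 : π u = 1 := by rw [← MonoidHom.mem_ker, hker]; exact hu
    rw [h1]
    exact one_mem _
  have he'B : e' ∈ B := by
    exact mem_inf.2 ⟨he', mem_comap.2 (mem_center_iff.2 hec)⟩
  have he'Z : e' ∉ Z := by
    intro h
    apply he1
    rw [← MonoidHom.mem_ker, hker]
    exact h
  have hBcard : Nat.card B = p ^ 2 := by
    have h1 : Nat.card B ∣ p ^ 2 := by
      rw [← hE]
      exact Subgroup.card_dvd_of_le inf_le_left
    obtain ⟨i, hi, hie⟩ := (Nat.dvd_prime_pow hpp).1 h1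
    have h2 : Nat.card Z < Nat.card B := by
      refine Cfsg.Agent.Lib.OddLocal.card_lt_of_subgroup_lt (lt_of_le_of_ne hZB ?_)
      intro h
      exact he'Z (h ▸ he'B)
    rw [hZcard, hie] at h2
    have h3 : i = 2 := by
      have h4 : p ^ 1 < p ^ i := by simpa using h2
      have h5 := (Nat.pow_lt_pow_iff_right hpp.one_lt).1 h4
      omega
    rw [hie, h3]
  have hBE : B = E := by
    apply Subgroup.eq_of_le_of_card_ge inf_le_left
    rw [hBcard, hE]
  intro x hx g
  have hxB : x ∈ B := hBE ▸ hx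
  have h1 : π x ∈ center (R ⧸ Z) := hxB.2
  rw [mem_center_iff] at h1
  rw [← hker, MonoidHom.mem_ker]
  simp only [map_mul, map_inv]
  rw [h1 (π g)]
  group

/-- The key step: elements `a` of `A` with `[P, a] ≤ ⟨z⟩`. -/
theorem good_elt (hG : IsMinSimpleOddOrder G) (hp : p ≠ 2) (P : Sylow p G) {A : Subgroup G}
    (hAP : A ≤ (P : Subgroup G)) (hAn : (P : Subgroup G) ≤ normalizer (A : Set G))
    (hAc : IsMulCommutative A) (hself : (P : Subgroup G) ⊓ centralizer (A : Set G) ≤ A)
    {z a : G} (hzA : z ∈ A) (hz1 : z ≠ 1) (hzp : z ^ p = 1) (hzc : ∀ g ∈ (P : Subgroup G), g * z = z * g)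
    (haA : a ∈ A) (ha1 : a ≠ 1) (hga : ∀ g ∈ (P : Subgroup G), g * a * g⁻¹ * a⁻¹ ∈ zpowers z)
    {Y : Subgroup G} (hYC : Y ≤ centralizer ({a} : Set G)) (hY : (Nat.card Y).Coprime p)
    (hYA : A ≤ normalizer (Y : Set G)) :
    Y ≤ Qc p (centralizer ({a} : Set G)) := by
  classical
  have hpp : p.Prime := Fact.out
  have hodd : Odd (Nat.card G) := hG.1
  set Ca := centralizer ({a} : Set G) with hCa
  have hCane : Ca ≠ ⊤ := Cfsg.Agent.Lib.OddLocal.centralizer_singleton_ne_top hG ha1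
  have hsol : Group.IsSolvable Ca := hG.2.2.2 Ca hCane
  have hCzne : centralizer ({z} : Set G) ≠ ⊤ := Cfsg.Agent.Lib.OddLocal.centralizer_singleton_ne_top hG hz1
  have hsolz : Group.IsSolvable (centralizer ({z} : Set G)) := hG.2.2.2 _ hCzne
  have hAcomm : ∀ u ∈ A, ∀ v ∈ A, u * v = v * u := by
    intro u hu v hv
    exact congrArg Subtype.val (hAc.is_comm.comm (⟨u, hu⟩ : A) ⟨v, hv⟩)
  have hzCa : z ∈ Ca := by
    rw [hCa, mem_centralizer_singleton_iff]
    exact hAcomm _ hzA _ haA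
  set T := (P : Subgroup G) ⊓ Ca with hT
  have hzT : z ∈ T := ⟨hAP hzA, hzCa⟩
  have hTle : Nat.card (P : Subgroup G) ≤ p * Nat.card T := by
    have h1 := card_le_of_comm_mem_zpowers hzc hga
    have h2 : Nat.card (zpowers z) = p := by
      rw [Nat.card_zpowers]
      exact orderOf_eq_prime hzp hz1
    rwa [h2] at h1
  have hTp : IsPGroup p T := P.isPGroup'.to_le inf_le_left
  have hT' : IsPGroup p (T.subgroupOf Ca) := by
    intro g
    obtain ⟨k, hk⟩ := hTp ⟨g.1.1, g.2⟩
    exact ⟨k, Subtype.ext (Subtype.ext (by simpa using congrArg Subtype.val hk))⟩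
  obtain ⟨T₁', hT₁'⟩ := hT'.exists_le_sylow
  set T₁ : Subgroup G := (T₁' : Subgroup Ca).map Ca.subtype with hT₁
  have hT₁p : IsPGroup p T₁ := (T₁'.isPGroup').map _
  have hTT₁ : T ≤ T₁ := by
    intro t ht
    exact ⟨⟨t, ht.2⟩, hT₁' (by rw [mem_subgroupOf]; exact ht), rfl⟩
  have hT₁le : Nat.card T₁ ≤ Nat.card (P : Subgroup G) := by
    obtain ⟨Q, hQ⟩ := hT₁p.exists_le_sylow
    have h1 : Nat.card T₁ ≤ Nat.card (Q : Subgroup G) := Subgroup.card_le_of_le hQ
    rwa [Sylow.card_eq_multiplicity Q, ← Sylow.card_eq_multiplicity P] at h1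
  have hnorm : T₁ ≤ normalizer (T : Set G) := by
    by_cases hTe : T = T₁
    · rw [← hTe]
      exact le_normalizer
    have hlt : T < T₁ := lt_of_le_of_ne hTT₁ hTe
    have h1 := Cfsg.Agent.Lib.OddLocal.lt_inf_normalizer hT₁p hlt
    set N₁ := T₁ ⊓ normalizer (T : Set G) with hN₁
    have hN₁p : IsPGroup p N₁ := hT₁p.to_le inf_le_left
    have h2 : Nat.card T < Nat.card N₁ := Cfsg.Agent.Lib.OddLocal.card_lt_of_subgroup_lt h1
    obtain ⟨u, hu⟩ := IsPGroup.iff_card.1 hTp
    obtain ⟨v, hv⟩ := IsPGroup.iff_card.1 hN₁p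
    have h3 : u < v := by
      rw [hu, hv] at h2
      exact (Nat.pow_lt_pow_iff_right hpp.one_lt).1 h2
    have h4 : p * Nat.card T ≤ Nat.card N₁ := by
      rw [hu, hv, ← pow_succ']
      exact Nat.pow_le_pow_right hpp.pos h3
    have h5 : N₁ = T₁ := by
      apply Subgroup.eq_of_le_of_card_ge inf_le_left
      exact hT₁le.trans (hTle.trans h4)
    rw [← h5]
    exact inf_le_right
  have hzq : z ^ (p ^ 1) = 1 := by rwa [pow_one]
  have hoddCa : Odd (Nat.card Ca) := Odd.of_dvd_nat hodd (Subgroup.card_subgroup_dvd_card Ca)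
  apply le_Qc_of_subgroupOf hYC
  apply le_core_of_quad hoddCa hp (⟨z, hzCa⟩ : Ca) 1 (Subtype.ext (by simpa using hzq)) T₁'
  · intro t ht
    have htT₁ : (t : G) ∈ T₁ := ⟨t, ht, rfl⟩
    have h1 : (t : G) * z * (t : G)⁻¹ ∈ T := (mem_normalizer_iff.1 (hnorm htT₁) z).1 hzT
    have h2 : (t : G) * z * (t : G)⁻¹ * z⁻¹ ∈ T := T.mul_mem h1 (T.inv_mem hzT)
    have h3 := hzc _ h2.1
    apply Subtype.ext
    show (⁅t, (⟨z, hzCa⟩ : Ca)⁆ : Ca).1 * z = z * (⁅t, (⟨z, hzCa⟩ : Ca)⁆ : Ca).1
    have h4 : ((⁅t, (⟨z, hzCa⟩ : Ca)⁆ : Ca) : G) = (t : G) * z * (t : G)⁻¹ * z⁻¹ := by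
      rw [commutatorElement_def]
      simp
    rw [h4]
    exact h3
  · rwa [card_subgroupOf_le hYC]
  · intro y hy
    rw [mem_subgroupOf] at hy ⊢
    exact (mem_normalizer_iff.1 (hYA hzA) y).1 hy
  · intro y hy hyz
    rw [mem_subgroupOf] at hy
    have hyz' : (y : G) * z = z * y := congrArg Subtype.val hyz
    have hPz : (P : Subgroup G) ≤ centralizer ({z} : Set G) := by
      intro g hg
      rw [mem_centralizer_singleton_iff]
      exact hzc g hg
    have hY₁ : Y ⊓ centralizer ({z} : Set G) ≤ Qc p (centralizer ({z} : Set G)) := by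
      apply le_Qc_of_scn hsolz hodd P hPz A hAP hAn hAc hself inf_le_right
      · exact Nat.Coprime.coprime_dvd_left (Subgroup.card_dvd_of_le inf_le_left) hY
      · intro b hb
        apply Cfsg.Agent.Lib.Coprime.mem_normalizer_of_conj_le
        intro w hw
        refine mem_inf.2 ⟨(mem_normalizer_iff.1 (hYA hb) w).1 hw.1, ?_⟩
        have hw2 : w * z = z * w := mem_centralizer_singleton_iff.1 hw.2
        have hb2 : b * z = z * b := hAcomm _ hb _ hzA
        rw [mem_centralizer_singleton_iff]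
        calc b * w * b⁻¹ * z = b * w * (b⁻¹ * z) := by group
          _ = b * w * (z * b⁻¹) := by
            congr 1
            rw [inv_mul_eq_iff_eq_mul, ← mul_assoc, hb2, mul_inv_cancel_right]
          _ = b * (w * z) * b⁻¹ := by group
          _ = b * (z * w) * b⁻¹ := by rw [hw2]
          _ = (b * z) * w * b⁻¹ := by group
          _ = (z * b) * w * b⁻¹ := by rw [hb2]
          _ = z * (b * w * b⁻¹) := by group
    have h1 : (y : G) ∈ Y ⊓ centralizer ({z} : Set G) :=
      mem_inf.2 ⟨hy, by rw [mem_centralizer_singleton_iff]; exact hyz'⟩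
    have h2 := inf_Qc_centralizer_le (X := Ca) hsol hzCa hzq (mem_inf.2 ⟨y.2, hY₁ h1⟩)
    obtain ⟨y0, hy0, e⟩ := h2
    have : y0 = y := Subtype.ext e
    rwa [← this]

/-- Case (2) of the transitivity hypothesis. -/
theorem le_Qc_of_scn_noncyclic (hG : IsMinSimpleOddOrder G) (hp : p ≠ 2) (P : Sylow p G) {A : Subgroup G}
    (hAP : A ≤ (P : Subgroup G)) (hAn : (P : Subgroup G) ≤ normalizer (A : Set G))
    (hAc : IsMulCommutative A) (hself : (P : Subgroup G) ⊓ centralizer (A : Set G) ≤ A)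
    (hr : ¬ PRankLE p 1 A) {X : Subgroup G} (hX : X ≠ ⊤) (hAX : A ≤ X)
    {Y : Subgroup G} (hYX : Y ≤ X) (hY : (Nat.card Y).Coprime p) (hYA : A ≤ normalizer (Y : Set G)) :
    Y ≤ Qc p X := by
  classical
  have hpp : p.Prime := Fact.out
  have hsolX : Group.IsSolvable X := hG.2.2.2 X hX
  have hPp : IsPGroup p (P : Subgroup G) := P.isPGroup'
  -- the normal noncyclic subgroup of `P`
  set S : Subgroup (P : Subgroup G) := A.subgroupOf (P : Subgroup G) with hS
  haveI hSn : S.Normal := by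
    constructor
    intro x hx g
    rw [hS, mem_subgroupOf] at hx ⊢
    exact (mem_normalizer_iff.1 (hAn g.2) x).1 hx
  have hScyc : ¬ IsCyclic S := by
    intro hc
    apply hr
    haveI hcA : IsCyclic A := by
      have e : S ≃* A := subgroupOfEquivOfLe hAP
      exact isCyclic_of_surjective e.toMonoidHom e.surjective
    intro F _ hFp
    haveI : IsCyclic F := inferInstance
    have h1 : Monoid.exponent F = Nat.card F := IsCyclic.exponent_eq_card
    have h2 : Monoid.exponent F ∣ p := Monoid.exponent_dvd_of_forall_pow_eq_one (fun g => by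
      apply Subtype.ext
      exact hFp g g.2)
    rw [h1] at h2
    rw [pow_one]
    exact Nat.le_of_dvd hpp.pos h2
  obtain ⟨E', hE'S, hE'n, hE'e, hE'c⟩ :=
    Cfsg.Agent.Lib.PLocal.exists_normal_elementary_in hp _ (P : Subgroup G) rfl hPp S hScyc
  have hE'ne : E' ≠ ⊥ := by
    rintro rfl
    rw [Subgroup.card_bot] at hE'c
    have h3 := hpp.two_le
    nlinarith
  obtain ⟨z, hzE, hz1, hzc, hzp⟩ := Cfsg.Agent.Lib.Transfer.exists_central_of_normal hPp hE'ne
  have hcomm := comm_mem_zpowers_of_card_sq hPp E' hE'c hzE hz1 hzp hzc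
  set E : Subgroup G := E'.map (P : Subgroup G).subtype with hE
  have hEe : IsElementaryAbelian p E := by
    refine ⟨⟨⟨?_⟩⟩, ?_⟩
    · rintro ⟨_, u, hu, rfl⟩ ⟨_, v, hv, rfl⟩
      apply Subtype.ext
      have := hE'e.1.is_comm.comm (⟨u, hu⟩ : E') ⟨v, hv⟩
      have h2 := congrArg (fun w : E' => ((w : (P : Subgroup G)) : G)) this
      simpa using h2
    · rintro _ ⟨u, hu, rfl⟩
      have := hE'e.2 u hu
      simpa using congrArg Subtype.val this
  have hEcard : Nat.card E = p ^ 2 := by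
    rw [hE, Subgroup.card_map_of_injective (P : Subgroup G).subtype_injective]
    exact hE'c
  have hEA : E ≤ A := by
    rintro _ ⟨u, hu, rfl⟩
    have := hE'S hu
    rwa [hS, mem_subgroupOf] at this
  have hzA : ((z : (P : Subgroup G)) : G) ∈ A := hEA ⟨z, hzE, rfl⟩
  have hz1' : ((z : (P : Subgroup G)) : G) ≠ 1 := fun h => hz1 (Subtype.ext h)
  have hzp' : ((z : (P : Subgroup G)) : G) ^ p = 1 := congrArg Subtype.val hzp
  have hzc' : ∀ g ∈ (P : Subgroup G), g * (z : G) = (z : G) * g := by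
    intro g hg
    exact congrArg Subtype.val (hzc ⟨g, hg⟩)
  have hcop : ¬ p ∣ Nat.card Y := fun h => by
    have := Nat.dvd_gcd h (dvd_refl p)
    rw [hY.gcd_eq_one] at this
    exact hpp.one_lt.ne' (Nat.dvd_one.1 this)
  have hEY : E ≤ normalizer (Y : Set G) := hEA.trans hYA
  refine (Cfsg.Agent.Lib.Components.le_iSup_centralizer_hyperplane hEe hcop hEY).trans ?_
  refine iSup_le ?_
  rintro ⟨B, hBE, hBi⟩
  -- `B` has a nontrivial element
  have hB1 : ∃ e ∈ B, e ≠ 1 := by
    by_contra hcon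
    push Not at hcon
    have hBbot : B = ⊥ := (Subgroup.eq_bot_iff_forall _).2 hcon
    subst hBbot
    have h1 : (⊥ : Subgroup G).relIndex E = Nat.card E := by
      rw [relIndex_bot_left]
    rw [h1, hEcard] at hBi
    have h3 := hpp.two_le
    nlinarith
  obtain ⟨e, heB, he1⟩ := hB1
  have heE := hBE heB
  have heA := hEA heE
  have hhyp : ∀ g ∈ (P : Subgroup G), g * e * g⁻¹ * e⁻¹ ∈ zpowers ((z : (P : Subgroup G)) : G) := by
    intro g hg
    obtain ⟨u, hu, rfl⟩ := heE
    have h1 := hcomm u hu ⟨g, hg⟩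
    obtain ⟨n, hn⟩ := mem_zpowers_iff.1 h1
    rw [mem_zpowers_iff]
    refine ⟨n, ?_⟩
    have := congrArg Subtype.val hn
    simpa using this
  have hAcomm : ∀ u ∈ A, ∀ v ∈ A, u * v = v * u := by
    intro u hu v hv
    exact congrArg Subtype.val (hAc.is_comm.comm (⟨u, hu⟩ : A) ⟨v, hv⟩)
  have hYe : Y ⊓ centralizer ({e} : Set G) ≤ Qc p (centralizer ({e} : Set G)) := by
    apply good_elt hG hp P hAP hAn hAc hself hzA hz1' hzp' hzc' heA he1 hhyp inf_le_right
    · exact Nat.Coprime.coprime_dvd_left (Subgroup.card_dvd_of_le inf_le_left) hY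
    · intro b hb
      apply Cfsg.Agent.Lib.Coprime.mem_normalizer_of_conj_le
      intro w hw
      refine mem_inf.2 ⟨(mem_normalizer_iff.1 (hYA hb) w).1 hw.1, ?_⟩
      have hw2 : w * e = e * w := mem_centralizer_singleton_iff.1 hw.2
      have hb2 : b * e = e * b := hAcomm _ hb _ heA
      rw [mem_centralizer_singleton_iff]
      calc b * w * b⁻¹ * e = b * w * (b⁻¹ * e) := by group
        _ = b * w * (e * b⁻¹) := by
          congr 1
          rw [inv_mul_eq_iff_eq_mul, ← mul_assoc, hb2, mul_inv_cancel_right]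
        _ = b * (w * e) * b⁻¹ := by group
        _ = b * (e * w) * b⁻¹ := by rw [hw2]
        _ = (b * e) * w * b⁻¹ := by group
        _ = (e * b) * w * b⁻¹ := by rw [hb2]
        _ = e * (b * w * b⁻¹) := by group
  intro y hy
  have hy1 : y ∈ Y := hy.1
  have hy2 : y ∈ centralizer ({e} : Set G) := by
    have h1 : y ∈ centralizer ((B : Subgroup G) : Set G) := hy.2
    rw [mem_centralizer_iff] at h1
    rw [mem_centralizer_singleton_iff]
    exact (h1 e heB).symm
  have heq : e ^ (p ^ 1) = 1 := by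
    rw [pow_one]
    exact hEe.2 e heE
  exact inf_Qc_centralizer_le hsolX (hAX heA) heq (mem_inf.2 ⟨hYX hy1, hYe (mem_inf.2 ⟨hy1, hy2⟩)⟩)

end groupLevel

end Cfsg.Agent.Lib.FT
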